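import Mathlib
import Cfsg.Agent.Base

/-!
# Faithful projective representations of degree four, given by a lifting predicate
-/

set_option autoImplicit false

namespace H28.R4

open Matrix Subgroup
open scoped commutatorElement

/-- a faithful projective representation: `L g M` says that the matrix `M` lifts `g` -/
structure Cx (G k ι : Type*) [Group G] [Field k] [Fintype ι] [DecidableEq ι] where
  /-- the lifting predicate -/
  L : G → Matrix ι ι k → Prop
  card : Fintype.card ι = 4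
  ex : ∀ g, ∃ M, L g M
  one : L 1 1
  mul : ∀ {g h M N}, L g M → L h N → L (g * h) (M * N)
  smul : ∀ {g M} {c : k}, L g M → c ≠ 0 → L g (c • M)
  uniq : ∀ {g M N}, L g M → L g N → ∃ c : k, c ≠ 0 ∧ N = c • M
  inj : ∀ {g h M}, L g M → L h M → g = h

/-- cyclic, dihedral or polyhedral -/
def Tame (Y : Type*) [Group Y] : Prop :=
  IsCyclic Y ∨ (∃ n, 2 ≤ n ∧ Nonempty (Y ≃* DihedralGroup n)) ∨ Nonempty (Y ≃* alternatingGroup (Fin 4)) ∨
    Nonempty (Y ≃* Equiv.Perm (Fin 4)) ∨ Nonempty (Y ≃* alternatingGroup (Fin 5))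

variable {G k ι κ : Type*} [Group G] [Field k] [Fintype ι] [DecidableEq ι] [Fintype κ] [DecidableEq κ]

/-- an involution with two eigenspaces of dimension two -/
def Bi (S : Matrix ι ι k) : Prop := S * S = 1 ∧ S.trace = 0

/-- a reflection -/
def Rf (S : Matrix ι ι k) : Prop := S * S = 1 ∧ S.trace = 2 ∧ S.det = -1

theorem Bi.neg {S : Matrix ι ι k} (h : Bi S) : Bi (-S) := ⟨by simpa using h.1, by simp [h.2]⟩

/-- `det (M on V₊) / det (M on V₋)` for a matrix commuting with `S` -/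
noncomputable def del (S M : Matrix ι ι k) : k :=
  ((2 : k)⁻¹ • (M * (1 + S) + (1 - S))).det / ((2 : k)⁻¹ • (M * (1 - S) + (1 + S))).det

/-- a Clifford frame -/
structure Fr (γ : Fin 6 → Fin 6 → Matrix ι ι k) : Prop where
  mul : ∀ i j l, γ i j * γ j l = γ i l
  self : ∀ i, γ i i = 1
  anti : ∀ i j, i ≠ j → γ j i = -γ i j

/-- the bilinear extension of a frame -/
def gm (γ : Fin 6 → Fin 6 → Matrix ι ι k) (u v : Fin 6 → k) : Matrix ι ι k :=
  ∑ i, ∑ j, (u i * v j) • γ i j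

namespace Cx

variable {C : Cx G k ι} {g h : G} {M N S : Matrix ι ι k}

theorem nonempty (C : Cx G k ι) : Nonempty ι := Fintype.card_pos_iff.1 (by rw [C.card]; norm_num)

theorem trace_one (C : Cx G k ι) : (1 : Matrix ι ι k).trace = 4 := by
  rw [Matrix.trace_one, C.card]; norm_num

theorem det_smul' (C : Cx G k ι) (c : k) (M : Matrix ι ι k) : (c • M).det = c ^ 4 * M.det := by
  rw [Matrix.det_smul, C.card]

theorem exists_inv (hg : C.L g M) : ∃ N, C.L g⁻¹ N ∧ M * N = 1 ∧ N * M = 1 := by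
  obtain ⟨N, hN⟩ := C.ex g⁻¹
  have h1 := C.mul hg hN
  rw [mul_inv_cancel] at h1
  obtain ⟨c, c0, hc⟩ := C.uniq h1 C.one
  have e : M * (c • N) = 1 := by rw [Matrix.mul_smul, ← hc]
  exact ⟨c • N, C.smul hN c0, e, mul_eq_one_comm.1 e⟩

theorem unit (hg : C.L g M) : IsUnit M := by
  obtain ⟨N, -, h1, h2⟩ := exists_inv hg
  exact ⟨⟨M, N, h1, h2⟩, rfl⟩

theorem det_unit (hg : C.L g M) : IsUnit M.det := (isUnit_iff_isUnit_det M).1 (unit hg)

theorem det_ne (hg : C.L g M) : M.det ≠ 0 := (det_unit hg).ne_zero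

theorem ne_zero (hg : C.L g M) : M ≠ 0 := by
  have := C.nonempty
  rintro rfl
  exact det_ne hg det_zero

theorem inv_of_mul (hg : C.L g M) (e : M * N = 1) : C.L g⁻¹ N := by
  obtain ⟨N', h1, -, h2⟩ := exists_inv hg
  rwa [show N = N' by rw [← one_mul N, ← h2, mul_assoc, e, mul_one]]

theorem inv (hg : C.L g M) : C.L g⁻¹ M⁻¹ := inv_of_mul hg (mul_nonsing_inv M (det_unit hg))

theorem mul_inv (hg : C.L g M) : M * M⁻¹ = 1 := mul_nonsing_inv M (det_unit hg)

theorem inv_mul (hg : C.L g M) : M⁻¹ * M = 1 := nonsing_inv_mul M (det_unit hg)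

theorem neg (hg : C.L g M) : C.L g (-M) := by
  simpa using C.smul hg (neg_ne_zero.2 (one_ne_zero (α := k)))

theorem pow (hg : C.L g M) (n : ℕ) : C.L (g ^ n) (M ^ n) := by
  induction n with
  | zero => simpa using C.one
  | succ n ih => rw [pow_succ, pow_succ]; exact C.mul ih hg

theorem conj (hg : C.L g M) (hh : C.L h N) : C.L (g * h * g⁻¹) (M * N * M⁻¹) :=
  C.mul (C.mul hg hh) (inv hg)

theorem eq_of_smul {c : k} (hg : C.L g M) (hh : C.L h N) (e : N = c • M) : g = h := by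
  have c0 : c ≠ 0 := by rintro rfl; exact ne_zero hh (by rw [e, zero_smul])
  exact C.inj (C.smul hg c0) (e ▸ hh)

theorem eq_iff (hg : C.L g M) (hh : C.L h N) : g = h ↔ ∃ c : k, N = c • M :=
  ⟨fun e => (C.uniq hg (e ▸ hh)).imp fun _ => And.right, fun ⟨_, e⟩ => eq_of_smul hg hh e⟩

theorem eq_one_iff (hg : C.L g M) : g = 1 ↔ ∃ c : k, M = c • 1 := eq_comm.trans (eq_iff C.one hg)

theorem comm_iff (hg : C.L g M) (hh : C.L h N) : g * h = h * g ↔ ∃ c : k, M * N = c • (N * M) :=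
  eq_comm.trans (eq_iff (C.mul hh hg) (C.mul hg hh))

theorem exists_pow [IsAlgClosed k] {n : ℕ} (hn : n ≠ 0) (hg : g ^ n = 1) : ∃ M, C.L g M ∧ M ^ n = 1 := by
  obtain ⟨M, hM⟩ := C.ex g
  obtain ⟨c, c0, hc⟩ := C.uniq (pow hM n) (hg ▸ C.one)
  obtain ⟨d, rfl⟩ := IsAlgClosed.exists_pow_nat_eq c (Nat.pos_of_ne_zero hn)
  exact ⟨d • M, C.smul hM fun e => c0 (by rw [e, zero_pow hn]), by rw [_root_.smul_pow, ← hc]⟩

theorem exists_det [IsAlgClosed k] (g : G) : ∃ M, C.L g M ∧ M.det = 1 := by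
  obtain ⟨M, hM⟩ := C.ex g
  obtain ⟨d, hd⟩ := IsAlgClosed.exists_pow_nat_eq M.det⁻¹ (n := 4) (by norm_num)
  refine ⟨d • M, C.smul hM fun e => ?_, by rw [C.det_smul', hd, inv_mul_cancel₀ (det_ne hM)]⟩
  rw [e, zero_pow (by norm_num)] at hd
  exact inv_ne_zero (det_ne hM) hd.symm

variable (C)

/-- change of basis -/
def cj (B : Matrix κ ι k) (B' : Matrix ι κ k) (h1 : B * B' = 1) (h2 : B' * B = 1)
    (hκ : Fintype.card κ = 4) : Cx G k κ where
  L g M := C.L g (B' * M * B)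
  card := hκ
  ex g := by
    obtain ⟨M, hM⟩ := C.ex g
    refine ⟨B * M * B', ?_⟩
    rwa [show B' * (B * M * B') * B = (B' * B) * M * (B' * B) by simp only [Matrix.mul_assoc], h2,
      Matrix.one_mul, Matrix.mul_one]
  one := by simpa [h2] using C.one
  mul {g h M N} a b := by
    have := C.mul a b
    rwa [show B' * M * B * (B' * N * B) = B' * (M * (B * B') * N) * B by simp only [Matrix.mul_assoc], h1,
      Matrix.mul_one] at this
  smul a c0 := by simpa using C.smul a c0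
  uniq {g M N} a b := by
    obtain ⟨c, c0, e⟩ := C.uniq a b
    refine ⟨c, c0, ?_⟩
    have := congrArg (fun X => B * X * B') e
    simp only [Matrix.mul_smul, Matrix.smul_mul] at this
    rwa [show B * (B' * N * B) * B' = (B * B') * N * (B * B') by simp only [Matrix.mul_assoc],
      show B * (B' * M * B) * B' = (B * B') * M * (B * B') by simp only [Matrix.mul_assoc], h1,
      Matrix.one_mul, Matrix.mul_one, Matrix.one_mul, Matrix.mul_one] at this
  inj a b := C.inj a b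

/-- the group of all lifts -/
def Gam : Subgroup (GL ι k) where
  carrier := {u | ∃ g, C.L g u.val}
  mul_mem' := fun ⟨g, a⟩ ⟨h, b⟩ => ⟨g * h, C.mul a b⟩
  one_mem' := ⟨1, C.one⟩
  inv_mem' := fun {u} ⟨g, a⟩ => ⟨g⁻¹, inv_of_mul a u.mul_inv⟩

/-- the perfect core -/
def P : Subgroup (GL ι k) := ⁅C.Gam, C.Gam⁆

/-- all traces are real -/
def Real : Prop := ∀ u ∈ C.P, (u⁻¹).val.trace = u.val.trace

/-- all traces lie in the prime field -/
def Lin (p : ℕ) : Prop := ∀ u ∈ C.P, u.val.trace ^ p = u.val.trace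

/-- the unitary trace pattern -/
def Uni (p : ℕ) : Prop := ∀ u ∈ C.P, u.val.trace ^ p = (u⁻¹).val.trace

/-- the trace pattern for the field `ℚ(√-7)` -/
def Pat7 (p : ℕ) : Prop :=
  ((p % 7 = 1 ∨ p % 7 = 2 ∨ p % 7 = 4) ∧ C.Lin p) ∨ ((p % 7 = 3 ∨ p % 7 = 5 ∨ p % 7 = 6) ∧ C.Uni p)

/-- the trace pattern for the field `ℚ(√-3)` -/
def Pat3 (p : ℕ) : Prop := (p % 3 = 1 ∧ C.Lin p) ∨ (p % 3 = 2 ∧ C.Uni p)

/-- the elements whose lifts commute with `S` -/
def St (S : Matrix ι ι k) : Subgroup G where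
  carrier := {g | ∀ M, C.L g M → M * S = S * M}
  mul_mem' := fun {g h} a b M hM => by
    obtain ⟨A, hA⟩ := C.ex g
    obtain ⟨B, hB⟩ := C.ex h
    obtain ⟨c, -, rfl⟩ := C.uniq (C.mul hA hB) hM
    rw [smul_mul_assoc, mul_smul_comm, mul_assoc, b B hB, ← mul_assoc, a A hA, mul_assoc]
  one_mem' := fun M hM => by
    obtain ⟨c, rfl⟩ := (eq_one_iff hM).1 rfl
    simp
  inv_mem' := fun {g} a M hM => by
    obtain ⟨N, hN, h1, h2⟩ := exists_inv hM
    have := a N (by simpa using hN)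
    calc M * S = M * S * (N * M) := by rw [h2, mul_one]
      _ = M * (N * S) * M := by rw [this]; simp only [mul_assoc]
      _ = S * M := by rw [← mul_assoc, h1, one_mul]

/-- the elements of `St S` which are scalar on the fixed space of `S` -/
def Kp (S : Matrix ι ι k) : Subgroup (C.St S) where
  carrier := {g | ∀ M, C.L g M → ∃ c : k, M * (1 + S) = c • (1 + S)}
  mul_mem' := fun {g h} a b M hM => by
    obtain ⟨A, hA⟩ := C.ex g
    obtain ⟨B, hB⟩ := C.ex h
    obtain ⟨c, -, rfl⟩ := C.uniq (C.mul hA hB) hM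
    obtain ⟨x, hx⟩ := a A hA
    obtain ⟨y, hy⟩ := b B hB
    exact ⟨c * (y * x), by rw [smul_mul_assoc, mul_assoc, hy, mul_smul_comm, hx, smul_smul, smul_smul, mul_assoc]⟩
  one_mem' := fun M hM => by
    obtain ⟨c, rfl⟩ := (eq_one_iff hM).1 rfl
    exact ⟨c, by simp⟩
  inv_mem' := fun {g} a M hM => by
    obtain ⟨N, hN, h1, h2⟩ := exists_inv hM
    obtain ⟨x, hx⟩ := a N (by simpa using hN)
    have e : (1 + S) = x • (M * (1 + S)) := by rw [← mul_smul_comm, ← hx, ← mul_assoc, h1, one_mul]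
    by_cases x0 : x = 0
    · exact ⟨0, by rw [e, x0]; simp⟩
    · exact ⟨x⁻¹, by rw [eq_inv_smul_iff₀ x0, ← e]⟩

instance (S : Matrix ι ι k) : (C.Kp S).Normal := ⟨fun x a g M hM => by
  obtain ⟨A, hA⟩ := C.ex g
  obtain ⟨B, hB⟩ := C.ex x
  obtain ⟨c, -, rfl⟩ := C.uniq (conj hA hB) hM
  obtain ⟨y, hy⟩ := a B hB
  have e1 : A⁻¹ * (1 + S) = (1 + S) * A⁻¹ := by
    rw [mul_add, add_mul, (g⁻¹).2 _ (inv hA), mul_one, one_mul]
  have e2 : A * (1 + S) = (1 + S) * A := by rw [mul_add, add_mul, g.2 _ hA, mul_one, one_mul]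
  refine ⟨c * y, ?_⟩
  rw [smul_mul_assoc, mul_assoc, e1, mul_assoc, ← mul_assoc B, hy, smul_mul_assoc, mul_smul_comm, ← mul_assoc, e2,
    mul_assoc, mul_inv hA, mul_one, smul_smul]⟩

/-- the group induced on the projective line of the fixed space of `S` -/
abbrev Y (S : Matrix ι ι k) := C.St S ⧸ C.Kp S

/-- the action on the projective line of the fixed space of `S` -/
def chi (S : Matrix ι ι k) : C.St S →* C.Y S := QuotientGroup.mk' _

variable {C}

theorem mem_St (hg : C.L g M) : g ∈ C.St S ↔ M * S = S * M :=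
  ⟨fun a => a M hg, fun a N hN => by
    obtain ⟨c, -, rfl⟩ := C.uniq hg hN
    rw [smul_mul_assoc, mul_smul_comm, a]⟩

theorem St_neg : C.St (-S) = C.St S := by
  ext g
  obtain ⟨M, hM⟩ := C.ex g
  simp [mem_St hM]

theorem chi_surj : Function.Surjective (C.chi S) := QuotientGroup.mk'_surjective _

theorem chi_eq_one {x : C.St S} (hx : C.L x M) : C.chi S x = 1 ↔ ∃ c : k, M * (1 + S) = c • (1 + S) := by
  refine (QuotientGroup.eq_one_iff x).trans ⟨fun a => a M hx, fun ⟨c, a⟩ N hN => ?_⟩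
  obtain ⟨d, -, rfl⟩ := C.uniq hx hN
  exact ⟨d * c, by rw [smul_mul_assoc, a, smul_smul]⟩

theorem chi_eq {x y : C.St S} (hx : C.L x M) (hy : C.L y N) :
    C.chi S x = C.chi S y ↔ ∃ c : k, M * (1 + S) = c • (N * (1 + S)) := by
  rw [← inv_mul_eq_one, ← map_inv, ← map_mul, chi_eq_one (M := M⁻¹ * N) (C.mul (inv hx) hy)]
  constructor
  · rintro ⟨c, e⟩
    have e1 : N * (1 + S) = c • (M * (1 + S)) := by
      rw [← mul_smul_comm, ← e, ← mul_assoc, ← mul_assoc, mul_inv hx, one_mul]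
    by_cases c0 : c = 0
    · have : (1 + S) = 0 := by
        have e2 : N⁻¹ * (N * (1 + S)) = 0 := by rw [e1, c0, zero_smul, mul_zero]
        rwa [← mul_assoc, inv_mul hy, one_mul] at e2
      exact ⟨0, by simp [this]⟩
    · exact ⟨c⁻¹, by rw [eq_inv_smul_iff₀ c0, e1]⟩
  · rintro ⟨c, e⟩
    have e1 : (1 + S) = c • (M⁻¹ * N * (1 + S)) := by
      rw [mul_assoc, ← mul_smul_comm, ← e, ← mul_assoc, inv_mul hx, one_mul]
    by_cases c0 : c = 0
    · exact ⟨0, by rw [e1, c0]; simp⟩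
    · exact ⟨c⁻¹, by rw [eq_inv_smul_iff₀ c0, ← e1]⟩

variable (C)

/-- the standing hypotheses: odd characteristic, irreducible, no transvections, small quadratic subgroups -/
structure Hy (p : ℕ) : Prop where
  prime : p.Prime
  char : CharP k p
  two : (2 : k) ≠ 0
  closed : IsAlgClosed k
  fin : Finite G
  simple : IsSimpleGroup G
  nab : ¬ IsMulCommutative G
  irr : ∀ W : Submodule k (ι → k), (∀ g M, C.L g M → ∀ v ∈ W, M *ᵥ v ∈ W) → W = ⊥ ∨ W = ⊤
  nt : ∀ g (a φ : ι → k), C.L g (1 + vecMulVec a φ) → φ ⬝ᵥ a = 0 → vecMulVec a φ = 0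
  q5 : ∀ g N, C.L g (1 + N) → N * N = 0 → N = 0 ∨ (3 : k) = 0
  q3 : ∀ g g' N N', C.L g (1 + N) → C.L g' (1 + N') → N * N = 0 → N' * N' = 0 → N * N' = 0 →
    N' * N = 0 → N = 0 ∨ N' = 0 ∨ N' = N ∨ N' = -N

/-- there are no reflections -/
def NR : Prop := ∀ g S, C.L g S → ¬ Rf S

/-- involution centralisers are solvable -/
def SolC (G : Type*) [Group G] : Prop :=
  ∀ t : G, orderOf t = 2 → Group.IsSolvable (centralizer ({t} : Set G))

/-- a Clifford frame of lifts -/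
structure FG (γ : Fin 6 → Fin 6 → Matrix ι ι k) (b : Fin 6 → Fin 6 → G) : Prop extends Fr γ where
  lift : ∀ i j, C.L (b i j) (γ i j)

/-- `g` induces the permutation `σ` of the frame -/
def Ind (b : Fin 6 → Fin 6 → G) (g : G) (σ : Equiv.Perm (Fin 6)) : Prop :=
  ∀ i j, g * b i j * g⁻¹ = b (σ i) (σ j)

/-- the elementary abelian group of a frame -/
def fA (b : Fin 6 → Fin 6 → G) : Subgroup G := closure {a | ∃ i j, a = b i j}

/-- the permutations of a frame induced by `G` -/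
def fB (b : Fin 6 → Fin 6 → G) : Subgroup (Equiv.Perm (Fin 6)) where
  carrier := {σ | ∃ g, Ind b g σ}
  mul_mem' := fun {σ τ} ⟨g, a⟩ ⟨h, c⟩ => ⟨g * h, fun i j => by
    rw [Equiv.Perm.mul_apply, Equiv.Perm.mul_apply, ← a, ← c]; group⟩
  one_mem' := ⟨1, fun i j => by simp⟩
  inv_mem' := fun {σ} ⟨g, a⟩ => ⟨g⁻¹, fun i j => by
    have := a (σ⁻¹ i) (σ⁻¹ j)
    simp only [Equiv.Perm.coe_inv, Equiv.apply_symm_apply] at this
    simp only [Equiv.Perm.coe_inv]
    rw [← this]; group⟩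

end Cx

end H28.R4
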