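import Mathlib
import Cfsg.Agent.Base
import Cfsg.Agent.Lib.R4.Defs

/-!
# Tame subgroups of `PGL₂` and a transfer lemma
-/

set_option autoImplicit false

namespace H28.R4

open Subgroup

namespace Tm

variable {Y Z : Type*} [Group Y] [Group Z]

theorem cyc_uniq [Finite Y] [IsCyclic Y] {x y : Y} (hx : orderOf x = 2) (hy : orderOf y = 2) : x = y := by
  classical
  have := Fintype.ofFinite Y
  have h := IsCyclic.card_orderOf_eq_totient (α := Y) (d := 2) (hx ▸ orderOf_dvd_card)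
  rw [Nat.totient_two, Finset.card_eq_one] at h
  obtain ⟨a, ha⟩ := h
  have e : ∀ z : Y, orderOf z = 2 → z = a := fun z hz =>
    Finset.mem_singleton.1 (ha ▸ Finset.mem_filter.2 ⟨Finset.mem_univ _, hz⟩)
  rw [e x hx, e y hy]

theorem order_half {a : Y} {m : ℕ} (hm : m ≠ 0) (ha : orderOf a = 2 * m) : orderOf (a ^ m) = 2 := by
  rw [orderOf_pow_of_dvd hm (ha ▸ Dvd.intro_left 2 rfl), ha, Nat.mul_div_cancel _ (Nat.pos_of_ne_zero hm)]

theorem dih_rot {n : ℕ} {a : DihedralGroup n} (ha : 2 < orderOf a) : ∃ i, a = .r i := by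
  rcases a with i | i
  · exact ⟨i, rfl⟩
  · rw [DihedralGroup.orderOf_sr] at ha; omega

theorem dih_uniq {n : ℕ} (hn : 2 ≤ n) {i j : ZMod n} (hi : orderOf (DihedralGroup.r i) = 2)
    (hj : orderOf (DihedralGroup.r j) = 2) : i = j := by
  have : NeZero n := ⟨by omega⟩
  let f : Multiplicative (ZMod n) →* DihedralGroup n :=
    MonoidHom.mk' (fun x => .r x.toAdd) fun a b => by simp
  have hf : Function.Injective f := fun a b e => DihedralGroup.r.inj e
  exact cyc_uniq (Y := Multiplicative (ZMod n)) (x := .ofAdd i) (y := .ofAdd j)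
    ((orderOf_injective f hf _).symm.trans hi) ((orderOf_injective f hf _).symm.trans hj)

theorem a4_ord : ∀ a : Equiv.Perm (Fin 4), Equiv.Perm.sign a = 1 → a ^ 2 = 1 ∨ a ^ 3 = 1 := by decide +kernel

theorem s4_ord : ∀ a : Equiv.Perm (Fin 4), a ^ 4 = 1 ∨ a ^ 3 = 1 := by decide +kernel

theorem a5_ord : ∀ a : Equiv.Perm (Fin 5), Equiv.Perm.sign a = 1 → a ^ 2 = 1 ∨ a ^ 3 = 1 ∨ a ^ 5 = 1 := by
  decide +kernel

theorem s4_li : ∀ a b : Equiv.Perm (Fin 4), a ^ 4 = 1 → b ^ 4 = 1 → a ^ 2 ≠ 1 → b ^ 2 ≠ 1 →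
    (a ^ 2 * b ^ 2) ^ 2 = 1 := by decide +kernel

theorem s4_l4 : ∀ a u : Equiv.Perm (Fin 4), a ^ 4 = 1 → a ^ 2 ≠ 1 → u ^ 2 = 1 → u ≠ 1 → a * u = u * a →
    u = a ^ 2 := by decide +kernel

theorem not_alt4 (e : Y ≃* alternatingGroup (Fin 4)) {a : Y} {m : ℕ} (hm : 2 ≤ m) : orderOf a ≠ 2 * m := by
  intro ha
  rw [← e.orderOf_eq, ← orderOf_coe] at ha
  rcases a4_ord _ (e a).2 with h | h <;> have := ha ▸ orderOf_dvd_of_pow_eq_one h
  · have := Nat.le_of_dvd two_pos this; omega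
  · have := Nat.le_of_dvd three_pos this; omega

theorem not_alt5 (e : Y ≃* alternatingGroup (Fin 5)) {a : Y} {m : ℕ} (hm : 2 ≤ m) : orderOf a ≠ 2 * m := by
  intro ha
  rw [← e.orderOf_eq, ← orderOf_coe] at ha
  rcases a5_ord _ (e a).2 with h | h | h <;> have := ha ▸ orderOf_dvd_of_pow_eq_one h
  · have := Nat.le_of_dvd two_pos this; omega
  · have := Nat.le_of_dvd three_pos this; omega
  · exact absurd (dvd_of_mul_right_dvd this) (by norm_num)

theorem s4_two (e : Y ≃* Equiv.Perm (Fin 4)) {a : Y} {m : ℕ} (hm : 2 ≤ m) (ha : orderOf a = 2 * m) : m = 2 := by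
  rw [← e.orderOf_eq] at ha
  rcases s4_ord (e a) with h | h <;> have := ha ▸ orderOf_dvd_of_pow_eq_one h
  · have := Nat.le_of_dvd four_pos this; omega
  · have := Nat.le_of_dvd three_pos this; omega

theorem four_iff {a : Y} (ha : orderOf a = 4) : a ^ 4 = 1 ∧ a ^ 2 ≠ 1 :=
  ⟨ha ▸ pow_orderOf_eq_one a, fun h => absurd (ha ▸ orderOf_dvd_of_pow_eq_one h) (by norm_num)⟩

theorem solv_dih (n : ℕ) : Group.IsSolvable (DihedralGroup n) := by
  let f : DihedralGroup n →* ℤˣ :=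
    { toFun := fun x => match x with | .r _ => 1 | .sr _ => -1
      map_one' := rfl
      map_mul' := by rintro (a | a) (b | b) <;> simp }
  have : Group.IsSolvable f.ker := Group.isSolvable_of_comm (by
    rintro ⟨a | a, ha⟩ ⟨b | b, hb⟩
    · exact Subtype.ext (by simp [add_comm])
    · exact absurd (show (-1 : ℤˣ) = 1 from hb) (by decide)
    all_goals exact absurd (show (-1 : ℤˣ) = 1 from ha) (by decide))
  exact Group.isSolvable_of_ker_le_range f.ker.subtype f (by simp)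

theorem solv_s4 : Group.IsSolvable (Equiv.Perm (Fin 4)) := by
  let K : Subgroup (Equiv.Perm (Fin 4)) :=
    { carrier := {a | Equiv.Perm.sign a = 1 ∧ a ^ 2 = 1}
      mul_mem' := fun {a b} => by revert a b; simp only [Set.mem_ofPred_eq]; decide +kernel
      one_mem' := by simp
      inv_mem' := fun {a} => by revert a; simp only [Set.mem_ofPred_eq]; decide +kernel }
  refine ⟨3, le_bot_iff.1 ?_⟩
  have h1 : derivedSeries (Equiv.Perm (Fin 4)) 1 ≤ alternatingGroup (Fin 4) :=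
    commutator_le.2 fun a _ b _ => by
      simp [Equiv.Perm.mem_alternatingGroup, commutatorElement_def, mul_right_comm]
  have h2 : derivedSeries (Equiv.Perm (Fin 4)) 2 ≤ K := commutator_le.2 fun a ha b hb => by
    have h3 : Equiv.Perm.sign a = 1 := h1 ha
    have h4 : Equiv.Perm.sign b = 1 := h1 hb
    change Equiv.Perm.sign (a * b * a⁻¹ * b⁻¹) = 1 ∧ (a * b * a⁻¹ * b⁻¹) ^ 2 = 1
    clear ha hb
    revert a b
    decide +kernel
  exact commutator_le.2 fun a ha b hb => by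
    have h3 : Equiv.Perm.sign a = 1 ∧ a ^ 2 = 1 := h2 ha
    have h4 : Equiv.Perm.sign b = 1 ∧ b ^ 2 = 1 := h2 hb
    change a * b * a⁻¹ * b⁻¹ = 1
    clear ha hb
    revert a b
    decide +kernel

theorem solv_of_equiv (e : Y ≃* Z) (h : Group.IsSolvable Z) : Group.IsSolvable Y :=
  Group.isSolvable_of_isSolvable_injective (f := e.toMonoidHom) e.injective

theorem transfer_basic {G A : Type*} [Group G] [Finite G] [CommGroup A] (hG : commutator G = ⊤)
    {H : Subgroup G} (hH : Odd H.index) (χ : H →* A) {r : G} (hr : r ^ 2 = 1) {c : A} (hc : c ≠ 1)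
    (hχ : ∀ (g : G) (hx : g * r * g⁻¹ ∈ H), χ ⟨_, hx⟩ = c) : False := by
  classical
  have := Fintype.ofFinite (Quotient (MulAction.orbitRel (zpowers r) (G ⧸ H)))
  have h1 : MonoidHom.transfer χ r = 1 :=
    Abelianization.commutator_subset_ker (MonoidHom.transfer χ) (hG ▸ mem_top r)
  have per : ∀ q : G ⧸ H, Function.minimalPeriod (r • ·) q = 1 ∨ Function.minimalPeriod (r • ·) q = 2 :=
    fun q => (Nat.dvd_prime Nat.prime_two).1 (Function.IsPeriodicPt.minimalPeriod_dvd (by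
      change (r • ·)^[2] q = q
      simp [smul_smul, ← sq, hr]))
  have hi := index_eq_sum_minimalPeriod H r
  have c2 : c ^ 2 = 1 := by
    by_contra h0
    refine (Nat.not_even_iff_odd.2 hH) (hi ▸ Finset.even_sum _ fun q _ => ?_)
    rcases per q.out with h | h
    · have hm := QuotientGroup.out_conj_pow_minimalPeriod_mem H r q.out
      rw [h, pow_one] at hm
      refine absurd ?_ h0
      rw [← hχ q.out.out⁻¹ (by simpa using hm), ← map_pow, ← map_one χ]
      congr 1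
      ext
      rw [coe_pow, conj_pow, hr]; simp
    · simp [h]
  rw [MonoidHom.transfer_eq_prod_quotient_orbitRel_zpowers_quot,
    Finset.prod_congr rfl (g := fun q => c ^ Function.minimalPeriod (r • ·) q.out) fun q _ => ?_,
    Finset.prod_pow_eq_pow_sum, ← hi] at h1
  · obtain ⟨m, hm⟩ := hH
    rw [hm, pow_succ, pow_mul, c2, one_pow, one_mul] at h1
    exact hc h1
  · have hm := QuotientGroup.out_conj_pow_minimalPeriod_mem H r q.out
    rcases per q.out with h | h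
    · rw [h, pow_one] at hm
      simp only [h, pow_one]
      rw [← hχ q.out.out⁻¹ (by simpa using hm)]
      simp
    · simp only [h, c2]
      rw [← map_one χ]
      congr 1
      ext
      simp [hr]

end Tm

open Tm

variable {Y : Type*} [Group Y] [Finite Y]

theorem Tame.li (h : Tame Y) {a b : Y} {m n : ℕ} (hm : 2 ≤ m) (hn : 2 ≤ n) (ha : orderOf a = 2 * m)
    (hb : orderOf b = 2 * n) : (a ^ m * b ^ n) ^ 2 = 1 := by
  have key : Commute a b → (a ^ m * b ^ n) ^ 2 = 1 := fun c => by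
    rw [(c.pow_pow m n).mul_pow, ← pow_mul, ← pow_mul, mul_comm m, mul_comm n, ← ha, ← hb,
      pow_orderOf_eq_one, pow_orderOf_eq_one, mul_one]
  rcases h with h | ⟨l, -, ⟨e⟩⟩ | ⟨⟨e⟩⟩ | ⟨⟨e⟩⟩ | ⟨⟨e⟩⟩
  · exact key (IsCyclic.isMulCommutative.is_comm.comm a b)
  · obtain ⟨i, hi⟩ := dih_rot (a := e a) (by rw [e.orderOf_eq]; omega)
    obtain ⟨j, hj⟩ := dih_rot (a := e b) (by rw [e.orderOf_eq]; omega)
    exact key (e.injective (by simp [hi, hj, add_comm]))
  · exact absurd ha (not_alt4 e hm)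
  · obtain rfl := s4_two e hm ha
    obtain rfl := s4_two e hn hb
    have h1 := four_iff ((e.orderOf_eq a).trans ha)
    have h2 := four_iff ((e.orderOf_eq b).trans hb)
    exact e.injective (by simpa using s4_li _ _ h1.1 h2.1 h1.2 h2.2)
  · exact absurd ha (not_alt5 e hm)

theorem Tame.l6 (h : Tame Y) {a b : Y} {m n : ℕ} (hm : 3 ≤ m) (hn : 3 ≤ n) (ha : orderOf a = 2 * m)
    (hb : orderOf b = 2 * n) : a ^ m = b ^ n := by
  have h1 := order_half (by omega) ha
  have h2 := order_half (by omega) hb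
  rcases h with h | ⟨l, hl, ⟨e⟩⟩ | ⟨⟨e⟩⟩ | ⟨⟨e⟩⟩ | ⟨⟨e⟩⟩
  · exact cyc_uniq h1 h2
  · obtain ⟨i, hi⟩ := dih_rot (a := e a) (by rw [e.orderOf_eq]; omega)
    obtain ⟨j, hj⟩ := dih_rot (a := e b) (by rw [e.orderOf_eq]; omega)
    rw [← e.orderOf_eq, map_pow, hi, DihedralGroup.r_pow] at h1
    rw [← e.orderOf_eq, map_pow, hj, DihedralGroup.r_pow] at h2
    exact e.injective (by rw [map_pow, map_pow, hi, hj, DihedralGroup.r_pow, DihedralGroup.r_pow, dih_uniq hl h1 h2])
  · exact absurd ha (not_alt4 e (by omega))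
  · have := s4_two e (by omega) ha; omega
  · exact absurd ha (not_alt5 e (by omega))

theorem Tame.l4 (h : Tame Y) {a u : Y} (ha : orderOf a = 4) (hu : orderOf u = 2) (hc : Commute a u) :
    u = a ^ 2 := by
  have h1 := order_half (m := 2) (by omega) ha
  rcases h with h | ⟨l, hl, ⟨e⟩⟩ | ⟨⟨e⟩⟩ | ⟨⟨e⟩⟩ | ⟨⟨e⟩⟩
  · exact cyc_uniq hu h1
  · obtain ⟨i, hi⟩ := dih_rot (a := e a) (by rw [e.orderOf_eq]; omega)
    have h2 := congrArg e hc.eq
    rw [← e.orderOf_eq, map_pow, hi, DihedralGroup.r_pow] at h1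
    rw [← e.orderOf_eq] at hu
    rw [map_mul, map_mul, hi] at h2
    rcases hj : e u with j | j
    · rw [hj] at hu
      exact e.injective (by rw [map_pow, hi, hj, DihedralGroup.r_pow, dih_uniq hl hu h1])
    · rw [hj] at h2
      have h3 : i * (2 : ℕ) = 0 := by
        simp only [DihedralGroup.r_mul_sr, DihedralGroup.sr_mul_r, DihedralGroup.sr.injEq] at h2
        push_cast
        linear_combination -h2
      rw [h3, ← DihedralGroup.one_def, orderOf_one] at h1
      omega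
  · exact absurd ha (not_alt4 e (m := 2) le_rfl)
  · have h2 := four_iff ((e.orderOf_eq a).trans ha)
    have h3 := (e.orderOf_eq u).trans hu
    refine e.injective ?_
    rw [map_pow]
    exact s4_l4 _ _ h2.1 h2.2 (h3 ▸ pow_orderOf_eq_one _) (fun h4 => by rw [h4, orderOf_one] at h3; omega)
      (by simpa using congrArg e hc.eq)
  · exact absurd ha (not_alt5 e (m := 2) le_rfl)

omit [Finite Y] in
theorem Tame.a5 (h : Tame Y) (hs : ¬ Group.IsSolvable Y) : Nonempty (Y ≃* alternatingGroup (Fin 5)) := by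
  have := solv_s4
  rcases h with h | ⟨l, hl, ⟨e⟩⟩ | ⟨⟨e⟩⟩ | ⟨⟨e⟩⟩ | h
  · exact absurd (Group.isSolvable_of_comm IsCyclic.isMulCommutative.is_comm.comm) hs
  · exact absurd (solv_of_equiv e (solv_dih l)) hs
  · exact absurd (solv_of_equiv e inferInstance) hs
  · exact absurd (solv_of_equiv e this) hs
  · exact h

omit [Finite Y] in
theorem Tame.a4 (h : Tame Y) (hs : Group.IsSolvable Y) {u x : Y} (hu : orderOf u = 2) (hx : x ^ 3 = 1)
    (hc : Commute u (x * u * x⁻¹)) (hn : x * u * x⁻¹ ≠ u) :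
    Nonempty (Y ≃* alternatingGroup (Fin 4)) ∨ Nonempty (Y ≃* Equiv.Perm (Fin 4)) := by
  rcases h with h | ⟨l, hl, ⟨e⟩⟩ | h | h | ⟨⟨e⟩⟩
  · exact absurd (by rw [IsCyclic.isMulCommutative.is_comm.comm x u, mul_inv_cancel_right]) hn
  · refine absurd (e.injective ?_) hn
    have h1 := congrArg e hx
    have h2 := congrArg e hc.eq
    simp only [map_mul, map_inv, map_pow, map_one] at h1 h2 ⊢
    rcases hi : e x with i | i <;> rcases hj : e u with j | j <;> rw [hi] at h1 <;> rw [hi, hj] at h2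
    · simp [add_comm]
    · simp only [DihedralGroup.r_pow, DihedralGroup.one_def, DihedralGroup.r.injEq, DihedralGroup.inv_r,
        DihedralGroup.r_mul_sr, DihedralGroup.sr_mul_r, DihedralGroup.sr_mul_sr,
        DihedralGroup.sr.injEq] at h1 h2 ⊢
      push_cast at h1
      linear_combination -2 * h1 - h2
    all_goals
      have h3 := orderOf_dvd_of_pow_eq_one h1
      rw [DihedralGroup.orderOf_sr] at h3
      omega
  · exact Or.inl h
  · exact Or.inr h
  · have := solv_of_equiv e.symm hs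
    have h2 := (IsSimpleGroup.comm_iff_isSolvable (G := alternatingGroup (Fin 5))).2 this
    have := h2 ⟨Equiv.swap 0 1 * Equiv.swap 1 2, by simp⟩ ⟨Equiv.swap 0 1 * Equiv.swap 1 3, by simp⟩
    exact absurd (congrArg Subtype.val this) (by decide)

/-- the transfer lemma -/
theorem transfer_false {G A : Type*} [Group G] [Finite G] [CommGroup A] (hG : commutator G = ⊤) {H H₀ : Subgroup G}
    (hH : Odd H.index) (hle : H₀ ≤ H) (hi : H₀.relIndex H ≤ 2) (χ : H₀ →* A)
    (hinv : ∀ s ∈ H, ∀ x y : H₀, s * x * s⁻¹ = y → χ x = χ y) {r : G} (hr : r ^ 2 = 1) {c : A} (hc : c ≠ 1)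
    (hχ : ∀ g : G, g * r * g⁻¹ ∈ H → ∃ hx : g * r * g⁻¹ ∈ H₀, χ ⟨_, hx⟩ = c) : False := by
  have h0 : (H₀.subgroupOf H).index ≠ 0 := FiniteIndex.index_ne_zero
  have two : ∀ x y : H, (x : G) ∉ H₀ → (y : G) ∉ H₀ → (x * y : G) ∈ H₀ := fun x y hx hy => by
    have : (H₀.subgroupOf H).index = 2 := by
      have : (H₀.subgroupOf H).index ≠ 1 := fun e => hx (mem_subgroupOf.1 (index_eq_one.1 e ▸ mem_top x))
      change (H₀.subgroupOf H).index ≤ 2 at hi
      omega
    exact mem_subgroupOf.1 ((mul_mem_iff_of_index_two this).2 (by simp [mem_subgroupOf, hx, hy]))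
  have nrm : ∀ s : H, ∀ x ∈ H₀, s * x * (s : G)⁻¹ ∈ H₀ := fun s x hx => by
    by_cases hs : (s : G) ∈ H₀
    · exact mul_mem (mul_mem hs hx) (inv_mem hs)
    · exact two (s * ⟨x, hle hx⟩) s⁻¹ (fun e => hs ((mul_mem_cancel_right hx).1 e)) (by simpa using hs)
  let N : Subgroup H :=
    { carrier := {x | ∃ hx : (x : G) ∈ H₀, χ ⟨x, hx⟩ = 1}
      mul_mem' := fun ⟨a, ha⟩ ⟨b, hb⟩ => ⟨mul_mem a b, by
        rw [← mul_one 1]; nth_rw 1 [← ha]; rw [← hb, ← map_mul]; rfl⟩
      one_mem' := ⟨one_mem _, map_one χ⟩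
      inv_mem' := fun ⟨a, ha⟩ => ⟨inv_mem a, by rw [← inv_one, ← ha, ← map_inv]; rfl⟩ }
  have : N.Normal := ⟨fun x ⟨a, ha⟩ s => ⟨nrm s x a, (hinv s s.2 ⟨x, a⟩ _ rfl).symm.trans ha⟩⟩
  have eq : ∀ (x y : H) (hx : (x : G) ∈ H₀) (hy : (y : G) ∈ H₀),
      (x : H ⧸ N) = y ↔ χ ⟨x, hx⟩ = χ ⟨y, hy⟩ := fun x y hx hy => by
    rw [QuotientGroup.eq, ← inv_mul_eq_one, ← map_inv, ← map_mul]
    exact ⟨fun ⟨_, e⟩ => e, fun e => ⟨mul_mem (inv_mem hx) hy, e⟩⟩
  have cen : ∀ s x : H, (x : G) ∈ H₀ → (s : H ⧸ N) * x = x * s := fun s x hx => by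
    rw [← mul_inv_eq_iff_eq_mul, ← QuotientGroup.mk_mul, ← QuotientGroup.mk_inv, ← QuotientGroup.mk_mul]
    exact (eq _ _ (nrm s x hx) hx).2 (hinv s s.2 ⟨x, hx⟩ _ rfl).symm
  let _ : CommGroup (H ⧸ N) := { (inferInstance : Group (H ⧸ N)) with
    mul_comm := fun a b => by
      obtain ⟨x, rfl⟩ := QuotientGroup.mk_surjective a
      obtain ⟨y, rfl⟩ := QuotientGroup.mk_surjective b
      by_cases hx : (x : G) ∈ H₀
      · exact (cen y x hx).symm
      by_cases hy : (y : G) ∈ H₀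
      · exact cen x y hy
      have := cen x (x⁻¹ * y) (two x⁻¹ y (by simpa using hx) hy)
      rw [QuotientGroup.mk_mul, QuotientGroup.mk_inv, mul_inv_cancel_left, mul_assoc,
        eq_inv_mul_iff_mul_eq] at this
      exact this }
  by_cases hex : ∃ g : G, g * r * g⁻¹ ∈ H
  · obtain ⟨g, hg⟩ := hex
    obtain ⟨h1, h2⟩ := hχ g hg
    refine transfer_basic hG hH (QuotientGroup.mk' N) hr (c := ((⟨_, hg⟩ : H) : H ⧸ N)) (fun e => hc ?_)
      fun g' hg' => ?_
    · rw [← h2, (eq ⟨_, hg⟩ 1 h1 (one_mem _)).1 e]; exact map_one χ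
    · obtain ⟨h3, h4⟩ := hχ g' hg'
      exact (eq ⟨_, hg'⟩ ⟨_, hg⟩ h3 h1).2 (h4.trans h2.symm)
  · exact transfer_basic hG hH (1 : H →* A) hr hc fun g hg => absurd ⟨g, hg⟩ hex

end H28.R4
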