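import Mathlib
import Cfsg.Agent.Base
import Cfsg.Agent.Lib.R4.Tame

/-!
# Involutions of a four-dimensional space and the character `del`
-/

set_option autoImplicit false
set_option linter.unusedSectionVars false

namespace H28.R4

open Matrix Subgroup Cfsg
open scoped MatrixGroups commutatorElement

variable {G k ι κ : Type*} [Group G] [Field k] [Fintype ι] [DecidableEq ι] [Fintype κ] [DecidableEq κ]
  {C : Cx G k ι} {p : ℕ} {g h t : G} {M N S T : Matrix ι ι k}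

/-- the standard biaxial involution -/
abbrev S0 (k : Type*) [Field k] : Matrix (Fin 2 ⊕ Fin 2) (Fin 2 ⊕ Fin 2) k := fromBlocks 1 0 0 (-1)

namespace Bx

theorem basis_mat (b : Module.Basis κ k (ι → k)) : ∃ (B : Matrix κ ι k) (B' : Matrix ι κ k),
    B * B' = 1 ∧ B' * B = 1 ∧ (∀ j, B' *ᵥ Pi.single j 1 = b j) ∧ ∀ v j, (B *ᵥ v) j = b.repr v j := by
  refine ⟨b.toMatrix (Pi.basisFun k ι), (Pi.basisFun k ι).toMatrix b, b.toMatrix_mul_toMatrix_flip _,
    Module.Basis.toMatrix_mul_toMatrix_flip _ b, fun j => ?_, fun v j => ?_⟩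
  · ext i; simp [Module.Basis.toMatrix_apply]
  · conv_rhs => rw [← (Pi.basisFun k ι).sum_repr v]
    simp [mulVec, dotProduct, Module.Basis.toMatrix_apply, mul_comm]

theorem conj_apply {B : Matrix κ ι k} {B' : Matrix ι κ k} (i j : κ) :
    (B * M * B') i j = (B *ᵥ (M *ᵥ (B' *ᵥ Pi.single j 1))) i := by
  simp only [mulVec_mulVec, ← Matrix.mul_assoc]
  simp

theorem invol_diag (h2 : (2 : k) ≠ 0) (hS : S * S = 1) : ∃ m n : ℕ, m + n = Fintype.card ι ∧
    ∃ (B : Matrix (Fin m ⊕ Fin n) ι k) (B' : Matrix ι (Fin m ⊕ Fin n) k), B * B' = 1 ∧ B' * B = 1 ∧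
      B * S * B' = fromBlocks 1 0 0 (-1) := by
  let U := LinearMap.ker (toLin' (S - 1))
  let W := LinearMap.ker (toLin' (S + 1))
  have hU : ∀ v, v ∈ U ↔ S *ᵥ v = v := fun v => by simp [U, sub_mulVec, sub_eq_zero]
  have hW : ∀ v, v ∈ W ↔ S *ᵥ v = -v := fun v => by simp [W, add_mulVec, add_eq_zero_iff_eq_neg]
  have hc : IsCompl U W := by
    refine ⟨Submodule.disjoint_def.2 fun v a b => ?_, codisjoint_iff.2 (Submodule.eq_top_iff'.2 fun v => ?_)⟩
    · have : (2 : k) • v = 0 := by rw [two_smul, add_eq_zero_iff_eq_neg, ← (hW v).1 b, (hU v).1 a]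
      exact (smul_eq_zero.1 this).resolve_left h2
    · refine Submodule.mem_sup.2 ⟨(2 : k)⁻¹ • (v + S *ᵥ v), (hU _).2 ?_, (2 : k)⁻¹ • (v - S *ᵥ v), (hW _).2 ?_, ?_⟩
      · rw [mulVec_smul, mulVec_add, mulVec_mulVec, hS, one_mulVec, add_comm]
      · rw [mulVec_smul, mulVec_sub, mulVec_mulVec, hS, one_mulVec, ← smul_neg, neg_sub]
      · rw [← smul_add, add_add_sub_cancel, ← two_smul k, smul_smul, inv_mul_cancel₀ h2, one_smul]
  let b := ((Module.finBasis k U).prod (Module.finBasis k W)).map (Submodule.prodEquivOfIsCompl U W hc)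
  have b1 : ∀ j, S *ᵥ b (.inl j) = b (.inl j) := fun j => (hU _).1 (by simp [b])
  have b2 : ∀ j, S *ᵥ b (.inr j) = -b (.inr j) := fun j => (hW _).1 (by simp [b])
  clear_value b
  obtain ⟨B, B', e1, e2, e3, e4⟩ := basis_mat b
  refine ⟨_, _, by simpa using Submodule.finrank_add_eq_of_isCompl hc, B, B', e1, e2, ?_⟩
  ext i j
  rw [conj_apply, e3, e4]
  rcases j with j | j
  · rw [b1, b.repr_self, Finsupp.single_apply]
    rcases i with i | i
    · simp [one_apply, @eq_comm _ i j]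
    · simp
  · rw [b2, map_neg, b.repr_self, Finsupp.neg_apply, Finsupp.single_apply]
    rcases i with i | i
    · simp
    · simp [one_apply, @eq_comm _ i j]

theorem trace_cj {B : Matrix κ ι k} {B' : Matrix ι κ k} (h2 : B' * B = 1) : (B * M * B').trace = M.trace := by
  rw [trace_mul_comm, ← Matrix.mul_assoc, h2, Matrix.one_mul]

theorem cj_mul {B : Matrix κ ι k} {B' : Matrix ι κ k} (h2 : B' * B = 1) :
    B * (M * N) * B' = B * M * B' * (B * N * B') := by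
  rw [show B * M * B' * (B * N * B') = B * (M * (B' * B) * N) * B' by simp only [Matrix.mul_assoc], h2,
    Matrix.mul_one]

theorem cj_cj {B : Matrix κ ι k} {B' : Matrix ι κ k} (h2 : B' * B = 1) : B' * (B * M * B') * B = M := by
  rw [show B' * (B * M * B') * B = (B' * B) * M * (B' * B) by simp only [Matrix.mul_assoc], h2,
    Matrix.one_mul, Matrix.mul_one]

theorem cj_inj {B : Matrix κ ι k} {B' : Matrix ι κ k} (h2 : B' * B = 1) (e : B * M * B' = B * N * B') : M = N := by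
  rw [← cj_cj (M := M) h2, e, cj_cj h2]

theorem trace_fromBlocks {m n : Type*} [Fintype m] [Fintype n] (a : Matrix m m k) (b : Matrix m n k)
    (c : Matrix n m k) (d : Matrix n n k) : (fromBlocks a b c d).trace = a.trace + d.trace := by
  simp [trace, Fintype.sum_sum_type]

theorem invol_inv (h2 : (2 : k) ≠ 0) (hS : S * S = 1) : ∃ m n : ℕ, m + n = Fintype.card ι ∧
    S.trace = m - n ∧ S.det = (-1) ^ n ∧ (n = 0 → S = 1) ∧ (m = 0 → S = -1) ∧
    ∃ (B : Matrix (Fin m ⊕ Fin n) ι k) (B' : Matrix ι (Fin m ⊕ Fin n) k), B * B' = 1 ∧ B' * B = 1 ∧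
      B * S * B' = fromBlocks 1 0 0 (-1) := by
  obtain ⟨m, n, h, B, B', e1, e2, e3⟩ := invol_diag h2 hS
  refine ⟨m, n, h, ?_, ?_, ?_, ?_, B, B', e1, e2, e3⟩
  · rw [← trace_cj e2, e3, trace_fromBlocks]; simp [sub_eq_add_neg]
  · rw [← det_conj_of_mul_eq_one e1 e2, e3, det_fromBlocks_zero₂₁]; simp [det_neg]
  · rintro rfl
    refine cj_inj e2 ?_
    rw [e3, Matrix.mul_one, e1, ← fromBlocks_one]
    congr 1
    exact Subsingleton.elim _ _
  · rintro rfl
    refine cj_inj e2 ?_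
    rw [e3, Matrix.mul_neg, Matrix.mul_one, Matrix.neg_mul, e1, ← fromBlocks_one, fromBlocks_neg]
    congr 1 <;> first | exact Subsingleton.elim _ _ | simp

theorem four_ne (h2 : (2 : k) ≠ 0) : (4 : k) ≠ 0 := by
  rw [show (4 : k) = 2 * 2 by norm_num]; exact mul_ne_zero h2 h2

theorem neg_one_ne (h2 : (2 : k) ≠ 0) : (-1 : k) ≠ 1 := fun e => h2 (by linear_combination -e)

theorem invol_cases (h4 : Fintype.card ι = 4) (h2 : (2 : k) ≠ 0) (hS : S * S = 1) :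
    S = 1 ∨ S = -1 ∨ Bi S ∨ Rf S ∨ Rf (-S) := by
  obtain ⟨m, n, h, e1, e2, e3, e4, -⟩ := invol_inv h2 hS
  have : n = 0 ∨ m = 0 ∨ (m = 2 ∧ n = 2) ∨ (m = 3 ∧ n = 1) ∨ (m = 1 ∧ n = 3) := by omega
  rcases this with e | e | ⟨rfl, rfl⟩ | ⟨rfl, rfl⟩ | ⟨rfl, rfl⟩
  · exact Or.inl (e3 e)
  · exact Or.inr (Or.inl (e4 e))
  · exact Or.inr (Or.inr (Or.inl ⟨hS, by rw [e1, sub_self]⟩))
  · exact Or.inr (Or.inr (Or.inr (Or.inl ⟨hS, by rw [e1]; norm_num, by rw [e2]; norm_num⟩)))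
  · exact Or.inr (Or.inr (Or.inr (Or.inr ⟨by simpa using hS, by rw [trace_neg, e1]; norm_num,
      by rw [det_neg, h4, e2]; norm_num⟩)))

theorem sq_two {a : Matrix (Fin 2) (Fin 2) k} {c : k} (h : a * a = c • 1) :
    (∃ x : k, a = x • 1 ∧ x ^ 2 = c) ∨ (a.trace = 0 ∧ a.det = -c) := by
  have h00 := congrFun (congrFun h 0) 0
  have h01 := congrFun (congrFun h 0) 1
  have h10 := congrFun (congrFun h 1) 0
  have h11 := congrFun (congrFun h 1) 1
  simp [mul_apply, Fin.sum_univ_two] at h00 h01 h10 h11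
  by_cases ht : a 0 0 + a 1 1 = 0
  · exact Or.inr ⟨by rw [trace_fin_two, ht], by rw [det_fin_two]; linear_combination a 0 0 * ht - h00⟩
  · have e1 : a 0 1 = 0 := (mul_eq_zero.1 (by linear_combination h01 : (a 0 0 + a 1 1) * a 0 1 = 0)).resolve_left ht
    have e2 : a 1 0 = 0 := (mul_eq_zero.1 (by linear_combination h10 : (a 0 0 + a 1 1) * a 1 0 = 0)).resolve_left ht
    have e3 : a 1 1 = a 0 0 := sub_eq_zero.1 ((mul_eq_zero.1
      (by linear_combination h11 - h00 : (a 0 0 + a 1 1) * (a 1 1 - a 0 0) = 0)).resolve_left ht)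
    refine Or.inl ⟨a 0 0, ?_, by rw [e1] at h00; linear_combination h00⟩
    ext i j
    fin_cases i <;> fin_cases j <;> simp [e1, e2, e3]

end Bx

open Bx

theorem Bi.exists_diag (h4 : Fintype.card ι = 4) (h2 : (2 : k) ≠ 0) (hS : Bi S) :
    ∃ (B : Matrix (Fin 2 ⊕ Fin 2) ι k) (B' : Matrix ι (Fin 2 ⊕ Fin 2) k), B * B' = 1 ∧ B' * B = 1 ∧
      B * S * B' = S0 k := by
  obtain ⟨m, n, h, e1, -, -, -, e⟩ := invol_inv h2 hS.1
  have := four_ne h2
  have : (m = 0 ∧ n = 4) ∨ (m = 4 ∧ n = 0) ∨ (m = 2 ∧ n = 2) ∨ (m = 3 ∧ n = 1) ∨ (m = 1 ∧ n = 3) := by omega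
  rw [hS.2] at e1
  rcases this with ⟨rfl, rfl⟩ | ⟨rfl, rfl⟩ | ⟨rfl, rfl⟩ | ⟨rfl, rfl⟩ | ⟨rfl, rfl⟩
  · exact absurd (by push_cast at e1; linear_combination e1) this
  · exact absurd (by push_cast at e1; linear_combination -e1) this
  · exact e
  · exact absurd (by push_cast at e1; linear_combination -e1) h2
  · exact absurd (by push_cast at e1; linear_combination e1) h2

theorem Rf.exists_vec (h4 : Fintype.card ι = 4) (h2 : (2 : k) ≠ 0) (hS : Rf S) :
    ∃ v φ : ι → k, φ ⬝ᵥ v = 2 ∧ S = 1 - vecMulVec v φ := by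
  obtain ⟨m, n, h, e1, e2, -, -, B, B', f1, f2, f3⟩ := invol_inv h2 hS.1
  have := four_ne h2
  have := neg_one_ne h2
  have : (m = 0 ∧ n = 4) ∨ (m = 4 ∧ n = 0) ∨ (m = 2 ∧ n = 2) ∨ (m = 3 ∧ n = 1) ∨ (m = 1 ∧ n = 3) := by omega
  rw [hS.2.1] at e1
  rw [hS.2.2] at e2
  rcases this with ⟨rfl, rfl⟩ | ⟨rfl, rfl⟩ | ⟨rfl, rfl⟩ | ⟨rfl, rfl⟩ | ⟨rfl, rfl⟩
  · exact absurd (by linear_combination e2) this
  · exact absurd (by linear_combination e2) this
  · exact absurd (by linear_combination e2) this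
  · refine ⟨B' *ᵥ Pi.single (Sum.inr 0) 2, Pi.single (Sum.inr 0) 1 ᵥ* B, ?_, ?_⟩
    · rw [← dotProduct_mulVec, mulVec_mulVec, f1, one_mulVec]; simp
    · refine cj_inj f2 ?_
      rw [f3, Matrix.mul_sub, Matrix.sub_mul, Matrix.mul_one, f1, mul_vecMulVec, vecMulVec_mul, mulVec_mulVec,
        vecMul_vecMul, f1, one_mulVec, vecMul_one]
      ext (i | i) (j | j) <;> fin_cases i <;> fin_cases j <;> simp [vecMulVec_apply, Pi.single_apply] <;> norm_num
  · exact absurd (by push_cast at e1; linear_combination e1) (four_ne h2)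

theorem comm_S0 (h2 : (2 : k) ≠ 0) {M : Matrix (Fin 2 ⊕ Fin 2) (Fin 2 ⊕ Fin 2) k} :
    M * S0 k = S0 k * M ↔ ∃ a d, M = fromBlocks a 0 0 d := by
  have z : ∀ x : Matrix (Fin 2) (Fin 2) k, -x = x → x = 0 := fun x e =>
    (smul_eq_zero.1 (by rw [two_smul, add_eq_zero_iff_neg_eq, e] : (2 : k) • x = 0)).resolve_left h2
  constructor
  · intro e
    rw [← fromBlocks_toBlocks M] at e ⊢
    simp only [fromBlocks_multiply, fromBlocks_inj, Matrix.mul_one, Matrix.mul_zero, Matrix.zero_mul,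
      Matrix.one_mul, add_zero, zero_add, Matrix.mul_neg, Matrix.neg_mul] at e
    exact ⟨_, _, by rw [z _ e.2.1, z _ e.2.2.1.symm]⟩
  · rintro ⟨a, d, rfl⟩
    simp [fromBlocks_multiply]

theorem anti_S0 (h2 : (2 : k) ≠ 0) {M : Matrix (Fin 2 ⊕ Fin 2) (Fin 2 ⊕ Fin 2) k} :
    M * S0 k = -(S0 k * M) ↔ ∃ a d, M = fromBlocks 0 a d 0 := by
  have z : ∀ x : Matrix (Fin 2) (Fin 2) k, -x = x → x = 0 := fun x e =>
    (smul_eq_zero.1 (by rw [two_smul, add_eq_zero_iff_neg_eq, e] : (2 : k) • x = 0)).resolve_left h2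
  constructor
  · intro e
    rw [← fromBlocks_toBlocks M] at e ⊢
    simp only [fromBlocks_multiply, fromBlocks_neg, fromBlocks_inj, Matrix.mul_one, Matrix.mul_zero,
      Matrix.zero_mul, Matrix.one_mul, add_zero, zero_add, Matrix.mul_neg, Matrix.neg_mul, neg_neg] at e
    exact ⟨_, _, by rw [z _ e.1.symm, z _ e.2.2.2]⟩
  · rintro ⟨a, d, rfl⟩
    simp [fromBlocks_multiply, fromBlocks_neg]

theorem del_S0 (h2 : (2 : k) ≠ 0) (a d : Matrix (Fin 2) (Fin 2) k) :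
    del (S0 k) (fromBlocks a 0 0 d) = a.det / d.det := by
  have e1 : (1 : Matrix _ _ k) + S0 k = (2 : k) • fromBlocks 1 0 0 0 := by
    rw [← fromBlocks_one, fromBlocks_add, fromBlocks_smul, two_smul]; simp
  have e2 : (1 : Matrix _ _ k) - S0 k = (2 : k) • fromBlocks 0 0 0 1 := by
    rw [sub_eq_add_neg, ← fromBlocks_one, fromBlocks_neg, fromBlocks_add, fromBlocks_smul, two_smul k 1]; simp
  simp only [del, e1, e2, Matrix.mul_smul, ← smul_add, smul_smul, inv_mul_cancel₀ h2, one_smul,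
    fromBlocks_multiply, fromBlocks_add]
  simp [det_fromBlocks_zero₂₁]

theorem del_cj {B : Matrix κ ι k} {B' : Matrix ι κ k} (h1 : B * B' = 1) (h2 : B' * B = 1) :
    del (B * S * B') (B * M * B') = del S M := by
  have e1 : 1 + B * S * B' = B * (1 + S) * B' := by rw [Matrix.mul_add, Matrix.add_mul, Matrix.mul_one, h1]
  have e2 : 1 - B * S * B' = B * (1 - S) * B' := by rw [Matrix.mul_sub, Matrix.sub_mul, Matrix.mul_one, h1]
  have e3 : ∀ X : Matrix ι ι k, ((2 : k)⁻¹ • (B * X * B')).det = ((2 : k)⁻¹ • X).det := fun X => by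
    rw [← Matrix.smul_mul, ← Matrix.mul_smul, det_conj_of_mul_eq_one h1 h2]
  simp only [del, e1, e2, ← cj_mul h2, ← Matrix.add_mul, ← Matrix.mul_add, e3]

theorem del_neg : del (-S) M = (del S M)⁻¹ := by
  simp only [del, inv_div, sub_neg_eq_add, sub_eq_add_neg, neg_neg]

namespace Bx

theorem blocks (h2 : (2 : k) ≠ 0) {B : Matrix (Fin 2 ⊕ Fin 2) ι k} {B' : Matrix ι (Fin 2 ⊕ Fin 2) k}
    (e2 : B' * B = 1) (e3 : B * S * B' = S0 k) (hM : M * S = S * M) : ∃ a d, B * M * B' = fromBlocks a 0 0 d :=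
  (comm_S0 h2).1 (by rw [← e3, ← cj_mul e2, ← cj_mul e2, hM])

theorem blocks_sq {a d : Matrix (Fin 2) (Fin 2) k} (h : fromBlocks a 0 0 d * fromBlocks a 0 0 d = 1) :
    a * a = (1 : k) • 1 ∧ d * d = (1 : k) • 1 := by
  rw [← fromBlocks_one] at h
  simp only [fromBlocks_multiply, fromBlocks_inj, Matrix.mul_zero, Matrix.zero_mul, add_zero, zero_add] at h
  exact ⟨by rw [h.1, one_smul], by rw [h.2.2.2, one_smul]⟩

end Bx

section del
variable (h4 : Fintype.card ι = 4) (h2 : (2 : k) ≠ 0) (hS : Bi S)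
include h4 h2 hS

theorem del_smul (hM : M * S = S * M) {c : k} (hc : c ≠ 0) : del S (c • M) = del S M := by
  obtain ⟨B, B', e1, e2, e3⟩ := hS.exists_diag h4 h2
  obtain ⟨a, d, e⟩ := blocks h2 e2 e3 hM
  rw [← del_cj e1 e2, ← del_cj (M := M) e1 e2, Matrix.mul_smul, Matrix.smul_mul, e3, e, fromBlocks_smul,
    smul_zero, del_S0 h2, del_S0 h2, det_smul, det_smul, mul_div_mul_left _ _ (pow_ne_zero _ hc)]

theorem del_mul (hM : M * S = S * M) (hN : N * S = S * N) : del S (M * N) = del S M * del S N := by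
  obtain ⟨B, B', e1, e2, e3⟩ := hS.exists_diag h4 h2
  obtain ⟨a, d, e⟩ := blocks h2 e2 e3 hM
  obtain ⟨a', d', e'⟩ := blocks h2 e2 e3 hN
  rw [← del_cj e1 e2, ← del_cj (M := M) e1 e2, ← del_cj (M := N) e1 e2, cj_mul e2, e3, e, e', fromBlocks_multiply]
  simp only [Matrix.mul_zero, Matrix.zero_mul, add_zero, zero_add, del_S0 h2, det_mul, div_mul_div_comm]

theorem del_ne (hM : M * S = S * M) (hd : M.det ≠ 0) : del S M ≠ 0 := by
  obtain ⟨B, B', e1, e2, e3⟩ := hS.exists_diag h4 h2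
  obtain ⟨a, d, e⟩ := blocks h2 e2 e3 hM
  rw [← det_conj_of_mul_eq_one e1 e2, e, det_fromBlocks_zero₂₁, mul_ne_zero_iff] at hd
  rw [← del_cj e1 e2, e3, e, del_S0 h2]
  exact div_ne_zero hd.1 hd.2

theorem del_sq_anti (hM : M * S = -(S * M)) (hd : M.det ≠ 0) : del S (M * M) = 1 := by
  obtain ⟨B, B', e1, e2, e3⟩ := hS.exists_diag h4 h2
  obtain ⟨a, d, e⟩ := (anti_S0 h2 (M := B * M * B')).1
    (by rw [← e3, ← cj_mul e2, ← cj_mul e2, hM, Matrix.mul_neg, Matrix.neg_mul])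
  have hd' : (B * (M * M) * B').det ≠ 0 := by
    rw [det_conj_of_mul_eq_one e1 e2, det_mul]; exact mul_ne_zero hd hd
  rw [← del_cj e1 e2, e3]
  rw [cj_mul e2, e, fromBlocks_multiply] at hd' ⊢
  simp only [Matrix.mul_zero, Matrix.zero_mul, add_zero, zero_add] at hd' ⊢
  rw [det_fromBlocks_zero₂₁] at hd'
  rw [del_S0 h2, det_mul_comm a d, div_self (mul_ne_zero_iff.1 hd').2]

theorem del_lin {x y : k} (h : x - y ≠ 0) : del S (x • 1 + y • S) = ((x + y) / (x - y)) ^ 2 := by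
  obtain ⟨B, B', e1, e2, e3⟩ := hS.exists_diag h4 h2
  have e : B * (x • 1 + y • S) * B' = fromBlocks ((x + y) • 1) 0 0 ((x - y) • 1) := by
    rw [Matrix.mul_add, Matrix.add_mul, Matrix.mul_smul, Matrix.mul_smul, Matrix.smul_mul, Matrix.smul_mul, e3,
      Matrix.mul_one, e1, ← fromBlocks_one, fromBlocks_smul, fromBlocks_smul, fromBlocks_add]
    simp [add_smul, sub_smul, sub_eq_add_neg]
  rw [← del_cj e1 e2, e3, e, del_S0 h2]
  simp [div_pow]

theorem del_bi (hM : M * S = S * M) (hB : Bi M) : del S M = 1 := by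
  obtain ⟨B, B', e1, e2, e3⟩ := hS.exists_diag h4 h2
  obtain ⟨a, d, e⟩ := blocks h2 e2 e3 hM
  obtain ⟨f1, f2⟩ := blocks_sq (a := a) (d := d) (by rw [← e, ← cj_mul e2, hB.1, Matrix.mul_one, e1])
  have f3 := hB.2
  rw [← trace_cj e2, e, trace_fromBlocks] at f3
  rw [← del_cj e1 e2, e3, e, del_S0 h2]
  rcases sq_two f1 with ⟨x, rfl, hx⟩ | ⟨g1, g2⟩ <;> rcases sq_two f2 with ⟨y, rfl, hy⟩ | ⟨g3, g4⟩
  · simp [hx, hy]
  · simp [g3, h2] at f3; simp [f3] at hx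
  · simp [g1, h2] at f3; simp [f3] at hy
  · simp [g2, g4]

theorem del_rf (hM : M * S = S * M) (hB : Rf M) : del S M = -1 := by
  obtain ⟨B, B', e1, e2, e3⟩ := hS.exists_diag h4 h2
  obtain ⟨a, d, e⟩ := blocks h2 e2 e3 hM
  obtain ⟨f1, f2⟩ := blocks_sq (a := a) (d := d) (by rw [← e, ← cj_mul e2, hB.1, Matrix.mul_one, e1])
  have f3 := hB.2.2
  have := neg_one_ne h2
  rw [← det_conj_of_mul_eq_one e1 e2, e, det_fromBlocks_zero₂₁] at f3
  rw [← del_cj e1 e2, e3, e, del_S0 h2]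
  rcases sq_two f1 with ⟨x, rfl, hx⟩ | ⟨g1, g2⟩ <;> rcases sq_two f2 with ⟨y, rfl, hy⟩ | ⟨g3, g4⟩
  · simp [hx, hy, this.symm] at f3
  · simp [hx, g4]
  · simp [hy, g2]
  · simp [g2, g4, this.symm] at f3

end del

end H28.R4
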