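import Mathlib
import Cfsg.Agent.Base
import Cfsg.Agent.Lib.R4.BaseA

/-!
# First consequences of the standing hypotheses
-/

set_option autoImplicit false
set_option linter.unusedSectionVars false

namespace H28.R4

open Matrix Subgroup Cfsg Bx
open scoped MatrixGroups commutatorElement

variable {G k ι κ : Type*} [Group G] [Field k] [Fintype ι] [DecidableEq ι] [Fintype κ] [DecidableEq κ]
  {C : Cx G k ι} {p : ℕ} {g h t : G} {M N S T : Matrix ι ι k}

namespace Cx

theorem cj_L {B : Matrix κ ι k} {B' : Matrix ι κ k} (h1 : B * B' = 1) (h2 : B' * B = 1)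
    (hκ : Fintype.card κ = 4) (hg : C.L g M) : (C.cj B B' h1 h2 hκ).L g (B * M * B') := by
  change C.L g (B' * (B * M * B') * B)
  rwa [cj_cj h2]

/-- the character `del` on `St S` -/
theorem exists_del (h2 : (2 : k) ≠ 0) (hS : Bi S) :
    ∃ δ : C.St S →* kˣ, ∀ (x : C.St S) M, C.L x M → (δ x : k) = del S M := by
  choose f hf using C.ex
  have e : ∀ (x : C.St S) M, C.L x M → del S (f x) = del S M := fun x M hM => by
    obtain ⟨c, c0, rfl⟩ := C.uniq (hf x) hM
    rw [del_smul C.card h2 hS (x.2 _ (hf x)) c0]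
  refine ⟨MonoidHom.mk' (fun x => Units.mk0 (del S (f x))
    (del_ne C.card h2 hS (x.2 _ (hf x)) (det_ne (hf x)))) fun x y => Units.ext ?_, e⟩
  exact (e (x * y) _ (C.mul (hf x) (hf y))).trans (del_mul C.card h2 hS (x.2 _ (hf x)) (y.2 _ (hf y)))

set_option linter.unusedVariables false in
theorem comm_cases (h2 : (2 : k) ≠ 0) (ht : C.L t T) (hT : T * T = 1) (hg : C.L g M) (e : g * t = t * g) :
    M * T = T * M ∨ M * T = -(T * M) := by
  obtain ⟨c, hc⟩ := (comm_iff hg ht).1 e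
  have e1 : (c * c) • M = (1 : k) • M := by
    calc (c * c) • M = c • (c • (T * T * M)) := by rw [hT, one_mul, smul_smul]
      _ = c • (T * (M * T)) := by rw [hc, mul_smul_comm, mul_assoc]
      _ = M * T * T := by rw [← mul_assoc, ← smul_mul_assoc, ← hc]
      _ = (1 : k) • M := by rw [mul_assoc, hT, mul_one, one_smul]
  rcases mul_self_eq_one_iff.1 (smul_left_injective k (ne_zero hg) e1) with rfl | rfl
  · exact Or.inl (by simpa using hc)
  · exact Or.inr (by simpa using hc)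

theorem St_le (ht : C.L t T) : C.St T ≤ centralizer {t} := fun g hg => by
  obtain ⟨M, hM⟩ := C.ex g
  exact mem_centralizer_singleton_iff.2 ((comm_iff hM ht).2 ⟨1, by rw [one_smul, hg M hM]⟩)

theorem mul_mem_St (hg : C.L g M) (hh : C.L h N) (e1 : M * T = -(T * M)) (e2 : N * T = -(T * N)) :
    g * h ∈ C.St T :=
  (mem_St (C.mul hg hh)).2 (by rw [mul_assoc, e2, mul_neg, ← mul_assoc, e1, neg_mul, neg_neg, mul_assoc])

theorem relIndex_St [Finite G] (h2 : (2 : k) ≠ 0) (ht : C.L t T) (hT : T * T = 1) :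
    (C.St T).relIndex (centralizer {t}) ≤ 2 := by
  by_cases ha : ∃ a ∈ centralizer {t}, a ∉ C.St T
  · obtain ⟨a, a1, a2⟩ := ha
    refine (index_eq_two_iff.2 ⟨⟨a, a1⟩, fun b => ?_⟩).le
    simp only [mem_subgroupOf, coe_mul]
    by_cases hb : (b : G) ∈ C.St T
    · exact Or.inr ⟨hb, fun e => a2 ((mul_mem_cancel_left hb).1 e)⟩
    · obtain ⟨M, hM⟩ := C.ex a
      obtain ⟨N, hN⟩ := C.ex b
      exact Or.inl ⟨mul_mem_St hN hM
        ((comm_cases h2 ht hT hN (mem_centralizer_singleton_iff.1 b.2)).resolve_left fun e => hb ((mem_St hN).2 e))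
        ((comm_cases h2 ht hT hM (mem_centralizer_singleton_iff.1 a1)).resolve_left fun e => a2 ((mem_St hM).2 e)),
        hb⟩
  · push Not at ha
    rw [relIndex_eq_one.2 ha]; norm_num

theorem det_P {u : GL ι k} (hu : u ∈ C.P) : u.val.det = 1 := by
  have : C.P ≤ (GeneralLinearGroup.det : GL ι k →* kˣ).ker := commutator_le.2 fun a _ b _ => by
    rw [MonoidHom.mem_ker, map_commutatorElement, commutatorElement_eq_one_iff_mul_comm, mul_comm]
  exact congrArg Units.val (this hu)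

theorem P_le : C.P ≤ C.Gam := commutator_le.2 fun _ ha _ hb =>
  mul_mem (mul_mem (mul_mem ha hb) (inv_mem ha)) (inv_mem hb)

theorem lift_P {u : GL ι k} (hu : u ∈ C.P) : ∃ g, C.L g u.val := P_le hu

theorem NR.cj (h : C.NR) {B : Matrix κ ι k} {B' : Matrix ι κ k} (h1 : B * B' = 1) (h2 : B' * B = 1)
    (hκ : Fintype.card κ = 4) : (C.cj B B' h1 h2 hκ).NR := fun g S hg hS =>
  h g _ hg ⟨by rw [← cj_mul h1, hS.1, Matrix.mul_one, h2], by rw [trace_cj h1, hS.2.1],
    by rw [det_conj_of_mul_eq_one h2 h1, hS.2.2]⟩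

namespace Hy
variable (H : C.Hy p)
include H

theorem cj {B : Matrix κ ι k} {B' : Matrix ι κ k} (h1 : B * B' = 1) (h2 : B' * B = 1)
    (hκ : Fintype.card κ = 4) : (C.cj B B' h1 h2 hκ).Hy p := by
  have a1 : ∀ N : Matrix κ κ k, B' * (1 + N) * B = 1 + B' * N * B := fun N => by
    rw [Matrix.mul_add, Matrix.add_mul, Matrix.mul_one, h2]
  have z1 : ∀ {N N' : Matrix κ κ k}, N * N' = 0 → B' * N * B * (B' * N' * B) = 0 := fun e => by
    rw [← cj_mul h1, e, Matrix.mul_zero, Matrix.zero_mul]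
  have z2 : ∀ {N : Matrix κ κ k}, B' * N * B = 0 → N = 0 := fun e =>
    cj_inj h1 (by rw [e, Matrix.mul_zero, Matrix.zero_mul])
  refine ⟨H.prime, H.char, H.two, H.closed, H.fin, H.simple, H.nab, fun W hW => ?_, fun g a φ hg e => z2 ?_,
    fun g N hg e => ?_, fun g g' N N' hg hg' e1 e2 e3 e4 => ?_⟩
  · rcases H.irr (W.comap (toLin' B)) (fun g M hM v hv => by
      have := hW g _ (cj_L h1 h2 hκ hM) _ hv
      simp only [toLin'_apply, mulVec_mulVec, Matrix.mul_assoc, h2, Matrix.mul_one, Submodule.mem_comap] at this ⊢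
      exact this) with e | e
    · refine Or.inl (eq_bot_iff.2 fun w hw => ?_)
      have : B' *ᵥ w ∈ W.comap (toLin' B) := by simpa [h1] using hw
      rw [e, Submodule.mem_bot] at this
      rw [Submodule.mem_bot, ← one_mulVec w, ← h1, ← mulVec_mulVec, this, mulVec_zero]
    · refine Or.inr (Submodule.eq_top_iff'.2 fun w => ?_)
      have : B' *ᵥ w ∈ W.comap (toLin' B) := e ▸ Submodule.mem_top
      simpa [h1] using this
  · change C.L g (B' * _ * B) at hg
    rw [a1] at hg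
    rw [mul_vecMulVec, vecMulVec_mul] at hg ⊢
    exact H.nt g _ _ hg (by rw [← dotProduct_mulVec, mulVec_mulVec, h1, one_mulVec, e])
  · exact (H.q5 g _ (a1 N ▸ hg) (z1 e)).imp_left z2
  · exact (H.q3 g g' _ _ (a1 N ▸ hg) (a1 N' ▸ hg') (z1 e1) (z1 e2) (z1 e3) (z1 e4)).imp z2 (Or.imp z2 (Or.imp
      (cj_inj h1) fun e => cj_inj h1 (by rw [e, Matrix.mul_neg, Matrix.neg_mul])))

theorem perfect : commutator G = ⊤ := by
  have := H.simple
  refine (IsSimpleGroup.eq_bot_or_eq_top_of_normal (commutator G) inferInstance).resolve_left fun e => H.nab ?_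
  refine ⟨⟨fun a b => commutatorElement_eq_one_iff_mul_comm.1 ?_⟩⟩
  exact mem_bot.1 (e ▸ commutator_mem_commutator (mem_top a) (mem_top b))

theorem exists_P (g : G) : ∃ u ∈ C.P, C.L g u.val := by
  let K : Subgroup G :=
    { carrier := {g | ∃ u ∈ C.P, C.L g u.val}
      mul_mem' := fun ⟨u, a, b⟩ ⟨v, c, d⟩ => ⟨u * v, mul_mem a c, C.mul b d⟩
      one_mem' := ⟨1, one_mem _, C.one⟩
      inv_mem' := fun ⟨u, a, b⟩ => ⟨u⁻¹, inv_mem a, inv_of_mul b u.mul_inv⟩ }
  have : commutator G ≤ K := commutator_le.2 fun a _ b _ => by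
    obtain ⟨M, hM⟩ := C.ex a
    obtain ⟨N, hN⟩ := C.ex b
    obtain ⟨u, rfl⟩ := unit hM
    obtain ⟨v, rfl⟩ := unit hN
    exact ⟨⁅u, v⁆, commutator_mem_commutator ⟨a, hM⟩ ⟨b, hN⟩,
      C.mul (C.mul (C.mul hM hN) (inv_of_mul hM u.mul_inv)) (inv_of_mul hN v.mul_inv)⟩
  exact this (H.perfect ▸ mem_top g)

theorem P_perfect : ⁅C.P, C.P⁆ = C.P := by
  refine le_antisymm (commutator_mono P_le P_le) (commutator_le.2 fun u ⟨g, hu⟩ v ⟨h, hv⟩ => ?_)
  have key : ∀ {u : GL ι k} {g : G}, C.L g u.val → ∃ u' ∈ C.P, ∃ z ∈ center (GL ι k), u = u' * z := fun {u g} hu => by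
    obtain ⟨u', a, b⟩ := H.exists_P g
    obtain ⟨c, -, e⟩ := C.uniq b hu
    refine ⟨u', a, u'⁻¹ * u, mem_center_iff.2 fun w => Units.ext ?_, by group⟩
    simp only [Units.val_mul, e, mul_smul_comm, smul_mul_assoc, Units.inv_mul, mul_one, one_mul]
  obtain ⟨u', a, z, hz, rfl⟩ := key hu
  obtain ⟨v', b, w, hw, rfl⟩ := key hv
  have e : ⁅u' * z, v' * w⁆ = ⁅u', v'⁆ := by
    have e1 := mem_center_iff.1 hz
    have e2 := mem_center_iff.1 hw
    calc ⁅u' * z, v' * w⁆ = u' * (z * (v' * w * z⁻¹)) * (u'⁻¹ * w⁻¹) * v'⁻¹ := by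
          simp only [commutatorElement_def]; group
      _ = u' * v' * (w * (u'⁻¹ * w⁻¹)) * v'⁻¹ := by rw [← e1]; group
      _ = ⁅u', v'⁆ := by rw [← e2, commutatorElement_def]; group
  exact e ▸ commutator_mem_commutator a b

theorem finite_P : Finite C.P := by
  have := H.fin
  choose f hf1 hf2 using H.exists_P
  have h1 : {c : k | c ^ 4 = 1}.Finite :=
    (Polynomial.nthRoots 4 (1 : k)).finite_toSet.subset fun c hc => (Polynomial.mem_nthRoots (by norm_num)).2 hc
  have h2 := (Set.finite_univ.prod h1).image fun x : G × k => x.2 • (f x.1).val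
  refine (h2.preimage (f := Units.val) Units.val_injective.injOn).subset fun u hu => ?_
  obtain ⟨g, hg⟩ := lift_P hu
  obtain ⟨c, -, e⟩ := C.uniq (hf2 g) hg
  refine ⟨(g, c), ⟨trivial, ?_⟩, e.symm⟩
  have := det_P hu
  rwa [e, C.det_smul', det_P (hf1 g), mul_one] at this

theorem invol (ht : orderOf t = 2) : ∃ T, C.L t T ∧ (Bi T ∨ Rf T) := by
  have := H.closed
  obtain ⟨T, h1, h2⟩ := exists_pow (C := C) two_ne_zero (ht ▸ pow_orderOf_eq_one t)
  have t1 : ∀ c : k, T ≠ c • 1 := fun c e => by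
    rw [(eq_one_iff h1).2 ⟨c, e⟩, orderOf_one] at ht; omega
  rcases invol_cases C.card H.two (sq T ▸ h2) with e | e | e | e | e
  · exact absurd (by simpa using e) (t1 1)
  · exact absurd (by simpa using e) (t1 (-1))
  · exact ⟨T, h1, Or.inl e⟩
  · exact ⟨T, h1, Or.inr e⟩
  · exact ⟨-T, neg h1, Or.inr e⟩

theorem invol_bi (hR : C.NR) (ht : orderOf t = 2) : ∃ T, C.L t T ∧ Bi T := by
  obtain ⟨T, h1, h2⟩ := H.invol ht
  exact ⟨T, h1, h2.resolve_right (hR t T h1)⟩

end Hy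

end Cx

end H28.R4
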