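import Mathlib
import Cfsg.Agent.Base
import Cfsg.Agent.Lib.R4.BaseB
import Cfsg.Agent.Lib.Perm.PermModule
import Cfsg.Agent.Lib.SL2.PGL
import Cfsg.Agent.Lib.SL2.Cases

/-!
# Unipotent subgroups are abelian; the groups induced on invariant lines are tame
-/

set_option autoImplicit false
set_option linter.unusedSectionVars false

namespace H28.R4

open Matrix Subgroup Cfsg
open scoped MatrixGroups commutatorElement

variable {G k ι κ : Type*} [Group G] [Field k] [Fintype ι] [DecidableEq ι] [Fintype κ] [DecidableEq κ]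
  {C : Cx G k ι} {p : ℕ} {g h t : G} {M N S T : Matrix ι ι k}

namespace Bx

theorem exists_flag (h4 : Fintype.card ι = 4) (A : Set (Matrix ι ι k))
    (hA : ∀ W : Submodule k (ι → k), W ≠ ⊤ → (∀ N ∈ A, ∀ v ∈ W, N *ᵥ v ∈ W) → ∃ u ∉ W, ∀ N ∈ A, N *ᵥ u ∈ W) :
    ∃ (B : Matrix (Fin 4) ι k) (B' : Matrix ι (Fin 4) k), B * B' = 1 ∧ B' * B = 1 ∧
      ∀ N ∈ A, ∀ i j, j ≤ i → (B * N * B') i j = 0 := by
  have key : ∀ m ≤ 4, ∃ v : Fin m → ι → k, LinearIndependent k v ∧
      ∀ N ∈ A, ∀ i, N *ᵥ v i ∈ Submodule.span k (v '' {j | j < i}) := by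
    intro m hm
    induction m with
    | zero => exact ⟨Fin.elim0, linearIndependent_empty_type, fun _ _ i => i.elim0⟩
    | succ m ih =>
      obtain ⟨v, h1, h2⟩ := ih (by omega)
      obtain ⟨u, h3, h5⟩ := hA (Submodule.span k (Set.range v)) (fun e => by
        have := finrank_span_eq_card h1
        rw [e] at this
        simp at this
        omega) fun N hN => (Submodule.span_le (p := (Submodule.span k (Set.range v)).comap (toLin' N))).2 <| by
          rintro _ ⟨i, rfl⟩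
          exact Submodule.span_mono (Set.image_subset_range _ _) (h2 N hN i)
      refine ⟨Fin.snoc v u, linearIndependent_finSnoc.2 ⟨h1, h3⟩, fun N hN i => ?_⟩
      induction i using Fin.lastCases with
      | last =>
        rw [Fin.snoc_last]
        refine Submodule.span_mono ?_ (h5 N hN)
        rintro _ ⟨j, rfl⟩
        exact ⟨j.castSucc, j.castSucc_lt_last, by simp⟩
      | cast i =>
        rw [Fin.snoc_castSucc]
        refine Submodule.span_mono ?_ (h2 N hN i)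
        rintro _ ⟨j, hj, rfl⟩
        exact ⟨j.castSucc, Fin.castSucc_lt_castSucc_iff.2 hj, by simp⟩
  obtain ⟨v, h1, h2⟩ := key 4 le_rfl
  obtain ⟨b, rfl⟩ : ∃ b : Module.Basis (Fin 4) k (ι → k), ⇑b = v :=
    ⟨_, coe_basisOfLinearIndependentOfCardEqFinrank h1 (by simp [h4])⟩
  obtain ⟨B, B', e1, e2, e3, e4⟩ := basis_mat b
  refine ⟨B, B', e1, e2, fun N hN i j hij => ?_⟩
  rw [conj_apply, e3, e4]
  by_contra h0
  exact absurd (b.mem_span_image.1 (h2 N hN j) (Finsupp.mem_support_iff.2 h0)) (not_lt.2 hij)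

/-- unitriangular matrices -/
def UT (a b c d e f : k) : Matrix (Fin 4) (Fin 4) k := !![1, a, d, f; 0, 1, b, e; 0, 0, 1, c; 0, 0, 0, 1]

theorem UT_mul (a b c d e f a' b' c' d' e' f' : k) : UT a b c d e f * UT a' b' c' d' e' f' =
    UT (a + a') (b + b') (c + c') (d + d' + a * b') (e + e' + b * c') (f + f' + a * e' + d * c') := by
  ext i j
  fin_cases i <;> fin_cases j <;> simp [UT, mul_apply, Fin.sum_univ_four] <;> ring

theorem exists_UT {N : Matrix (Fin 4) (Fin 4) k} (h : ∀ i j, j ≤ i → N i j = 0) :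
    ∃ a b c d e f, 1 + N = UT a b c d e f := by
  refine ⟨N 0 1, N 1 2, N 2 3, N 0 2, N 1 3, N 0 3, ?_⟩
  ext i j
  fin_cases i <;> fin_cases j <;> simp [UT] <;> exact h _ _ (by decide)

theorem L_div (hg : C.L g (M * N)) (hh : C.L h N) : C.L (g * h⁻¹) M := by
  have := C.mul hg (Cx.inv hh)
  rwa [mul_assoc, Cx.mul_inv hh, mul_one] at this

section
variable {C : Cx G k (Fin 4)} {a b c d e f a' b' c' d' e' f' : k}

theorem UT_step : UT 0 0 0 (a * b' - a' * b) (b * c' - b' * c)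
    (a * e' + d * c' - a' * e - d' * c - (a * b' - a' * b) * (c + c')) * (UT a' b' c' d' e' f' * UT a b c d e f) =
      UT a b c d e f * UT a' b' c' d' e' f' := by
  simp only [UT_mul]
  congr 1 <;> ring

theorem L_step (hg : C.L g (UT a b c d e f)) (hh : C.L h (UT a' b' c' d' e' f')) :
    C.L (g * h * (h * g)⁻¹) (UT 0 0 0 (a * b' - a' * b) (b * c' - b' * c)
      (a * e' + d * c' - a' * e - d' * c - (a * b' - a' * b) * (c + c'))) :=
  L_div (by rw [UT_step]; exact C.mul hg hh) (C.mul hh hg)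

theorem nt_UT (H : C.Hy p) (hg : C.L g (UT 0 0 0 d e f)) (h0 : d = 0 ∨ e = 0) : d = 0 ∧ e = 0 ∧ f = 0 := by
  rcases h0 with rfl | rfl
  · have := H.nt g ![f, e, 0, 0] ![0, 0, 0, 1] (by
      convert hg
      ext i j
      fin_cases i <;> fin_cases j <;> simp [UT, vecMulVec_apply]) (by simp)
    exact ⟨rfl, by simpa [vecMulVec_apply] using congrFun (congrFun this 1) 3,
      by simpa [vecMulVec_apply] using congrFun (congrFun this 0) 3⟩
  · have := H.nt g ![1, 0, 0, 0] ![0, 0, d, f] (by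
      convert hg
      ext i j
      fin_cases i <;> fin_cases j <;> simp [UT, vecMulVec_apply]) (by simp)
    exact ⟨by simpa [vecMulVec_apply] using congrFun (congrFun this 0) 2, rfl,
      by simpa [vecMulVec_apply] using congrFun (congrFun this 0) 3⟩

theorem comm_UT (H : C.Hy p) (hg : C.L g (UT a b c d e f)) (hh : C.L h (UT a' b' c' d' e' f')) :
    UT a b c d e f * UT a' b' c' d' e' f' = UT a' b' c' d' e' f' * UT a b c d e f := by
  have hw := L_step hg hh
  obtain ⟨-, -, e1⟩ := nt_UT H (L_step hw hg) (Or.inl (by ring))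
  obtain ⟨-, -, e2⟩ := nt_UT H (L_step hw hh) (Or.inl (by ring))
  obtain ⟨f1, f2, f3⟩ := nt_UT H hw (mul_eq_zero.1 ((mul_eq_zero.1
    (by linear_combination b * e2 - b' * e1 : 2 * ((a * b' - a' * b) * (b * c' - b' * c)) = 0)).resolve_left H.two))
  rw [← UT_step, f3, f1, f2, show UT 0 0 0 0 0 0 = (1 : Matrix _ _ k) by
    ext i j; fin_cases i <;> fin_cases j <;> simp [UT], one_mul]

end

theorem comm_of_flag (H : C.Hy p) (A : Set (Matrix ι ι k))
    (hA : ∀ W : Submodule k (ι → k), W ≠ ⊤ → (∀ N ∈ A, ∀ v ∈ W, N *ᵥ v ∈ W) → ∃ u ∉ W, ∀ N ∈ A, N *ᵥ u ∈ W)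
    (hg : C.L g M) (hh : C.L h N) (hM : M - 1 ∈ A) (hN : N - 1 ∈ A) : M * N = N * M := by
  obtain ⟨B, B', e1, e2, e3⟩ := exists_flag C.card A hA
  obtain ⟨a, b, c, d, e, f, h1⟩ := exists_UT (e3 _ hM)
  obtain ⟨a', b', c', d', e', f', h2⟩ := exists_UT (e3 _ hN)
  rw [Matrix.mul_sub, Matrix.sub_mul, Matrix.mul_one, e1, add_sub_cancel] at h1 h2
  refine cj_inj e2 ?_
  rw [cj_mul e2, cj_mul e2, h1, h2]
  exact comm_UT (H.cj e1 e2 (by simp)) (h1 ▸ Cx.cj_L e1 e2 _ hg) (h2 ▸ Cx.cj_L e1 e2 _ hh)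

theorem exists_pi (H : C.Hy p) : ∃ π : C.P →* G, Function.Surjective π ∧ ∀ u, C.L (π u) u.val.val := by
  choose f hf using fun u : C.P => Cx.lift_P u.2
  refine ⟨MonoidHom.mk' f fun u v => C.inj (hf (u * v)) (C.mul (hf u) (hf v)), fun g => ?_, hf⟩
  obtain ⟨u, h1, h2⟩ := H.exists_P g
  exact ⟨⟨u, h1⟩, C.inj (hf _) h2⟩

/-- the elements of a `p`-subgroup have commuting unipotent lifts -/
theorem psub (H : C.Hy p) {R : Subgroup G} (hR : IsPGroup p R) : ∃ f : G → Matrix ι ι k,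
    (∀ g ∈ R, C.L g (f g) ∧ IsNilpotent (f g - 1)) ∧ ∀ g ∈ R, ∀ h ∈ R, f g * f h = f h * f g := by
  have := Fact.mk H.prime
  have := H.char
  have := H.finite_P
  have := C.nonempty
  obtain ⟨π, h1, h2⟩ := exists_pi H
  obtain ⟨P, hP⟩ := hR.exists_le_sylow
  obtain ⟨Q, rfl⟩ := Sylow.mapSurjective_surjective h1 p P
  have e : ∀ g, ∃ u : Q, g ∈ R → C.L g u.val.val.val := fun g => by
    by_cases hg : g ∈ R
    · obtain ⟨u, hu, rfl⟩ := hP hg
      exact ⟨⟨u, hu⟩, fun _ => h2 u⟩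
    · exact ⟨1, fun e => absurd e hg⟩
  choose f hf using e
  refine ⟨fun g => (f g).val.val.val, fun g hg => ⟨hf g hg, ?_⟩, fun g hg h hh =>
    comm_of_flag H (Set.range fun u : Q => u.val.val.val - 1) (fun W hW hi => ?_) (hf g hg) (hf h hh) ⟨_, rfl⟩ ⟨_, rfl⟩⟩
  · obtain ⟨n, hn⟩ := Q.isPGroup' (f g)
    refine ⟨p ^ n, ?_⟩
    have : (f g).val.val.val ^ p ^ n = 1 := congrArg (fun u : Q => u.val.val.val) hn
    rw [sub_pow_char_pow_of_commute _ _ (Commute.one_right _), this, one_pow, sub_self]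
  · let ρ : Representation k Q (ι → k) := (toLinAlgEquiv' (R := k) (n := ι)).toMonoidHom.comp
      ((Units.coeHom _).comp (C.P.subtype.comp (Q : Subgroup C.P).subtype))
    have hρ : ∀ u v, ρ u v = u.val.val.val *ᵥ v := fun u v => rfl
    obtain ⟨w, -, w0, hw⟩ := H26.exists_fixed_vector_of_isPGroup Q.isPGroup' (ρ.quotient W fun u v hv => by
      have := W.add_mem (hi _ ⟨u, rfl⟩ v hv) hv
      rwa [sub_mulVec, one_mulVec, sub_add_cancel] at this) ⊤ (fun _ _ _ => trivial) (by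
        have := Submodule.Quotient.nontrivial_iff.2 hW
        exact bot_ne_top.symm)
    obtain ⟨v, rfl⟩ := Submodule.Quotient.mk_surjective W w
    refine ⟨v, fun e => w0 ((Submodule.Quotient.mk_eq_zero W).2 e), ?_⟩
    rintro _ ⟨u, rfl⟩
    rw [sub_mulVec, one_mulVec]
    exact (Submodule.Quotient.eq W).1 (hw u)

theorem nil_sq {a : Matrix (Fin 2) (Fin 2) k} (h : IsNilpotent a) : a * a = 0 := by
  have h1 := (isNilpotent_trace_of_isNilpotent h).eq_zero
  obtain ⟨n, hn⟩ := h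
  have h2 : a.det ^ n = 0 := by rw [← det_pow, hn, det_zero]
  rw [H29.cayley_two, h1, pow_eq_zero_iff (fun e => by simp [e] at h2) |>.1 h2]
  simp

theorem nil_mul (h2 : (2 : k) ≠ 0) {a b : Matrix (Fin 2) (Fin 2) k} (ha : IsNilpotent a) (hb : IsNilpotent b)
    (h : a * b = b * a) : a * b = 0 := by
  have := nil_sq (Commute.isNilpotent_add h ha hb)
  rw [add_mul, mul_add, mul_add, nil_sq ha, nil_sq hb, ← h, zero_add, add_zero, ← two_smul k] at this
  exact (smul_eq_zero.1 this).resolve_left h2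

theorem tame_of_mob {L Y Ω : Type*} [Field L] [Group Y] [Finite Y] [MulAction Y Ω] (hM : H29.Mob p L Y Ω)
    (hp : p.Prime) (h : p ∣ Nat.card Y → p = 3 ∧ ¬ 9 ∣ Nat.card Y) : Tame Y := by
  by_cases hd : p ∣ Nat.card Y
  swap
  · exact (hM.tame (hM.u_eq_one_of_not_dvd hp hd)).imp_right (Or.imp_left fun ⟨n, a, _, b⟩ => ⟨n, a, b⟩)
  obtain ⟨rfl, h9⟩ := h hd
  have := Fact.mk hp
  obtain ⟨r, hr⟩ := exists_prime_orderOf_dvd_card' 3 hd
  have r1 : r ≠ 1 := fun e => by rw [e, orderOf_one] at hr; omega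
  have r3 : r ^ 3 = 1 := hr ▸ pow_orderOf_eq_one r
  obtain ⟨x, hx, hu⟩ := hM.exists_wild r1 r3
  have u3 : hM.u x = 3 := by
    obtain ⟨n, hn⟩ := IsPGroup.iff_card.1 (hM.isPGroup_U x)
    have h1 : hM.u x ∣ Nat.card Y := card_subgroup_dvd_card _
    change hM.u x = _ at hn
    rw [hn] at hu h1 ⊢
    rcases n with _ | _ | n
    · omega
    · rfl
    · exact absurd (Dvd.dvd.trans ⟨3 ^ n, by ring⟩ h1) h9
  have hc := H29.nOrb_mul_eSt (H := Y) x
  rcases hM.wild hp hu with h1 | ⟨h1, -⟩ | ⟨-, h1⟩ | ⟨-, h1, h2⟩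
  · obtain ⟨c, c1, c2⟩ := hM.exists_c hu
    rw [H29.nOrb_eq_one_of_fixed h1, one_mul, ← c1, u3] at hc
    have := Nat.card_pos (α := Y)
    obtain rfl | rfl : c = 1 ∨ c = 2 := by omega
    · exact Or.inl (isCyclic_of_prime_card (p := 3) hc.symm)
    obtain ⟨s, hs⟩ := exists_prime_orderOf_dvd_card' (G := Y) 2 ⟨3, by omega⟩
    have s3 : s ∉ hM.U x := fun e => by
      have := hs ▸ orderOf_dvd_of_pow_eq_one (hM.mem_U.1 e).2
      omega
    have rU : r ∈ hM.U x := hM.mem_U.2 ⟨hx, r3⟩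
    have h2 : orderOf (s * r) ∣ 3 * 2 := hc ▸ orderOf_dvd_natCard _
    have h3 : ¬ orderOf (s * r) ∣ 3 := fun e =>
      s3 ((mul_mem_cancel_right rU).1 (hM.mem_U.2 ⟨h1 _, orderOf_dvd_iff_pow_eq_one.1 e⟩))
    have h4 := Nat.le_of_dvd (by norm_num) h2
    obtain h5 | h5 : orderOf (s * r) = 2 ∨ orderOf (s * r) = 6 := by
      interval_cases orderOf (s * r) <;> omega
    · exact Or.inr (Or.inl ⟨_, by omega, H29.dihedral_of_inverted r1 (fun e => s3 (zpowers_le.2 rU e))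
        (by rw [← sq, ← hs, pow_orderOf_eq_one]) (by rw [← sq, ← h5, pow_orderOf_eq_one]) (by omega)⟩)
    · exact Or.inl (isCyclic_of_orderOf_eq_card (s * r) (by omega))
  · omega
  · exact Or.inr (Or.inr (Or.inr (Or.inr h1)))
  · rw [u3] at h1 h2
    obtain ⟨f, hf⟩ := hM.exists_perm_hom h1 (by norm_num)
    rcases h2 with h2 | h2
    · exact Or.inr (Or.inr (Or.inr (Or.inl ⟨MulEquiv.ofBijective f ((Nat.bijective_iff_injective_and_card f).2
        ⟨hf, by rw [← hc, h1, h2, Nat.card_perm]; simp [Nat.factorial]⟩)⟩)))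
    · exact Or.inr (Or.inr (Or.inl (H29.alt_four_of_injective f hf (by
        rw [← hc, h1]; omega))))

theorem cj_pow {B : Matrix κ ι k} {B' : Matrix ι κ k} (h1 : B * B' = 1) (h2 : B' * B = 1) (n : ℕ) :
    (B * M * B') ^ n = B * M ^ n * B' := by
  induction n with
  | zero => rw [pow_zero, pow_zero, Matrix.mul_one, h1]
  | succ n ih => rw [pow_succ, pow_succ, ih, cj_mul h2]

theorem quad_St (H : C.Hy p) (hS : Bi S) {R : Subgroup G} (hR : IsPGroup p R) (hle : R ≤ C.St S) :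
    ∃ f : G → Matrix ι ι k, (∀ g ∈ R, C.L g (1 + f g)) ∧ ∀ g ∈ R, ∀ h ∈ R, f g * f h = 0 := by
  obtain ⟨f, h1, h2⟩ := psub H hR
  obtain ⟨B, B', e1, e2, e3⟩ := hS.exists_diag C.card H.two
  have key : ∀ g ∈ R, ∃ a d, IsNilpotent a ∧ IsNilpotent d ∧ B * (f g - 1) * B' = fromBlocks a 0 0 d := fun g hg => by
    obtain ⟨a, d, e⟩ := blocks H.two e2 e3 (M := f g - 1) (by
      rw [sub_mul, mul_sub, hle hg _ (h1 g hg).1, one_mul, mul_one])
    obtain ⟨n, hn⟩ := (h1 g hg).2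
    have := cj_pow (M := f g - 1) e1 e2 n
    rw [hn, e, fromBlocks_diagonal_pow, Matrix.mul_zero, Matrix.zero_mul, ← fromBlocks_zero, fromBlocks_inj] at this
    exact ⟨a, d, ⟨n, this.1⟩, ⟨n, this.2.2.2⟩, e⟩
  refine ⟨fun g => f g - 1, fun g hg => by simpa using (h1 g hg).1, fun g hg h hh => cj_inj e2 ?_⟩
  obtain ⟨a, d, a1, d1, e⟩ := key g hg
  obtain ⟨a', d', a2, d2, e'⟩ := key h hh
  have : B * ((f g - 1) * (f h - 1)) * B' = B * ((f h - 1) * (f g - 1)) * B' := by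
    rw [(((show Commute (f g) (f h) from h2 g hg h hh).sub_left (Commute.one_left _)).sub_right
      (Commute.one_right _)).eq]
  simp only [cj_mul e2, e, e', fromBlocks_multiply, fromBlocks_inj, Matrix.mul_zero, Matrix.zero_mul, add_zero,
    zero_add] at this ⊢
  rw [nil_mul H.two a1 a2 this.1, nil_mul H.two d1 d2 this.2.2.2, fromBlocks_zero]

theorem exists_pgl (h2 : (2 : k) ≠ 0) (hS : Bi S) : ∃ ρ : C.Y S →* PGL(2, k), Function.Injective ρ := by
  obtain ⟨B, B', e1, e2, e3⟩ := hS.exists_diag C.card h2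
  have ex : ∀ x : C.St S, ∃ (M : Matrix ι ι k) (u : GL (Fin 2) k) (d : Matrix (Fin 2) (Fin 2) k),
      C.L x M ∧ B * M * B' = fromBlocks u.val 0 0 d := fun x => by
    obtain ⟨M, hM⟩ := C.ex x
    obtain ⟨a, d, e⟩ := blocks h2 e2 e3 (x.2 M hM)
    have := Cx.det_ne hM
    rw [← det_conj_of_mul_eq_one e1 e2, e, det_fromBlocks_zero₂₁] at this
    exact ⟨M, GeneralLinearGroup.mkOfDetNeZero a (left_ne_zero_of_mul this), d, hM, e⟩
  choose M u d h3 h4 using ex
  let f : C.St S →* PGL(2, k) := MonoidHom.mk' (fun x => ProjGenLinGroup.mk (u x)) fun x y => by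
    obtain ⟨c, c0, e⟩ := C.uniq (h3 (x * y)) (C.mul (h3 x) (h3 y))
    have := congrArg (fun X => B * X * B') e
    simp only [cj_mul e2, Matrix.mul_smul, Matrix.smul_mul, h4, fromBlocks_multiply, fromBlocks_smul,
      fromBlocks_inj, Matrix.mul_zero, add_zero] at this
    rw [← map_mul]
    exact H29.pgl_mk_eq_mk_iff.2 ⟨c, c0, this.1⟩
  have e4 : B * (1 + S) * B' = (2 : k) • fromBlocks 1 0 0 0 := by
    rw [Matrix.mul_add, Matrix.add_mul, Matrix.mul_one, e1, e3, ← fromBlocks_one, fromBlocks_add, fromBlocks_smul,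
      two_smul]
    simp
  have hf : ∀ x, f x = 1 ↔ C.chi S x = 1 := fun x => by
    rw [Cx.chi_eq_one (h3 x), ← map_one (ProjGenLinGroup.mk (n := Fin 2) (R := k)), eq_comm]
    refine H29.pgl_mk_eq_mk_iff.trans ⟨fun ⟨c, _, e⟩ => ⟨c, cj_inj e2 ?_⟩, fun ⟨c, e⟩ => ?_⟩
    · rw [cj_mul e2, Matrix.mul_smul, Matrix.smul_mul, e4, h4, e, Matrix.mul_smul, smul_comm c, fromBlocks_multiply,
        fromBlocks_smul c]
      simp
    · have := congrArg (fun X => B * X * B') e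
      simp only [cj_mul e2, Matrix.mul_smul, Matrix.smul_mul, h4, e4] at this
      rw [smul_comm, (smul_right_injective _ h2).eq_iff, fromBlocks_multiply, fromBlocks_smul, fromBlocks_inj] at this
      have e5 : (u x).val = c • 1 := by simpa using this.1
      exact ⟨c, fun c0 => (u x).ne_zero (by rw [e5, c0, zero_smul]), e5⟩
  refine ⟨QuotientGroup.lift _ f fun x hx => (hf x).2 ((QuotientGroup.eq_one_iff x).2 hx),
    (injective_iff_map_eq_one _).2 fun y hy => ?_⟩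
  obtain ⟨x, rfl⟩ := QuotientGroup.mk_surjective y
  exact (hf x).1 hy

end Bx

open Bx

namespace Cx.Hy
variable (H : C.Hy p)
include H

/-- `p`-subgroups are abelian -/
theorem pcomm {R : Subgroup G} (hR : IsPGroup p R) (hg : g ∈ R) (hh : h ∈ R) : g * h = h * g := by
  obtain ⟨f, h1, h2⟩ := psub H hR
  exact (comm_iff (h1 g hg).1 (h1 h hh).1).2 ⟨1, by rw [one_smul, h2 g hg h hh]⟩

/-- **(LP)** -/
theorem tame (hS : Bi S) : Tame (C.Y S) := by
  have := Fact.mk H.prime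
  have := H.char
  have := H.closed
  have := H.fin
  obtain ⟨ρ, hρ⟩ := exists_pgl (C := C) H.two hS
  let _ := MulAction.compHom (H29.P1 k) ρ
  have key : ∀ n, p ^ n ∣ Nat.card (C.Y S) → ∃ R ≤ C.St S, IsPGroup p R ∧ Nat.card R = p ^ n := fun n hn => by
    obtain ⟨R, hR⟩ := Sylow.exists_subgroup_card_pow_prime p (hn.trans (card_quotient_dvd_card _))
    have := (card_subtype _ R).trans hR
    exact ⟨R.map (C.St S).subtype, map_subtype_le R, IsPGroup.of_card this, this⟩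
  have nt : ∀ R : Subgroup G, 1 < Nat.card R → ∃ x ∈ R, x ≠ 1 := fun R hR =>
    (nontrivial_iff_exists_ne_one R).1 (Finite.one_lt_card_iff_nontrivial.1 hR)
  refine tame_of_mob ((H29.mob_pgl p).of_hom ρ hρ fun _ _ => rfl) H.prime fun hd => ?_
  have p3 : p = 3 := by
    obtain ⟨R, h1, h2, h3⟩ := key 1 (by rwa [pow_one])
    obtain ⟨f, f1, f2⟩ := quad_St H hS h2 h1
    obtain ⟨x, hx, x1⟩ := nt R (by rw [h3, pow_one]; exact H.prime.one_lt)
    rcases H.q5 x _ (f1 x hx) (f2 x hx x hx) with e | e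
    · exact absurd (C.inj (f1 x hx) (by simpa [e] using C.one)) x1
    · exact (Nat.prime_dvd_prime_iff_eq H.prime Nat.prime_three).1 ((CharP.cast_eq_zero_iff k p 3).1 e)
  refine ⟨p3, fun h9 => ?_⟩
  subst p3
  obtain ⟨R, h1, h2, h3⟩ := key 2 h9
  obtain ⟨f, f1, f2⟩ := quad_St H hS h2 h1
  obtain ⟨x, hx, x1⟩ := nt R (by rw [h3]; norm_num)
  have : (R : Set G) ⊆ {1, x, x⁻¹} := fun y hy => by
    rcases H.q3 x y _ _ (f1 x hx) (f1 y hy) (f2 x hx x hx) (f2 y hy y hy) (f2 x hx y hy) (f2 y hy x hx) with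
      e | e | e | e
    · exact absurd (C.inj (f1 x hx) (by simpa [e] using C.one)) x1
    · exact Or.inl (C.inj (f1 y hy) (by simpa [e] using C.one))
    · exact Or.inr (Or.inl (C.inj (f1 y hy) (e ▸ f1 x hx)))
    · refine Or.inr (Or.inr (C.inj (f1 y hy) (inv_of_mul (f1 x hx) ?_)))
      rw [add_mul, mul_add, mul_add, f2 x hx y hy, e]
      simp
  have h4 := (Set.ncard_le_ncard this).trans ((Set.ncard_insert_le _ _).trans
    (Nat.succ_le_succ (Set.ncard_insert_le _ _)))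
  rw [Set.ncard_singleton] at h4
  change Nat.card R ≤ 3 at h4
  omega

end Cx.Hy

end H28.R4
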