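import Mathlib
import Cfsg.Agent.Base
import Cfsg.Agent.Lib.R4.BaseC
import Cfsg.Agent.Lib.H71.Sidki

/-!
# No biaxial homologies of order greater than two
-/

set_option autoImplicit false
set_option linter.unusedSectionVars false

namespace H28.R4

open Matrix Subgroup Cfsg
open scoped MatrixGroups commutatorElement

variable {G k ι κ : Type*} [Group G] [Field k] [Fintype ι] [DecidableEq ι] [Fintype κ] [DecidableEq κ]
  {C : Cx G k ι} {p : ℕ} {g h t : G} {M N S T : Matrix ι ι k}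

namespace Bx

theorem exists_inverted (H : C.Hy p) (ht : C.L t T) (hT : T * T = 1) (t1 : t ≠ 1) :
    ∃ (l : ℕ) (u : G) (U : Matrix ι ι k), l.Prime ∧ Odd l ∧ C.L u U ∧ U ≠ 1 ∧ U ^ l = 1 ∧ U * T * U = T := by
  have := H.fin
  have := H.simple
  have := H.closed
  have t2 : t * t = 1 := C.inj (C.mul ht ht) (hT ▸ C.one)
  have h0 : pCore 2 G = ⊥ := H1.pCore_eq_bot_iff.2 fun N _ hN =>
    (IsSimpleGroup.eq_bot_or_eq_top_of_normal N ‹_›).resolve_right fun e => by
      have := (hN.of_equiv ((MulEquiv.subgroupCongr e).trans topEquiv)).isNilpotent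
      exact H.nab ⟨⟨IsSimpleGroup.comm_iff_isSolvable.2 inferInstance⟩⟩
  obtain ⟨x, x1, xo, xi⟩ := H71.exists_inverted_of_not_mem_pCore t2 (by rwa [h0, mem_bot])
  obtain ⟨l, hl, hd⟩ := Nat.exists_prime_and_dvd (mt orderOf_eq_one_iff.1 x1)
  have lo := xo.of_dvd_nat hd
  have ou := orderOf_pow_orderOf_div (orderOf_pos x).ne' hd
  have ui : x ^ (orderOf x / l) * t * x ^ (orderOf x / l) = t := by
    have := congrArg (· ^ (orderOf x / l)) xi
    simp only [conj_pow, inv_pow] at this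
    rw [← eq_inv_of_mul_eq_one_left t2] at this
    rw [mul_assoc, ← inv_mul_cancel_left t (t * _), ← eq_inv_of_mul_eq_one_left t2, ← mul_assoc t t, t2, one_mul,
      ← eq_inv_mul_iff_mul_eq, ← this, mul_assoc _ t t, t2, mul_one]
  generalize x ^ (orderOf x / l) = u at ou ui
  obtain ⟨U, h1, h2⟩ := Cx.exists_pow (C := C) hl.ne_zero (ou ▸ pow_orderOf_eq_one u)
  obtain ⟨c, c0, hc⟩ := C.uniq ht (ui ▸ C.mul (C.mul h1 ht) h1)
  have h3 : ∀ n, U ^ n * T * U ^ n = c ^ n • T := fun n => by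
    induction n with
    | zero => simp
    | succ n ih =>
      calc _ = U * (U ^ n * T * U ^ n) * U := by rw [pow_succ' U n]; nth_rw 2 [← pow_succ']; simp only [pow_succ, mul_assoc]
        _ = _ := by rw [ih, mul_smul_comm, smul_mul_assoc, hc, smul_smul, pow_succ]
  have h4 : c ^ l = 1 := smul_left_injective k (Cx.ne_zero ht) (by simp only [← h3, h2, one_mul, mul_one, one_smul])
  obtain ⟨j, hj⟩ := lo
  refine ⟨l, u, c ^ j • U, hl, ⟨j, hj⟩, C.smul h1 (pow_ne_zero _ c0), fun e => ?_, ?_, ?_⟩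
  · rw [C.inj (C.smul h1 (pow_ne_zero j c0)) (e ▸ C.one), orderOf_one] at ou
    exact hl.one_lt.ne ou
  · rw [_root_.smul_pow, h2, ← pow_mul, mul_comm, pow_mul, h4, one_pow, one_smul]
  · rw [smul_mul_assoc, smul_mul_assoc, mul_smul_comm, hc, smul_smul, smul_smul, ← pow_add, ← pow_succ, ← two_mul,
      ← hj, h4, one_smul]

theorem exists_eigen [IsAlgClosed k] {l : ℕ} (hl : (l : k) ≠ 0) {U : Matrix ι ι k} (h1 : U ≠ 1) (h2 : U ^ l = 1) :
    ∃ (z : k) (v φ : ι → k), z ≠ 1 ∧ z ^ l = 1 ∧ U *ᵥ v = z • v ∧ φ ᵥ* U = z • φ ∧ φ ⬝ᵥ v = 1 := by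
  have : Nontrivial (Matrix ι ι k) := ⟨_, _, h1⟩
  have h3 : ¬ IsUnit (∑ i ∈ Finset.range l, U ^ i) := fun e => h1 (sub_eq_zero.1 (e.mul_right_eq_zero.1 (by
    rw [geom_sum_mul, h2, sub_self])))
  have h4 : (0 : k) ∈ spectrum k (Polynomial.aeval U (∑ i ∈ Finset.range l, Polynomial.X ^ i : Polynomial k)) := by
    simpa [spectrum.zero_mem_iff] using h3
  rw [spectrum.map_polynomial_aeval_of_nonempty _ _ (spectrum.nonempty_of_isAlgClosed_of_finiteDimensional k U)] at h4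
  obtain ⟨z, z1, z2⟩ := h4
  simp only [Polynomial.eval_geom_sum, Polynomial.eval_X] at z2
  have z3 : z ^ l = 1 := by rw [← sub_eq_zero, ← geom_sum_mul, z2, zero_mul]
  rw [spectrum.mem_iff, isUnit_iff_isUnit_det, isUnit_iff_ne_zero, not_not, ← exists_mulVec_eq_zero_iff] at z1
  obtain ⟨v, v0, hv⟩ := z1
  rw [sub_mulVec, Algebra.algebraMap_eq_smul_one, smul_mulVec, one_mulVec, sub_eq_zero, eq_comm] at hv
  have z0 : z ≠ 0 := fun e => by
    rw [e, zero_pow (fun e => hl (by rw [e, Nat.cast_zero]))] at z3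
    exact zero_ne_one z3
  let Q : Matrix ι ι k := ∑ i ∈ Finset.range l, (z⁻¹ • U) ^ i
  have q1 : Q * U = z • Q := by
    have := geom_sum_mul (z⁻¹ • U) l
    rwa [_root_.smul_pow, h2, inv_pow, z3, inv_one, one_smul, sub_self, mul_sub, mul_one, sub_eq_zero, mul_smul_comm,
      inv_smul_eq_iff₀ z0] at this
  have q2 : Q *ᵥ v = (l : k) • v := by
    have : ∀ i, (z⁻¹ • U) ^ i *ᵥ v = v := fun i => by
      induction i with
      | zero => simp
      | succ i ih => rw [pow_succ, ← mulVec_mulVec, smul_mulVec, hv, inv_smul_smul₀ z0, ih]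
    simp [Q, sum_mulVec, this, Nat.cast_smul_eq_nsmul]
  obtain ⟨i, hi⟩ := Function.ne_iff.1 v0
  refine ⟨z, v, (l * v i)⁻¹ • (Pi.single i 1 ᵥ* Q), fun e => hl (by simpa [e] using z2), z3, hv, ?_, ?_⟩
  · rw [smul_vecMul, vecMul_vecMul, q1, vecMul_smul, smul_comm]
  · rw [smul_dotProduct, ← dotProduct_mulVec, q2, single_one_dotProduct]
    exact inv_mul_cancel₀ (mul_ne_zero hl hi)

/-- the matrix `diag (c, c, 1, 1)` -/
abbrev D (c : k) : Matrix (Fin 2 ⊕ Fin 2) (Fin 2 ⊕ Fin 2) k := fromBlocks (c • 1) 0 0 1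

theorem D_mul (c d : k) : D c * D d = D (c * d) := by
  rw [fromBlocks_multiply, smul_mul_smul_comm]
  simp only [Matrix.mul_zero, Matrix.zero_mul, add_zero, zero_add, Matrix.mul_one]

theorem D_one : D (1 : k) = 1 := by rw [D, one_smul, fromBlocks_one]

theorem D_pow (c : k) (n : ℕ) : D c ^ n = D (c ^ n) := by simp [fromBlocks_diagonal_pow, _root_.smul_pow]

theorem D_neg_one : D (-1 : k) = -S0 k := by simp [fromBlocks_neg]

theorem D_eq (h2 : (2 : k) ≠ 0) (c : k) : D c = ((c + 1) / 2) • 1 + ((c - 1) / 2) • S0 k := by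
  rw [← fromBlocks_one, fromBlocks_smul, fromBlocks_smul, fromBlocks_add, smul_neg, ← add_smul, ← sub_eq_add_neg,
    ← sub_smul, show (c + 1) / 2 + (c - 1) / 2 = c by field_simp; ring,
    show (c + 1) / 2 - (c - 1) / 2 = 1 by field_simp; ring]
  simp

theorem S0_sq : S0 k * S0 k = 1 := by simp [fromBlocks_multiply]

section
variable {C : Cx G k (Fin 2 ⊕ Fin 2)} {u : G} {U : Matrix (Fin 2 ⊕ Fin 2) (Fin 2 ⊕ Fin 2) k} {c : k}

theorem wild (H : C.Hy p) (hg : C.L g (D c)) (c0 : c ≠ 0) (c1 : c ≠ 1) (c2 : c ≠ -1) (hu : C.L u U)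
    (h1 : U ^ p = 1) (h2 : U * S0 k * U = S0 k) : U * U = 1 := by
  have := Fact.mk H.prime
  have := H.char
  have hu' : C.L (g * u * g⁻¹) (D c * U * D c⁻¹) :=
    C.mul (C.mul hg hu) (Cx.inv_of_mul hg (by rw [D_mul, mul_inv_cancel₀ c0, D_one]))
  have k1 : ∀ n, ∃ A, (U - 1) ^ n * S0 k = A * (U - 1) ^ n := fun n => by
    induction n with
    | zero => exact ⟨S0 k, by simp⟩
    | succ n ih =>
      obtain ⟨A, hA⟩ := ih
      refine ⟨-(U * A), ?_⟩
      have e : (U - 1) * S0 k = -(U * (S0 k * (U - 1))) := by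
        rw [mul_sub, mul_sub, ← mul_assoc, h2, mul_one, neg_sub, sub_mul, one_mul]
      rw [pow_succ, mul_assoc, e, mul_neg, ← mul_assoc,
        ← (((Commute.refl U).sub_right (Commute.one_right U)).pow_right n).eq, mul_assoc, ← mul_assoc _ (S0 k), hA]
      simp only [neg_mul, mul_assoc]
  have k2 : ∀ n d v, (U - 1) ^ n *ᵥ v = 0 → (U - 1) ^ n *ᵥ (D d *ᵥ v) = 0 := fun n d v hv => by
    obtain ⟨A, hA⟩ := k1 n
    rw [D_eq H.two, add_mulVec, smul_mulVec, smul_mulVec, mulVec_add, mulVec_smul, mulVec_smul, one_mulVec, hv,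
      mulVec_mulVec, hA, ← mulVec_mulVec, hv]
    simp
  have e : D c * U * D c⁻¹ - 1 = D c * ((U - 1) * D c⁻¹) := by
    rw [sub_mul, mul_sub, one_mul, D_mul, mul_inv_cancel₀ c0, D_one, mul_assoc]
  have hc := comm_of_flag H {U - 1, D c * U * D c⁻¹ - 1} (fun W hW _ => by
    by_contra! h0
    have : ∀ n v, (U - 1) ^ n *ᵥ v = 0 → v ∈ W := fun n => by
      induction n with
      | zero => intro v hv; rw [pow_zero, one_mulVec] at hv; exact hv ▸ W.zero_mem
      | succ n ih =>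
        intro v hv
        by_contra hv'
        obtain ⟨N, rfl | rfl, hN⟩ := h0 v hv'
        · exact hN (ih _ (by rw [mulVec_mulVec, ← pow_succ, hv]))
        · refine hN (ih _ ?_)
          rw [e, ← mulVec_mulVec, ← mulVec_mulVec]
          exact k2 _ _ _ (by rw [mulVec_mulVec, ← pow_succ, k2 _ _ _ hv])
    refine hW (Submodule.eq_top_iff'.2 fun v => this p v ?_)
    rw [sub_pow_char_of_commute _ (Commute.one_right _), h1, one_pow, sub_self, zero_mulVec]) hu hu'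
    (Or.inl rfl) (Or.inr rfl)
  obtain ⟨a, b, x, d, rfl⟩ : ∃ a b x d, U = fromBlocks a b x d := ⟨_, _, _, _, (fromBlocks_toBlocks U).symm⟩
  have z : ∀ {r : k} {X : Matrix (Fin 2) (Fin 2) k}, r ≠ 0 → r • X = 0 → X = 0 := fun h e =>
    (smul_eq_zero.1 e).resolve_left h
  have hu2 := C.mul hu hu
  have hu3 := C.mul hu' hu'
  simp only [fromBlocks_multiply, fromBlocks_inj, Matrix.mul_zero, Matrix.zero_mul, add_zero, zero_add,
    Matrix.mul_one, Matrix.one_mul, Matrix.mul_neg, Matrix.neg_mul, smul_mul_assoc, mul_smul_comm, smul_smul,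
    inv_mul_cancel₀ c0, mul_inv_cancel₀ c0, one_smul, smul_zero] at hc h2 hu2 hu3 ⊢
  have cc : c - c⁻¹ ≠ 0 := fun e => by
    have : c * c = 1 := by rw [sub_eq_zero] at e; nth_rw 2 [e]; exact mul_inv_cancel₀ c0
    exact (mul_self_eq_one_iff.1 this).elim c1 c2
  have f1 : b * x = 0 := z cc (by rw [sub_smul, sub_eq_zero, add_left_cancel hc.1])
  have f2 : x * b = 0 := z cc (by rw [sub_smul, sub_eq_zero, add_right_cancel hc.2.2.2])
  simp only [f1, f2, neg_zero, add_zero, zero_add, neg_inj, add_neg_eq_zero] at h2 hu2 hu3 ⊢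
  obtain ⟨f3, f4, f5, f6⟩ := h2
  rw [← smul_add, ← smul_add] at hu3
  rw [f3, f6, ← f4, f5] at hu2 hu3 ⊢
  have g1 : (a * b + a * b) * (d * x + d * x) = 0 := by
    have : a * b * (d * x) = 0 := by rw [mul_assoc, ← mul_assoc b, ← f4, mul_assoc, f1, mul_zero, mul_zero]
    simp only [add_mul, mul_add, this, add_zero]
  have g2 : (d * x + d * x) * (a * b + a * b) = 0 := by
    have : d * x * (a * b) = 0 := by rw [mul_assoc, ← mul_assoc x, f5, mul_assoc, f2, mul_zero, mul_zero]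
    simp only [add_mul, mul_add, this, add_zero]
  generalize a * b + a * b = y at *
  generalize d * x + d * x = w at *
  have o : ∀ y w : Matrix (Fin 2) (Fin 2) k, fromBlocks 1 y w 1 = 1 + fromBlocks 0 y w 0 := fun y w => by
    rw [← fromBlocks_one, fromBlocks_add]; simp
  rw [o] at hu2 hu3 ⊢
  have c3 : c⁻¹ - 1 ≠ 0 := sub_ne_zero.2 (mt inv_eq_one.1 c1)
  have c4 : c⁻¹ + 1 ≠ 0 := fun e => c2 (by rw [← inv_inv c, eq_neg_of_add_eq_zero_left e, inv_neg, inv_one])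
  rcases H.q3 _ _ _ _ hu2 hu3 (by simp [fromBlocks_multiply, g1, g2]) (by simp [fromBlocks_multiply, g1, g2])
    (by simp [fromBlocks_multiply, g1, g2]) (by simp [fromBlocks_multiply, g1, g2]) with e | e | e | e
  · rw [e, add_zero]
  · rw [← fromBlocks_zero, fromBlocks_inj] at e
    simp [z c0 e.2.1, z (inv_ne_zero c0) e.2.2.1]
  · rw [fromBlocks_inj] at e
    simp [z (sub_ne_zero.2 c1) (by rw [sub_smul, e.2.1, one_smul, sub_self] : (c - 1) • y = 0),
      z c3 (by rw [sub_smul, e.2.2.1, one_smul, sub_self] : (c⁻¹ - 1) • w = 0)]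
  · rw [fromBlocks_neg, fromBlocks_inj] at e
    simp [z (mt eq_neg_of_add_eq_zero_left c2) (by rw [add_smul, e.2.1, one_smul, neg_add_cancel] : (c + 1) • y = 0),
      z c4 (by rw [add_smul, e.2.2.1, one_smul, neg_add_cancel] : (c⁻¹ + 1) • w = 0)]

theorem tame_case (H : C.Hy p) (ht : C.L t (S0 k)) (hg : C.L g (D c)) (c1 : c ≠ 1) (c2 : c ≠ -1)
    (ce : Even (orderOf c)) (hu : C.L u U) {l : ℕ} (lo : Odd l) (h1 : U ^ l = 1) (h2 : U * S0 k * U = S0 k)
    {z : k} {v φ : Fin 2 ⊕ Fin 2 → k} (z1 : z ≠ 1) (z2 : z ^ l = 1) (hv : U *ᵥ v = z • v) (hφ : φ ᵥ* U = z • φ)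
    (e : φ ⬝ᵥ v = 1) : False := by
  have := H.fin
  have z0 : z ≠ 0 := fun e => by rw [e, zero_pow lo.pos.ne'] at z2; exact zero_ne_one z2
  have z3 : z ≠ z⁻¹ := fun e => z1 (by
    obtain ⟨j, rfl⟩ := lo
    have : z ^ 2 = 1 := by rw [sq]; nth_rw 2 [e]; exact mul_inv_cancel₀ z0
    rwa [pow_succ, pow_mul, this, one_pow, one_mul] at z2)
  obtain ⟨w, hw⟩ : ∃ w, w = S0 k *ᵥ v := ⟨_, rfl⟩
  obtain ⟨ψ, hψ⟩ : ∃ ψ, ψ = φ ᵥ* S0 k := ⟨_, rfl⟩
  have w1 : S0 k *ᵥ w = v := by rw [hw, mulVec_mulVec, S0_sq, one_mulVec]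
  have ψ1 : ψ ᵥ* S0 k = φ := by rw [hψ, vecMul_vecMul, S0_sq, vecMul_one]
  have w2 : U *ᵥ w = z⁻¹ • w := by
    rw [eq_inv_smul_iff₀ z0, ← mulVec_smul, hw, ← mulVec_smul, ← hv, mulVec_mulVec, mulVec_mulVec, h2]
  have ψ2 : ψ ᵥ* U = z⁻¹ • ψ := by
    rw [eq_inv_smul_iff₀ z0, ← smul_vecMul, hψ, ← smul_vecMul, ← hφ, vecMul_vecMul, vecMul_vecMul, ← mul_assoc, h2]
  have e1 : φ ⬝ᵥ w = 0 := by
    have := dotProduct_mulVec φ U w
    rw [w2, hφ, dotProduct_smul, smul_dotProduct, smul_eq_mul, smul_eq_mul] at this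
    by_contra h0
    exact z3 (mul_right_cancel₀ h0 this).symm
  have e2 : ψ ⬝ᵥ v = 0 := by rw [hψ, ← dotProduct_mulVec, ← hw, e1]
  have e3 : ψ ⬝ᵥ w = 1 := by rw [hψ, ← dotProduct_mulVec, w1, e]
  obtain ⟨E, hE⟩ : ∃ E, E = vecMulVec v φ + vecMulVec w ψ := ⟨_, rfl⟩
  have E1 : E *ᵥ v = v := by simp [hE, add_mulVec, vecMulVec_mulVec, e, e2]
  have E2 : E *ᵥ w = w := by simp [hE, add_mulVec, vecMulVec_mulVec, e1, e3]
  have E3 : E * E = E := by
    nth_rw 2 [hE]
    rw [mul_add, mul_vecMulVec, mul_vecMulVec, E1, E2, hE]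
  have hS : Bi ((2 : k) • E - 1) := ⟨by
    simp only [mul_sub, sub_mul, smul_mul_assoc, mul_smul_comm, E3, mul_one, one_mul]; module, by
    simp [hE, trace_vecMulVec, dotProduct_comm v, dotProduct_comm w, e, e3]; norm_num⟩
  have cm : ∀ {x : G} {X}, C.L x X → X * E = E * X → x ∈ C.St ((2 : k) • E - 1) := fun hx a =>
    (Cx.mem_St hx).2 (by rw [mul_sub, sub_mul, smul_mul_assoc, mul_smul_comm, a, mul_one, one_mul])
  have ch : ∀ {x : C.St ((2 : k) • E - 1)} {X}, C.L x X → C.chi _ x = 1 → ∃ a : k, X *ᵥ v = a • v ∧ X *ᵥ w = a • w :=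
    fun {x X} hx a => by
      obtain ⟨a, ha⟩ := (Cx.chi_eq_one hx).1 a
      rw [add_sub_cancel, mul_smul_comm, smul_comm, (smul_right_injective _ H.two).eq_iff] at ha
      exact ⟨a, by rw [← E1, mulVec_mulVec, ha, smul_mulVec], by rw [← E2, mulVec_mulVec, ha, smul_mulVec]⟩
  have c3 : S0 k * E = E * S0 k := by
    rw [hE, mul_add, add_mul, mul_vecMulVec, mul_vecMulVec, vecMulVec_mul, vecMulVec_mul, w1, ψ1, ← hw, ← hψ, add_comm]
  have mt := cm ht c3
  have mu := cm hu (by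
    rw [hE, mul_add, add_mul, mul_vecMulVec, mul_vecMulVec, vecMulVec_mul, vecMulVec_mul, hv, w2, hφ, ψ2,
      smul_vecMulVec, smul_vecMulVec, vecMulVec_smul, vecMulVec_smul])
  have mg := cm hg (by rw [D_eq H.two]; simp only [add_mul, mul_add, smul_mul_assoc, mul_smul_comm, c3, mul_one, one_mul])
  have sv : ∀ {a b : k} {x : Fin 2 ⊕ Fin 2 → k}, φ ⬝ᵥ x = 1 → a • x = b • x → a = b := fun hx e => by
    simpa [hx] using congrArg (φ ⬝ᵥ ·) e
  have og : orderOf (C.chi _ ⟨g, mg⟩) = orderOf c := orderOf_eq_orderOf_iff.2 fun n => by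
    have hn := D_pow c n ▸ Cx.pow hg n
    rw [← map_pow]
    refine ⟨fun a => ?_, fun a => ?_⟩
    · obtain ⟨a, a1, a2⟩ := ch (x := ⟨g, mg⟩ ^ n) hn a
      rw [D_eq H.two, add_mulVec, smul_mulVec, smul_mulVec, one_mulVec] at a1 a2
      rw [← hw] at a1
      have b1 := congrArg (ψ ⬝ᵥ ·) a1
      simp [e2, e3, H.two] at b1
      exact sub_eq_zero.1 b1
    · rw [a, D_one] at hn
      rw [show (⟨g, mg⟩ : C.St _) ^ n = 1 from Subtype.ext (C.inj hn C.one), map_one]
  obtain ⟨m, hm⟩ := ce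
  have op := og ▸ orderOf_pos (C.chi _ ⟨g, mg⟩)
  have cm2 : c ^ m * c ^ m = 1 := by rw [← pow_add, ← hm, pow_orderOf_eq_one]
  have cm1 : c ^ m = -1 := (mul_self_eq_one_iff.1 cm2).resolve_left (pow_ne_one_of_lt_orderOf (by omega) (by omega))
  have m2 : 2 ≤ m := by
    rcases m with _ | _ | m
    · omega
    · exact absurd (by simpa using cm1) c2
    · omega
  have gt : (⟨g, mg⟩ : C.St _) ^ m = ⟨t, mt⟩ :=
    Subtype.ext (C.inj (Cx.pow hg m) (by rw [D_pow, cm1, D_neg_one]; exact Cx.neg ht))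
  have li := (H.tame hS).li (a := C.chi _ ⟨g, mg⟩) (b := C.chi _ ⟨u, mu⟩ * C.chi _ ⟨g, mg⟩ * (C.chi _ ⟨u, mu⟩)⁻¹) m2 m2
    (by omega) (by rw [← MulAut.conj_apply, MulEquiv.orderOf_eq]; omega)
  rw [conj_pow, ← map_pow, gt] at li
  have r1 : C.chi _ ⟨t, mt⟩ * C.chi _ ⟨t, mt⟩ = 1 := by
    rw [← map_mul, ← map_one (C.chi _)]
    exact congrArg _ (Subtype.ext (C.inj (C.mul ht ht) (S0_sq (k := k) ▸ C.one)))
  have r2 : C.chi _ ⟨u, mu⟩ * C.chi _ ⟨t, mt⟩ * C.chi _ ⟨u, mu⟩ = C.chi _ ⟨t, mt⟩ := by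
    rw [← map_mul, ← map_mul]
    exact congrArg _ (Subtype.ext (C.inj (C.mul (C.mul hu ht) hu) (h2.symm ▸ ht)))
  have r3 : C.chi _ ⟨u, mu⟩ ^ l = 1 := by
    rw [← map_pow, ← map_one (C.chi _)]
    exact congrArg _ (Subtype.ext (C.inj (Cx.pow hu l) (h1 ▸ C.one)))
  have r4 : C.chi _ ⟨u, mu⟩ = 1 := by
    generalize C.chi _ ⟨u, mu⟩ = a at *
    generalize C.chi _ ⟨t, mt⟩ = b at *
    rw [eq_mul_inv_of_mul_eq r2, ← mul_assoc, ← mul_assoc, r1, one_mul, ← sq, ← pow_mul, inv_pow, inv_eq_one] at li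
    exact orderOf_eq_one_iff.1 (Nat.eq_one_of_dvd_coprimes (Nat.Coprime.pow_left 2 (Nat.coprime_two_left.2 lo))
      (orderOf_dvd_of_pow_eq_one li) (orderOf_dvd_of_pow_eq_one r3))
  obtain ⟨a, a1, a2⟩ := ch (x := ⟨u, mu⟩) hu r4
  have b1 := congrArg (ψ ⬝ᵥ ·) (w2.symm.trans a2)
  simp only [dotProduct_smul, e3, smul_eq_mul, mul_one] at b1
  exact z3 ((sv e (hv.symm.trans a1)).trans b1.symm)

theorem biax_S0 (H : C.Hy p) (ht : C.L t (S0 k)) (hg : C.L g (D c)) (c1 : c ≠ 1) (c2 : c ≠ -1) : False := by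
  have := H.closed
  have := H.char
  have c0 : c ≠ 0 := fun e => Cx.det_ne hg (by simp [e, det_fromBlocks_zero₂₁])
  obtain ⟨l, u, U, hl, lo, hu, U1, h1, h2⟩ := exists_inverted H ht S0_sq fun e => by
    obtain ⟨a, ha⟩ := (Cx.eq_one_iff ht).1 e
    have a1 := congrFun (congrFun ha (.inl 0)) (.inl 0)
    have a2 := congrFun (congrFun ha (.inr 0)) (.inr 0)
    simp at a1 a2
    exact neg_one_ne H.two (a2.trans a1.symm)
  by_cases lp : l = p
  · obtain ⟨j, hj⟩ := lo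
    have h3 := wild H hg c0 c1 c2 hu (lp ▸ h1) h2
    rw [hj, pow_succ, pow_mul, sq, h3, one_pow, one_mul] at h1
    exact U1 h1
  obtain ⟨z, v, φ, z1, z2, hv, hφ, e⟩ := exists_eigen (l := l) (fun e =>
    lp ((Nat.prime_dvd_prime_iff_eq H.prime hl).1 ((CharP.cast_eq_zero_iff k p l).1 e)).symm) U1 h1
  rcases Nat.even_or_odd (orderOf c) with ce | ce
  · exact tame_case H ht hg c1 c2 ce hu lo h1 h2 z1 z2 hv hφ e
  · refine tame_case H ht (c := -c) (g := g * t) (by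
      have := Cx.neg (C.mul hg ht)
      rwa [← mul_neg, ← D_neg_one, D_mul, mul_neg_one] at this) (mt neg_eq_iff_eq_neg.1 c2) (mt neg_inj.1 c1) ?_
      hu lo h1 h2 z1 z2 hv hφ e
    by_contra h0
    have h3 := (Nat.not_even_iff_odd.1 h0).mul ce
    have h4 : (-c) ^ (orderOf (-c) * orderOf c) = 1 := by rw [pow_mul, pow_orderOf_eq_one, one_pow]
    rw [h3.neg_pow, mul_comm, pow_mul, pow_orderOf_eq_one, one_pow] at h4
    exact neg_one_ne H.two h4

end

end Bx

open Bx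

namespace Cx.Hy
variable (H : C.Hy p)
include H

/-- **(I)** -/
theorem biax (ht : C.L t T) (hT : Bi T) {x y : k} (hg : C.L g (x • 1 + y • T)) : x = 0 ∨ y = 0 := by
  obtain ⟨B, B', e1, e2, e3⟩ := hT.exists_diag C.card H.two
  have h1 := cj_L e1 e2 (by simp) hg
  have h2 := cj_L e1 e2 (by simp) ht
  rw [Matrix.mul_add, Matrix.add_mul, Matrix.mul_smul, Matrix.mul_smul, Matrix.smul_mul, Matrix.smul_mul,
    Matrix.mul_one, e1] at h1
  rw [e3] at h1 h2
  have d : x - y ≠ 0 := fun e => det_ne h1 (by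
    rw [sub_eq_zero.1 e, ← smul_add, ← fromBlocks_one, fromBlocks_add, fromBlocks_smul]
    simp [det_fromBlocks_zero₂₁])
  have two := H.two
  by_contra! h0
  refine biax_S0 (H.cj e1 e2 (by simp)) h2 (g := g) (c := (x + y) / (x - y)) ?_ (fun e => h0.2 ?_) fun e => h0.1 ?_
  · convert (C.cj B B' e1 e2 _).smul h1 (inv_ne_zero d) using 1
    rw [D_eq H.two, smul_add, smul_smul, smul_smul]
    congr 2 <;> field_simp <;> ring
  · rw [div_eq_iff d] at e
    exact mul_left_cancel₀ two (by linear_combination e)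
  · rw [div_eq_iff d] at e
    exact mul_left_cancel₀ two (by linear_combination e)

/-- an element which is scalar on both eigenspaces of a biaxial involution -/
theorem chi_both (ht : C.L t T) (hT : Bi T) (h1 : g ∈ C.St T) (h2 : g ∈ C.St (-T))
    (e1 : C.chi T ⟨g, h1⟩ = 1) (e2 : C.chi (-T) ⟨g, h2⟩ = 1) : g = 1 ∨ g = t := by
  obtain ⟨M, hM⟩ := C.ex g
  obtain ⟨c, hc⟩ := (chi_eq_one (x := ⟨g, h1⟩) hM).1 e1
  obtain ⟨d, hd⟩ := (chi_eq_one (x := ⟨g, h2⟩) hM).1 e2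
  have e : (2 : k) • M = (c + d) • 1 + (c - d) • T := by
    have : (2 : k) • M = M * (1 + T) + M * (1 + -T) := by simp only [mul_add, mul_neg, mul_one]; module
    rw [this, hc, hd]; module
  have h3 := e ▸ C.smul hM H.two
  rcases H.biax ht hT h3 with h4 | h4
  · exact Or.inr (eq_of_smul ht h3 (by rw [h4, zero_smul, zero_add])).symm
  · exact Or.inl ((eq_one_iff h3).2 ⟨_, by rw [h4, zero_smul, add_zero]⟩)

/-- trace of a lift of an element of order four -/
theorem trace_four (hR : C.NR) (hg : C.L g M) (hd : M.det = 1) (h4 : M ^ 4 = -1) : M.trace = 0 := by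
  have := H.closed
  have two := H.two
  have sc : ∀ c : k, c * c = -1 → M * M ≠ c • 1 := fun c hc e => by
    obtain ⟨a, rfl⟩ := IsAlgClosed.exists_eq_mul_self c
    have a0 : a ≠ 0 := by rintro rfl; simp at hc
    have h1 : a⁻¹ • M * a⁻¹ • M = 1 := by
      rw [smul_mul_smul_comm, e, smul_smul, ← _root_.mul_inv, inv_mul_cancel₀ (mul_ne_zero a0 a0), one_smul]
    have h2 : (a⁻¹ • M).det = -1 := by
      rw [C.det_smul', hd, mul_one, inv_pow, show a ^ 4 = -1 by linear_combination hc, inv_neg, inv_one]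
    have h3 := C.smul hg (inv_ne_zero a0)
    rcases invol_cases C.card two h1 with f | f | f | f | f
    · rw [f, det_one] at h2; exact neg_one_ne two h2.symm
    · rw [f, det_neg, det_one, C.card] at h2; exact neg_one_ne two (by linear_combination -h2)
    · obtain ⟨B, B', e1, e2, e3⟩ := f.exists_diag C.card two
      rw [← det_conj_of_mul_eq_one e1 e2, e3, det_fromBlocks_zero₂₁, det_neg, det_one] at h2
      exact neg_one_ne two (by simpa using h2.symm)
    · exact hR _ _ h3 f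
    · exact hR _ _ (neg h3) f
  obtain ⟨i, hi⟩ := IsAlgClosed.exists_eq_mul_self (-1 : k)
  have i0 : i ≠ 0 := by rintro rfl; simp at hi
  have h1 : i • (M * M) * i • (M * M) = 1 := by
    rw [smul_mul_smul_comm, ← hi, ← sq M, ← pow_add, h4]; simp
  have h2 : M * M = -i • i • (M * M) := by rw [smul_smul, neg_mul, ← hi, neg_neg, one_smul]
  have h3 := C.smul (C.mul hg hg) i0
  rcases invol_cases C.card two h1 with f | f | f | f | f
  · exact absurd (by rw [h2, f]) (sc (-i) (by rw [neg_mul_neg, hi]))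
  · exact absurd (by rw [h2, f, neg_smul_neg]) (sc i hi.symm)
  · obtain ⟨B, B', e1, e2, e3⟩ := f.exists_diag C.card two
    obtain ⟨a, d, e⟩ := blocks two e2 e3 (M := M) (by rw [mul_smul_comm, smul_mul_assoc, mul_assoc])
    have h5 := congrArg (fun X => B * X * B') h2
    simp only [Matrix.mul_smul (a := -i), Matrix.smul_mul (a := -i), e3] at h5
    simp only [cj_mul e2, e, fromBlocks_multiply, fromBlocks_smul, fromBlocks_inj, Matrix.mul_zero, Matrix.zero_mul,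
      add_zero, zero_add, neg_smul_neg] at h5
    rw [← det_conj_of_mul_eq_one e1 e2, e, det_fromBlocks_zero₂₁] at hd
    rw [← trace_cj e2, e, trace_fromBlocks]
    rcases sq_two h5.1 with ⟨x, rfl, hx⟩ | ⟨g1, g2⟩ <;> rcases sq_two h5.2.2.2 with ⟨y, rfl, hy⟩ | ⟨g3, g4⟩
    · have h6 : (2 : k) • M = (x + y) • 1 + (x - y) • i • (M * M) := cj_inj e2 (by
        simp only [Matrix.mul_add, Matrix.add_mul, Matrix.mul_smul (a := x - y), Matrix.smul_mul (a := x - y), e3]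
        simp only [Matrix.mul_smul, Matrix.smul_mul, e, Matrix.mul_one, e1]
        rw [← fromBlocks_one]
        simp only [fromBlocks_smul, fromBlocks_add, fromBlocks_inj, smul_zero, add_zero, true_and]
        constructor <;> module)
      have h7 : x ^ 2 ≠ y ^ 2 := fun e => i0 (mul_left_cancel₀ two (by linear_combination hx - hy - e))
      rcases H.biax h3 f (h6 ▸ C.smul hg two) with h8 | h8
      · exact absurd (by linear_combination (x - y) * h8) h7
      · exact absurd (by linear_combination (x + y) * h8) h7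
    · simp [hx, g4, ← hi] at hd; exact absurd hd (neg_one_ne two)
    · simp [hy, g2, ← hi] at hd; exact absurd hd (neg_one_ne two)
    · rw [g1, g3, add_zero]
  · exact absurd f (hR _ _ h3)
  · exact absurd f (hR _ _ (neg h3))

end Cx.Hy

end H28.R4
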