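import Mathlib
import Cfsg.Agent.Base
import Cfsg.Prelude.Def_GeometricClasses
import Cfsg.Agent.Lib.R4.Base

/-!
# The projective representation attached to a perfect linear group of degree four
-/

set_option autoImplicit false
set_option linter.unusedSectionVars false

namespace H28.R4.As

open Matrix Subgroup Cfsg Cfsg.Geo
open scoped MatrixGroups commutatorElement

variable {F k : Type*} [Field F] [Field k] (f : F →+* k) (P : Subgroup (GL (Fin 4) F))

theorem mem_scal {g : GL (Fin 4) F} : g ∈ scalars (Fin 4) F ↔ ∃ c : F, g.val = c • 1 := by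
  constructor
  · rintro ⟨c, rfl⟩
    exact ⟨c, by simp [scalar_apply, smul_one_eq_diagonal]⟩
  · rintro ⟨c, hc⟩
    refine ⟨Units.mk0 c fun e => g.ne_zero (by rw [hc, e, zero_smul]), Units.ext ?_⟩
    simp [hc, scalar_apply, smul_one_eq_diagonal]

theorem map_smul' (c : F) (M : Matrix (Fin 4) (Fin 4) F) : (c • M).map f = f c • M.map f := by
  ext i j; simp

/-- the lifting predicate of `P` modulo scalars -/
def cx : Cx (P ⧸ (scalars (Fin 4) F).subgroupOf P) k (Fin 4) where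
  L g M := ∃ x : P, (x : P ⧸ (scalars (Fin 4) F).subgroupOf P) = g ∧ ∃ c : k, c ≠ 0 ∧ M = c • x.val.val.map f
  card := Fintype.card_fin 4
  ex g := by
    obtain ⟨x, rfl⟩ := QuotientGroup.mk_surjective g
    exact ⟨_, x, rfl, 1, one_ne_zero, rfl⟩
  one := ⟨1, rfl, 1, one_ne_zero, by simp⟩
  mul := by
    rintro _ _ _ _ ⟨x, rfl, c, c0, rfl⟩ ⟨y, rfl, d, d0, rfl⟩
    exact ⟨x * y, rfl, c * d, mul_ne_zero c0 d0, by simp [smul_smul, mul_comm]⟩
  smul := by
    rintro _ _ d ⟨x, rfl, c, c0, rfl⟩ d0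
    exact ⟨x, rfl, d * c, mul_ne_zero d0 c0, smul_smul _ _ _⟩
  uniq := by
    rintro _ _ _ ⟨x, rfl, c, c0, rfl⟩ ⟨y, e, d, d0, rfl⟩
    obtain ⟨a, ha⟩ := mem_scal.1 (mem_subgroupOf.1 (QuotientGroup.eq.1 e.symm))
    have e1 : y.val.val = a • x.val.val := by
      rw [← mul_inv_cancel_left x y, coe_mul, Units.val_mul, ha, mul_smul_comm, mul_one]
    refine ⟨d * f a / c, div_ne_zero (mul_ne_zero d0 ((map_ne_zero f).2 fun a0 => y.val.ne_zero ?_)) c0, ?_⟩
    · rw [e1, a0, zero_smul]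
    · rw [e1, map_smul', smul_smul, smul_smul, div_mul_cancel₀ _ c0]
  inj := by
    rintro _ _ _ ⟨x, rfl, c, c0, rfl⟩ ⟨y, rfl, d, d0, e⟩
    have e1 : d • (x⁻¹ * y).val.val.map f = c • 1 := by
      rw [coe_mul, Units.val_mul, Matrix.map_mul, ← mul_smul_comm, ← e, mul_smul_comm, ← Matrix.map_mul, coe_inv,
        Units.inv_mul, Matrix.map_one _ f.map_zero f.map_one]
    refine QuotientGroup.eq.2 (mem_subgroupOf.2 (mem_scal.2 ⟨(x⁻¹ * y).val.val 0 0, ?_⟩))
    generalize (x⁻¹ * y).val.val = z at e1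
    refine Matrix.map_injective f.injective (smul_right_injective _ d0 ?_)
    have := congrFun (congrFun e1 0) 0
    simp only [Matrix.smul_apply, map_apply, smul_eq_mul, one_apply_eq, mul_one] at this
    simp only [e1, map_smul', smul_smul, this, Matrix.map_one _ f.map_zero f.map_one]

variable {f P}

theorem L_mk (x : P) : (cx f P).L x (x.val.val.map f) := ⟨x, rfl, 1, one_ne_zero, (one_smul _ _).symm⟩

theorem cx_P (h : ⁅P, P⁆ = P) : (cx f P).P = P.map (GeneralLinearGroup.map f) := by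
  refine le_antisymm (commutator_le.2 ?_) ?_
  · rintro u ⟨_, x, rfl, c, c0, hu⟩ v ⟨_, y, rfl, d, d0, hv⟩
    have e : ∀ {u : GL (Fin 4) k} {x : P} {c : k}, c ≠ 0 → u.val = c • x.val.val.map f →
        (u⁻¹).val = c⁻¹ • (x.val⁻¹).val.map f := fun c0 hu => Units.inv_eq_of_mul_eq_one_right (by
      rw [hu, smul_mul_smul_comm, mul_inv_cancel₀ c0, one_smul, ← Matrix.map_mul, Units.mul_inv,
        Matrix.map_one _ f.map_zero f.map_one])
    refine ⟨⁅x.val, y.val⁆, h.le (commutator_mem_commutator x.2 y.2), Units.ext ?_⟩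
    simp only [commutatorElement_def, Units.val_mul, hu, hv, e c0 hu, e d0 hv, smul_mul_smul_comm]
    rw [show c * d * c⁻¹ * d⁻¹ = 1 by field_simp, one_smul, ← Matrix.map_mul, ← Matrix.map_mul, ← Matrix.map_mul]
    rfl
  · nth_rw 1 [← h, map_commutator]
    have : P.map (GeneralLinearGroup.map f) ≤ (cx f P).Gam := by
      rintro _ ⟨x, hx, rfl⟩
      exact ⟨_, L_mk ⟨x, hx⟩⟩
    exact commutator_mono this this

theorem one_add_pow {A : Type*} [Ring A] {N : A} (h : N * N = 0) (n : ℕ) : (1 + N) ^ n = 1 + n • N := by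
  induction n with
  | zero => simp
  | succ n ih => rw [pow_succ, ih, add_mul, mul_add, mul_add, smul_mul_assoc _ N N, h, succ_nsmul, smul_zero, one_mul, one_mul, mul_one]; abel

theorem quad_lift {p : ℕ} (hp : p.Prime) [CharP k p] (h2 : p ≠ 2) (h : ⁅P, P⁆ = P) {g} {N : Matrix (Fin 4) (Fin 4) k}
    (hg : (cx f P).L g (1 + N)) (hN : N * N = 0) : ∃ x ∈ P, ∃ M, x.val = 1 + M ∧ M.map f = N := by
  have := Fact.mk hp
  obtain ⟨x, -, c, c0, e⟩ := hg
  have d : (x.val.val.map f).det = 1 := Cx.det_P (C := cx f P) (u := GeneralLinearGroup.map f x.val)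
    (by rw [cx_P h]; exact ⟨_, x.2, rfl⟩)
  have z : ∀ n, (p * n) • N = 0 := fun n => by
    rw [← Nat.cast_smul_eq_nsmul k, Nat.cast_mul, CharP.cast_eq_zero, zero_mul, zero_smul]
  have c4 : c ^ 4 = 1 := by
    have := congrArg det (one_add_pow hN (p * 1))
    rw [z, add_zero, mul_one, e, det_pow, det_smul, d, mul_one, Fintype.card_fin, det_one, ← sub_eq_zero,
      ← one_pow p, ← sub_pow_char] at this
    exact sub_eq_zero.1 (pow_eq_zero_iff hp.ne_zero |>.1 this)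
  obtain ⟨m, hm⟩ : 4 ∣ p * (3 * p) + 1 := by
    obtain ⟨j, rfl⟩ := hp.odd_of_ne_two h2
    exact ⟨3 * j * j + 3 * j + 1, by ring⟩
  have := one_add_pow hN (p * (3 * p) + 1)
  rw [add_nsmul, z, zero_add, one_nsmul] at this
  nth_rw 1 [e] at this
  rw [_root_.smul_pow, hm, pow_mul c, c4, one_pow, one_smul] at this
  refine ⟨x.val ^ (4 * m), pow_mem x.2 _, (x.val ^ (4 * m)).val - 1, (add_sub_cancel _ _).symm, ?_⟩
  rw [Matrix.map_sub _ f.map_sub, Units.val_pow_eq_pow_val, Matrix.map_pow, this,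
    Matrix.map_one _ f.map_zero f.map_one, add_sub_cancel_left]

theorem cx_hy [Finite F] [IsAlgClosed k] {H : Subgroup (GL (Fin 4) F)} {p : ℕ} (hp : p.Prime) [CharP k p] (h2 : p ≠ 2)
    (h : IsResidualCore H P)
    (irr : ∀ W : Submodule k (Fin 4 → k), (∀ g ∈ P.map (GeneralLinearGroup.map f), ∀ v ∈ W, g.val *ᵥ v ∈ W) →
      W = ⊥ ∨ W = ⊤)
    (nt : ∀ a φ : Fin 4 → k, φ ⬝ᵥ a = 0 ∧ (∃ g ∈ P.map (GeneralLinearGroup.map f), g.val = 1 + vecMulVec a φ) →
      a = 0 ∨ φ = 0)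
    (q : ∀ {N M : Matrix (Fin 4) (Fin 4) F}, N * N = 0 → M * M = 0 → N * M = 0 → M * N = 0 → N ≠ 0 → M ≠ 0 →
      M ≠ N → M ≠ -N → (∃ u ∈ P, u.val = 1 + N) → (∃ u ∈ P, u.val = 1 + M) → False) : (cx f P).Hy p := by
  have z : ∀ {M N : Matrix (Fin 4) (Fin 4) F}, M.map f * N.map f = 0 → M * N = 0 := fun e =>
    Matrix.map_injective f.injective (by simpa using e)
  have q3 : ∀ g g' N N', (cx f P).L g (1 + N) → (cx f P).L g' (1 + N') → N * N = 0 → N' * N' = 0 → N * N' = 0 →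
      N' * N = 0 → N = 0 ∨ N' = 0 ∨ N' = N ∨ N' = -N := fun g g' N N' a b e1 e2 e3 e4 => by
    obtain ⟨x, x1, M, x2, rfl⟩ := quad_lift hp h2 h.perfect a e1
    obtain ⟨y, y1, M', y2, rfl⟩ := quad_lift hp h2 h.perfect b e2
    by_contra! h0
    exact q (z e1) (z e2) (z e3) (z e4) (fun e => h0.1 (by simp [e])) (fun e => h0.2.1 (by simp [e]))
      (fun e => h0.2.2.1 (by rw [e])) (fun e => h0.2.2.2 (by rw [e, Matrix.map_neg _ f.map_neg])) ⟨x, x1, x2⟩ ⟨y, y1, y2⟩
  have two : (2 : k) ≠ 0 := fun e =>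
    h2 ((Nat.prime_dvd_prime_iff_eq hp Nat.prime_two).1 ((CharP.cast_eq_zero_iff k p 2).1 e))
  refine ⟨hp, ‹_›, two, ‹_›, inferInstance, h.simple, h.nonabelian, fun W hW => irr W ?_, fun g a φ hg e => ?_,
    fun g N hg e => ?_, q3⟩
  · rintro _ ⟨x, hx, rfl⟩
    exact hW _ _ (L_mk ⟨x, hx⟩)
  · obtain ⟨x, x1, M, x2, x3⟩ := quad_lift hp h2 h.perfect hg (by simp [vecMulVec_mul_vecMulVec, e])
    rcases nt a φ ⟨e, _, ⟨x, x1, rfl⟩, by
      change x.val.map f = _
      rw [x2, Matrix.map_add _ f.map_add, x3, Matrix.map_one _ f.map_zero f.map_one]⟩ with rfl | rfl <;> simp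
  · have h3 := Cx.pow hg 2
    rw [one_add_pow e, ← Nat.cast_smul_eq_nsmul k, Nat.cast_ofNat] at h3
    by_cases n0 : N = 0
    · exact Or.inl n0
    rcases q3 _ _ _ _ hg h3 e (by simp [e]) (by simp [e]) (by simp [e]) with a | a | a | a
    · exact Or.inl a
    · exact absurd ((smul_eq_zero.1 a).resolve_left two) n0
    · exact absurd (by rwa [two_smul, add_eq_left] at a) n0
    · refine Or.inr ((smul_eq_zero.1 (?_ : (3 : k) • N = 0)).resolve_right n0)
      rw [show (3 : k) = 2 + 1 by norm_num, add_smul, a, one_smul, neg_add_cancel]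

theorem trace_map (M : Matrix (Fin 4) (Fin 4) F) : (M.map f).trace = f M.trace := (AddMonoidHom.map_trace f M).symm

section
variable (h : ⁅P, P⁆ = P) {p : ℕ}
include h

theorem mem_P {x : GL (Fin 4) F} (hx : x ∈ P) : GeneralLinearGroup.map f x ∈ (cx f P).P := by
  rw [cx_P h]; exact ⟨x, hx, rfl⟩

theorem real (a : (cx f P).Real) : ∀ x ∈ P, (x⁻¹).val.trace = x.val.trace := fun x hx =>
  f.injective (by rw [← trace_map, ← trace_map]; exact a _ (mem_P h hx))

theorem lin (a : (cx f P).Lin p) : ∀ x ∈ P, x.val.trace ^ p = x.val.trace := fun x hx =>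
  f.injective (by rw [map_pow, ← trace_map]; exact a _ (mem_P h hx))

theorem uni (a : (cx f P).Uni p) : ∀ x ∈ P, x.val.trace ^ p = (x⁻¹).val.trace := fun x hx =>
  f.injective (by rw [map_pow, ← trace_map, ← trace_map]; exact a _ (mem_P h hx))

end

end H28.R4.As
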