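import Cfsg.Agent.Lib.R4.CA5

/-! Strong closure of the frame group in its normaliser. -/

set_option autoImplicit false
set_option linter.unusedSectionVars false

namespace H28.R4.CAx

open Matrix Subgroup Cfsg Cx Equiv

variable {G k ι : Type*} [Group G] [Field k] [Fintype ι] [DecidableEq ι] {C : Cx G k ι} {p : ℕ}
  {γ : Fin 6 → Fin 6 → Matrix ι ι k} {b : Fin 6 → Fin 6 → G}

local notation "𝐀" => fA b
local notation "𝐍" => normalizer (fA b : Set G)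

theorem conj_sq {g a : G} (h : a * a = 1) : g * a * g⁻¹ * (g * a * g⁻¹) = 1 := by
  rw [show g * a * g⁻¹ * (g * a * g⁻¹) = g * (a * a) * g⁻¹ by group, h]; simp

theorem conj_cm {g a x : G} (h : x * (g * a * g⁻¹) = g * a * g⁻¹ * x) :
    g⁻¹ * x * g * a = a * (g⁻¹ * x * g) := by
  calc g⁻¹ * x * g * a = g⁻¹ * (x * (g * a * g⁻¹)) * g := by group
    _ = _ := by rw [h]; group

variable (h : C.FG γ b) (h2 : (2 : k) ≠ 0)
include h h2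

theorem sc_red (hc : ∀ σ ∈ fB b, σ * σ = 1 → σ ≠ 1 → ∃ τ ∈ fB b, σ * τ = τ * om)
    (key : ∀ a ∈ 𝐀, a ≠ 1 → ∀ g, ¬ Ind b (g * a * g⁻¹) om) :
    ∀ a ∈ 𝐀, ∀ g, g * a * g⁻¹ ∈ 𝐍 → g * a * g⁻¹ ∈ 𝐀 := fun a ha g hg => by
  by_contra hn
  obtain ⟨n, -, c⟩ := to_om h h2 hc hg hn (conj_sq (sqA h h2 ha))
  refine key a ha (by rintro rfl; exact hn (by simp)) (n⁻¹ * g) ?_
  rwa [show n⁻¹ * g * a * (n⁻¹ * g)⁻¹ = n⁻¹ * (g * a * g⁻¹) * n by group]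

theorem sc5 (hB : ∀ σ, σ ∈ fB b ↔ Perm.sign σ = 1 ∧ σ 5 = 5)
    (CA : ∀ a ∈ 𝐀, a ≠ 1 → ∀ g, g * a = a * g → g ∈ 𝐍) {a : G} (ha : a ∈ 𝐀) (a1 : a ≠ 1) (g : G) :
    ¬ Ind b (g * a * g⁻¹) om := fun c => by
  obtain ⟨w, hw⟩ : ∃ w, w = g * a * g⁻¹ := ⟨_, rfl⟩
  have s : w * w = 1 := hw ▸ conj_sq (sqA h h2 ha)
  have cN : ∀ x, x * w = w * x → g⁻¹ * x * g ∈ 𝐍 := fun x e => CA a ha a1 _ (conj_cm (hw ▸ e))
  have aw : a = g⁻¹ * w * g := by rw [hw]; group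
  rw [← hw] at c
  obtain ⟨n, d⟩ := (hB ka).2 (by decide)
  have c' : Ind b (n * w * n⁻¹) om := by
    have := (d.mul c).mul d.inv
    rwa [show ka * om * ka⁻¹ = om by decide] at this
  have cw : ∀ i j, b i j * w * (b i j)⁻¹ = w * (b (om i) (om j) * b i j) := fun i j => by
    rw [← c i j, inv_eq_of_mul_eq_one_right s, inv_eq_of_mul_eq_one_right (h.mul_self h2 i j),
      ← mul_assoc, ← mul_assoc, ← mul_assoc, s, one_mul]
  obtain ⟨y, hy, e⟩ : ∃ y ∈ 𝐀, y * w * y⁻¹ = n * w * n⁻¹ := by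
    rw [← mul_inv_cancel_left w (n * w * n⁻¹)]
    rcases fixU h h2 c (ind_div h h2 c c') (div_comm h h2 c c' s (conj_sq s)) with e | e | e | e <;>
      rw [e]
    · exact ⟨1, one_mem _, by simp⟩
    · exact ⟨_, b_mem h h2 4 0, (cw 4 0).trans (by
        rw [h.comm h2, h.symm h2 0 4]; exact congrArg _ (h.mul' h2 0 4 1))⟩
    · exact ⟨_, b_mem h h2 4 2, (cw 4 2).trans (by
        rw [h.comm h2, h.symm h2 2 4]; exact congrArg _ (h.mul' h2 2 4 3))⟩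
    · exact ⟨_, b_mem h h2 0 2, (cw 0 2).trans
        (congrArg _ (h.triple h2 (show [1, 3, 0, 2, 4, 5].Nodup by decide)))⟩
  have d' : Ind b (y⁻¹ * n) ka := by simpa using (indA h h2 hy).inv.mul d
  have e' : y⁻¹ * n * w = w * (y⁻¹ * n) := by
    calc y⁻¹ * n * w = y⁻¹ * (n * w * n⁻¹) * n := by group
      _ = _ := by rw [← e]; group
  generalize y⁻¹ * n = x at d' e'
  have c01 : b 0 1 * w = w * b 0 1 := (mul_inv_eq_iff_eq_mul.1 ((c 0 1).trans (h.symm h2 0 1))).symm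
  obtain ⟨β, i1⟩ := (h.mem_norm h2).1 (cN _ c01)
  obtain ⟨ν, i2⟩ := (h.mem_norm h2).1 (cN _ e')
  have four : ∀ {z : G} {σ : Perm (Fin 6)}, Ind b z ka → Ind b (g⁻¹ * z * g) σ → σ * σ = 1 :=
    fun {z σ} i j => by
      have k1 := sqA h h2 ((h.ind_one h2).1 ((show ka * ka = 1 by decide) ▸ i.mul i))
      refine m2 σ ((hB σ).1 ⟨_, j⟩).2 ?_ ((hB σ).1 ⟨_, j⟩).1
      rw [show σ ^ 4 = σ * σ * (σ * σ) by simp only [pow_succ, pow_zero, one_mul, mul_assoc]]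
      refine ind_eq_one h h2 ((j.mul j).mul (j.mul j)) ?_
      calc _ = g⁻¹ * (z * z * (z * z)) * g := by group
        _ = 1 := by rw [k1]; simp
  have q1 : β * β = 1 := ind_eq_one h h2 (i1.mul i1) (by
    calc _ = g⁻¹ * (b 0 1 * b 0 1) * g := by group
      _ = 1 := by rw [h.mul_self h2]; simp)
  have q2 : ν * ν = 1 := four d' i2
  have q3 : β * ν * (β * ν) = 1 := four (z := b 0 1 * x)
    (by simpa using (indA h h2 (b_mem h h2 0 1)).mul d') (by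
      have := i1.mul i2
      rwa [show g⁻¹ * b 0 1 * g * (g⁻¹ * x * g) = g⁻¹ * (b 0 1 * x) * g by group] at this)
  have t45 : g⁻¹ * b 4 5 * g ∈ 𝐀 := by
    have := (i1.mul i2).mul (i1.mul i2.inv)
    rw [inv_eq_of_mul_eq_one_right q2, q3, h.ind_one h2] at this
    rwa [show g⁻¹ * b 0 1 * g * (g⁻¹ * x * g) * (g⁻¹ * b 0 1 * g * (g⁻¹ * x * g)⁻¹) =
      g⁻¹ * (b 0 1 * (x * b 0 1 * x⁻¹)) * g by group, d' 0 1,
      show b 0 1 * b (ka 0) (ka 1) = b 4 5 from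
        h.triple h2 (show [0, 1, 2, 3, 4, 5].Nodup by decide)] at this
  have n45 := h.ne_one h2 (show (4 : Fin 6) ≠ 5 by decide)
  have t01 : g⁻¹ * b 0 1 * g ∈ 𝐀 := by
    have k1 : g⁻¹ * b 4 0 * g ∈ 𝐍 := CA _ t45 (fun e => n45 (by
      rwa [mul_assoc, inv_mul_eq_one, eq_comm, mul_eq_right] at e)) _ (by
      calc g⁻¹ * b 4 0 * g * (g⁻¹ * b 4 5 * g) = g⁻¹ * (b 4 0 * b 4 5) * g := by group
        _ = _ := by rw [h.comm h2]; group)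
    have := mul_mem (inv_mem ha) (conjA k1 ha)
    rwa [aw, show (g⁻¹ * w * g)⁻¹ * (g⁻¹ * b 4 0 * g * (g⁻¹ * w * g) * (g⁻¹ * b 4 0 * g)⁻¹) =
      g⁻¹ * (w⁻¹ * (b 4 0 * w * (b 4 0)⁻¹)) * g by group, cw, inv_mul_cancel_left, h.comm h2,
      h.symm h2 0 4, show b 0 4 * b (om 4) (om 0) = b 0 1 from h.mul' h2 0 4 1] at this
  have t23 : g⁻¹ * b 2 3 * g ∈ 𝐀 := by
    have := mul_mem t01 t45
    rwa [show g⁻¹ * b 0 1 * g * (g⁻¹ * b 4 5 * g) = g⁻¹ * (b 0 1 * b 4 5) * g by group,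
      h.triple h2 (show [0, 1, 4, 5, 2, 3].Nodup by decide)] at this
  have cm : ∀ {x y : G}, g⁻¹ * x * g ∈ 𝐀 → g⁻¹ * y * g ∈ 𝐀 → x * y = y * x := fun {x y} hx hy => by
    have := commA h h2 hx hy
    calc x * y = g * (g⁻¹ * x * g * (g⁻¹ * y * g)) * g⁻¹ := by group
      _ = _ := by rw [this]; group
  have := card_le_of_list (cmp 𝐀 g⁻¹)
    [1, b 0 1, b 2 3, b 4 5, w * 1, w * b 0 1, w * b 2 3, w * b 4 5] fun z hz => by
      have hz : g⁻¹ * z * g ∈ 𝐀 := by simpa using hz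
      have zw := cm (aw ▸ ha) hz
      obtain ⟨σ, i⟩ := (h.mem_norm h2).1 (CA _ (b_mem h h2 4 5) n45 z (cm hz t45))
      rcases fix5 σ ((hB σ).1 ⟨_, i⟩).2 (ind_fix h h2 i (by decide) (cm hz t01))
        (ind_fix h h2 i (by decide) (cm hz t23)) ((hB σ).1 ⟨_, i⟩).1 with rfl | rfl
      · rcases fixU h h2 c ((h.ind_one h2).1 i) zw with e | e | e | e <;> simp [e]
      · rw [← mul_inv_cancel_left w z]
        rcases fixU h h2 c (ind_div h h2 c i) (by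
          rw [mul_inv_cancel_left, mul_assoc, ← zw, inv_mul_cancel_left]) with e | e | e | e <;>
          simp [e]
  rw [card_cmp, h.card_fA h2] at this
  simp at this

theorem ind_of_gens {g : G} {σ : Perm (Fin 6)} (e01 : g * b 0 1 * g⁻¹ = b (σ 0) (σ 1))
    (e23 : g * b 2 3 * g⁻¹ = b (σ 2) (σ 3)) (e13 : g * b 1 3 * g⁻¹ = b (σ 1) (σ 3))
    (e15 : g * b 1 5 * g⁻¹ = b (σ 1) (σ 5)) : Ind b g σ := by
  have m : ∀ {x y : G}, g * (x * y) * g⁻¹ = g * x * g⁻¹ * (g * y * g⁻¹) := by intros; group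
  have e45 : g * b 4 5 * g⁻¹ = b (σ 4) (σ 5) := by
    rw [← h.triple h2 (show [0, 1, 2, 3, 4, 5].Nodup by decide), m, e01, e23]
    exact h.triple h2 (by simp)
  have k : ∀ j, g * b 1 j * g⁻¹ = b (σ 1) (σ j) := fun j => by
    fin_cases j
    · exact (h.symm h2 0 1).symm ▸ e01.trans (h.symm h2 _ _)
    · simp [h.self' h2]
    · show g * b 1 2 * g⁻¹ = b (σ 1) (σ 2)
      rw [← h.mul' h2 1 3 2, m, h.symm h2 2 3, e13, e23, ← h.symm h2 (σ 2), h.mul' h2]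
    · exact e13
    · show g * b 1 4 * g⁻¹ = b (σ 1) (σ 4)
      rw [← h.mul' h2 1 5 4, m, h.symm h2 4 5, e15, e45, ← h.symm h2 (σ 4), h.mul' h2]
    · exact e15
  intro i j
  rw [← h.mul' h2 i 1 j, m, h.symm h2 1 i, k, k, ← h.symm h2 (σ 1) (σ i), h.mul' h2]

theorem second (h1 : om ∈ fB b) (h3 : nu ∈ fB b) (h4 : ka ∈ fB b) :
    ∃ (γ' : Fin 6 → Fin 6 → Matrix ι ι k) (b' : Fin 6 → Fin 6 → G), C.FG γ' b' ∧ b' 0 1 = b 0 1 ∧
      b' 2 3 = b 2 3 ∧ b' 4 5 = b 4 5 ∧ (∀ j, Ind b (b' 1 j) (rho j)) ∧ om ∈ fB b' ∧ ka ∈ fB b' := by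
  let f : Fin 6 → Fin 6 → k := ![![1, 1, 0, 0, 0, 0], ![1, -1, 0, 0, 0, 0], ![0, 0, 1, 1, 0, 0],
    ![0, 0, 1, -1, 0, 0], ![0, 0, 0, 0, 1, 1], ![0, 0, 0, 0, 1, -1]]
  have F := h.toFr.of_orth h2 (f := f) h2 fun i j => by
    fin_cases i <;> fin_cases j <;> simp [f, dotProduct, Fin.sum_univ_six, one_add_one_eq_two]
  have hh : ∀ M : Matrix ι ι k, (2 : k)⁻¹ • (M + M) = M := fun M => by
    rw [← two_smul k, smul_smul, inv_mul_cancel₀ h2, one_smul]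
  have g10 : (2 : k)⁻¹ • gm γ (f 1) (f 0) = γ 0 1 := by
    rw [← hh (γ 0 1)]; simp [f, gm, Fin.sum_univ_six, h.self, h.anti 0 1]; abel
  have g32 : (2 : k)⁻¹ • gm γ (f 3) (f 2) = γ 2 3 := by
    rw [← hh (γ 2 3)]; simp [f, gm, Fin.sum_univ_six, h.self, h.anti 2 3]; abel
  have g54 : (2 : k)⁻¹ • gm γ (f 5) (f 4) = γ 4 5 := by
    rw [← hh (γ 4 5)]; simp [f, gm, Fin.sum_univ_six, h.self, h.anti 4 5]; abel
  have g13 : gm γ (f 1) (f 3) = γ 0 2 - γ 0 3 - γ 1 2 + γ 1 3 := by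
    simp [f, gm, Fin.sum_univ_six]; abel
  have g15 : gm γ (f 1) (f 5) = γ 0 4 - γ 0 5 - γ 1 4 + γ 1 5 := by
    simp [f, gm, Fin.sum_univ_six]; abel
  have g35 : gm γ (f 3) (f 5) = γ 2 4 - γ 2 5 - γ 3 4 + γ 3 5 := by
    simp [f, gm, Fin.sum_univ_six]; abel
  obtain ⟨w1, l1, i1, s1⟩ := exists_dbl h h2 (show [0, 1, 2, 3].Nodup by decide) h1
  obtain ⟨w2, l2, i2, s2⟩ := exists_dbl h h2 (show [0, 1, 4, 5].Nodup by decide) h3
  obtain ⟨n, l3, i3, -⟩ := exists_dbl h h2 (show [0, 2, 1, 3].Nodup by decide) h4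
  have t3 := (h.dbl h2 (show [0, 2, 1, 3].Nodup by decide)).2
  generalize γ 0 1 - γ 0 3 - γ 2 1 + γ 2 3 = M at l3 t3
  have a1 : M * gm γ (f 1) (f 3) = -(gm γ (f 1) (f 3) * M) := by
    rw [g13, mul_add, mul_sub, mul_sub, t3, t3, t3, t3, ← sub_mul, ← sub_mul, ← add_mul, ← neg_mul]
    congr 1
    show γ 2 0 - γ 2 1 - γ 3 0 + γ 3 1 = _
    rw [h.anti 0 2 (by decide), h.anti 1 2 (by decide), h.anti 0 3 (by decide), h.anti 1 3 (by decide)]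
    abel
  have a2 : M * gm γ (f 1) (f 5) = gm γ (f 3) (f 5) * M := by
    rw [g15, g35, mul_add, mul_sub, mul_sub, t3, t3, t3, t3, ← sub_mul, ← sub_mul, ← add_mul]
    rfl
  rw [← g13] at l1
  rw [← g15] at l2
  replace l1 := C.smul l1 (inv_ne_zero h2)
  replace l2 := C.smul l2 (inv_ne_zero h2)
  replace a1 : M * (2 : k)⁻¹ • gm γ (f 1) (f 3) = -((2 : k)⁻¹ • gm γ (f 1) (f 3) * M) := by
    rw [mul_smul_comm, a1, smul_neg, smul_mul_assoc]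
  replace a2 : M * (2 : k)⁻¹ • gm γ (f 1) (f 5) = (2 : k)⁻¹ • gm γ (f 3) (f 5) * M := by
    rw [mul_smul_comm, a2, smul_mul_assoc]
  obtain ⟨γ', hγ⟩ : ∃ γ' : Fin 6 → Fin 6 → Matrix ι ι k,
    γ' = fun i j => (2 : k)⁻¹ • gm γ (f i) (f j) := ⟨_, rfl⟩
  have hγ' : ∀ i j, (2 : k)⁻¹ • gm γ (f i) (f j) = γ' i j := fun i j => by rw [hγ]
  rw [← hγ] at F
  simp only [hγ'] at g10 g32 g54 l1 l2 a1 a2
  have st : ∀ j, ∃ x, C.L x (γ' 1 j) ∧ Ind b x (rho j) := fun j => by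
    fin_cases j
    · exact ⟨_, g10 ▸ h.lift 0 1, indA h h2 (b_mem h h2 0 1)⟩
    · exact ⟨1, (F.self 1).symm ▸ C.one, indA h h2 (one_mem _)⟩
    · exact ⟨_, F.mul 1 3 2 ▸ C.mul l1 (g32 ▸ h.lift 2 3), i1.mul (indA h h2 (b_mem h h2 2 3))⟩
    · exact ⟨_, l1, i1⟩
    · exact ⟨_, F.mul 1 5 4 ▸ C.mul l2 (g54 ▸ h.lift 4 5), i2.mul (indA h h2 (b_mem h h2 4 5))⟩
    · exact ⟨_, l2, i2⟩
  choose x hx ix using st
  have F' : C.FG γ' fun i j => (x i)⁻¹ * x j := ⟨F, fun i j =>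
    F.mul i 1 j ▸ C.mul (inv_of_mul (hx i) (F.inv 1 i)) (hx j)⟩
  obtain ⟨b', hb⟩ : ∃ b' : Fin 6 → Fin 6 → G, b' = fun i j => (x i)⁻¹ * x j := ⟨_, rfl⟩
  rw [← hb] at F'
  have e01 : b' 0 1 = b 0 1 := (F'.symm h2 1 0).trans (C.inj (F'.lift 1 0) (g10 ▸ h.lift 0 1))
  have e23 : b' 2 3 = b 2 3 := (F'.symm h2 3 2).trans (C.inj (F'.lift 3 2) (g32 ▸ h.lift 2 3))
  have e45 : b' 4 5 = b 4 5 := (F'.symm h2 5 4).trans (C.inj (F'.lift 5 4) (g54 ▸ h.lift 4 5))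
  have e13 : b' 1 3 = w1 := C.inj (F'.lift 1 3) l1
  have e15 : b' 1 5 = w2 := C.inj (F'.lift 1 5) l2
  have cw : ∀ {w : G} {σ : Perm (Fin 6)}, Ind b w σ → w * w = 1 →
      b 0 2 * w * (b 0 2)⁻¹ = w * (b (σ 0) (σ 2) * b 0 2) := fun {w σ} c s => by
    rw [← c 0 2, inv_eq_of_mul_eq_one_right s, inv_eq_of_mul_eq_one_right (h.mul_self h2 0 2),
      ← mul_assoc, ← mul_assoc, ← mul_assoc, s, one_mul]
  refine ⟨γ', b', F', e01, e23, e45, fun j => C.inj (hx j) (F'.lift 1 j) ▸ ix j, ⟨b 0 2, ?_⟩, ⟨n, ?_⟩⟩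
  · refine ind_of_gens F' h2 ?_ ?_ ?_ ?_
    · rw [e01, h.comm h2, mul_inv_cancel_right, ← e01]; exact F'.symm h2 1 0
    · rw [e23, h.comm h2, mul_inv_cancel_right, ← e23]; exact F'.symm h2 3 2
    · rw [e13, cw i1 s1, ← e13]
      exact (congrArg _ ((h.triple h2 (show [1, 3, 0, 2, 4, 5].Nodup by decide)).trans e45.symm)).trans
        (F'.triple h2 (show [1, 3, 4, 5, 0, 2].Nodup by decide))
    · rw [e15, cw i2 s2, ← e15, h.symm h2 2 0]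
      refine (congrArg _ ((h.mul' h2 1 2 0).trans ((h.symm h2 0 1).trans e01.symm))).trans ?_
      rw [F'.comm h2]; exact F'.mul' h2 0 1 5
  · refine ind_of_gens F' h2 ?_ ?_ ?_ ?_
    · rw [e01, i3]; exact e23.symm
    · rw [e23, i3]; exact e01.symm
    · rw [mul_inv_eq_iff_eq_mul]
      exact (C.inj (C.mul l3 (F'.lift 1 3)) (a1 ▸ neg (C.mul (F'.lift 1 3) l3))).trans
        (congrArg (· * n) (F'.symm h2 3 1))
    · rw [mul_inv_eq_iff_eq_mul]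
      exact C.inj (C.mul l3 (F'.lift 1 5)) (a2 ▸ C.mul (F'.lift 3 5) l3)

end H28.R4.CAx
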