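import Cfsg.Agent.Lib.R4.CA4
import Cfsg.Agent.Lib.R4.CA6

/-! Frames whose automiser contains the even permutations of five points. -/

set_option autoImplicit false
set_option linter.unusedSectionVars false
set_option linter.unusedVariables false

namespace H28.R4

open Matrix Subgroup Cfsg Cx Equiv

variable {G k ι : Type*} [Group G] [Field k] [Fintype ι] [DecidableEq ι] {C : Cx G k ι} {p : ℕ}
  {γ : Fin 6 → Fin 6 → Matrix ι ι k} {b : Fin 6 → Fin 6 → G}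

local notation "𝐀" => fA b
local notation "𝐍" => normalizer (fA b : Set G)

namespace CAx

variable (h : C.FG γ b) (h2 : (2 : k) ≠ 0)
include h h2

theorem sc6 [Finite G] (hB : ∀ σ, σ ∈ fB b ↔ Perm.sign σ = 1)
    (CA : ∀ a ∈ 𝐀, a ≠ 1 → ∀ g, g * a = a * g → g ∈ 𝐍) {a : G} (ha : a ∈ 𝐀) (a1 : a ≠ 1) (g : G) :
    ¬ Ind b (g * a * g⁻¹) om := fun c => by
  obtain ⟨γ', b', F, e01, e23, e45, ir, o1, o2⟩ := second h h2 ((hB om).2 (by decide))
    ((hB nu).2 (by decide)) ((hB ka).2 (by decide))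
  have ind : ∀ i j, Ind b (b' i j) ((rho i)⁻¹ * rho j) := fun i j => by
    have := (ir i).inv.mul (ir j)
    rwa [inv_eq_of_mul_eq_one_right (F.mul_self h2 1 i), F.symm h2 i 1, F.mul' h2] at this
  have inA : ∀ i j, b' i j ∈ 𝐀 ↔ i.val / 2 = j.val / 2 := fun i j => by
    rw [← rho_eq, ← h.ind_one h2]
    exact ⟨fun e => h.ind_unique h2 (ind i j) e, fun e => e ▸ ind i j⟩
  have U : ∀ {w x : G}, Ind b w om → x ∈ 𝐀 → w * x = x * w → x ∈ fA b' := fun c hx e => by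
    rcases fixU h h2 c hx e with rfl | rfl | rfl | rfl
    exacts [one_mem _, e01 ▸ b_mem F h2 0 1, e23 ▸ b_mem F h2 2 3, e45 ▸ b_mem F h2 4 5]
  have B1 : ∀ {w : G}, Ind b w om → w * w = 1 → w ∈ fA b' := fun {w} c s =>
    (mul_mem_cancel_left (inv_mem (b_mem F h2 1 3))).1
      (U (ir 3) (ind_div h h2 (ir 3) c) (div_comm h h2 (ir 3) c (F.mul_self h2 1 3) s))
  have E16 : ∀ E : Subgroup G, E ≤ 𝐍 → (∀ x ∈ E, x * x = 1) → (∀ x ∈ E, ∀ y ∈ E, x * y = y * x) →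
      Nat.card E = 16 → ∀ w ∈ E, Ind b w om → E = fA b' := by
    intro E hE sq cm card w hw c
    have wA := B1 c (sq w hw)
    have no : ∀ e ∈ E, ¬ Ind b e ka := fun e he d => by
      have k : ∀ z ∈ E, ∀ {y : G} {σ}, y ∈ E → Ind b y σ → Ind b z σ → z = y * 1 ∨ z = y * b 4 5 := by
        intro z hz y σ hy i1 i2
        have m := mul_mem (inv_mem hy) hz
        obtain ⟨i, j, e'⟩ := (h.mem_fA h2).1 (ind_div h h2 i1 i2)
        rw [← mul_inv_cancel_left y z, e']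
        rw [e'] at m
        by_cases hij : i = j
        · exact Or.inl (by rw [hij, h.self' h2])
        · exact Or.inr (congrArg _ (eq_of_De h h2 ((fix_ka i j (ind_fix h h2 c hij (cm _ hw _ m))
            (ind_fix h h2 d hij (cm _ he _ m))).resolve_left hij)))
      have := card_le_of_list E [1 * 1, 1 * b 4 5, w * 1, w * b 4 5, e * 1, e * b 4 5, w * e * 1,
        w * e * b 4 5] fun z hz => by
          obtain ⟨σ, i⟩ := (h.mem_norm h2).1 (hE hz)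
          simp only [List.mem_cons]
          rcases cent_ka σ (ind_comm h h2 i c (cm _ hz _ hw)) (ind_comm h h2 i d (cm _ hz _ he))
            ((hB σ).1 ⟨_, i⟩) with rfl | rfl | rfl | rfl
          · have := k z hz (one_mem _) (indA h h2 (one_mem _)) i; tauto
          · have := k z hz hw c i; tauto
          · have := k z hz he d i; tauto
          · have := k z hz (mul_mem hw he) (c.mul d) i; tauto
      rw [card] at this
      simp at this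
    refine eq_of_le_of_card_ge (fun z hz => ?_) (by rw [card, F.card_fA h2])
    obtain ⟨σ, i⟩ := (h.mem_norm h2).1 (hE hz)
    have k : ∀ y ∈ fA b', Ind b y σ → z ∈ fA b' := fun y hy j =>
      (mul_mem_cancel_left (inv_mem hy)).1 (U c (ind_div h h2 j i) (by
        rw [← mul_assoc, commA F h2 wA (inv_mem hy), mul_assoc, cm _ hw _ hz, mul_assoc]))
    rcases cent_om σ (ind_eq_one h h2 (i.mul i) (sq z hz)) (ind_comm h h2 i c (cm _ hz _ hw))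
      ((hB σ).1 ⟨_, i⟩) with (rfl | rfl | rfl | rfl) | rfl | e
    · exact k 1 (one_mem _) (indA h h2 (one_mem _))
    · exact k _ (b_mem F h2 1 3) (ir 3)
    · exact k _ (b_mem F h2 1 5) (ir 5)
    · exact k _ (mul_mem (b_mem F h2 1 3) (b_mem F h2 1 5)) ((ir 3).mul (ir 5))
    · exact absurd i (no z hz)
    · exact absurd (e ▸ c.mul i) (no _ (mul_mem hw hz))
  have nG : ∀ τ ∈ fB b', ¬ Gd τ := fun τ ⟨z, i⟩ ⟨e, nW⟩ => by
    have k : ∀ {i' j' : Fin 6}, i' ≠ j' → b' i' j' = b i' j' → De (τ i') (τ j') i' j' → z ∈ 𝐍 :=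
      fun {i' j'} e0 e1 e2 => CA _ (b_mem h h2 i' j') (h.ne_one h2 e0) z (by
        rw [← mul_inv_eq_iff_eq_mul, ← e1, i]; exact eq_of_De F h2 e2)
    have zN : z ∈ 𝐍 := by
      rcases e with e | e | e
      exacts [k (by decide) e01 e, k (by decide) e23 e, k (by decide) e45 e]
    exact nW ⟨(inA _ _).1 (i 0 1 ▸ conjA zN (e01 ▸ b_mem h h2 0 1)),
      (inA _ _).1 (i 2 3 ▸ conjA zN (e23 ▸ b_mem h h2 2 3)),
      (inA _ _).1 (i 4 5 ▸ conjA zN (e45 ▸ b_mem h h2 4 5))⟩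
  have hW : ∀ σ ∈ fB b', W σ := fun σ hσ => by
    have k := mul_mem (mul_mem hσ o1) (inv_mem hσ)
    rcases m5 σ with e | e | e | e
    exacts [e, absurd e (nG _ k), absurd e (nG _ (mul_mem (mul_mem k o2) hσ)),
      absurd e (nG _ (mul_mem (mul_mem (mul_mem k o1) o2) hσ))]
  have wA := B1 c (conj_sq (sqA h h2 ha))
  have cj : ∀ {x y z : G}, z * x * z⁻¹ * (z * y * z⁻¹) = z * y * z⁻¹ * (z * x * z⁻¹) → x * y = y * x :=
    fun {x y z} e => by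
      calc x * y = z⁻¹ * (z * x * z⁻¹ * (z * y * z⁻¹)) * z := by group
        _ = _ := by rw [e]; group
  have sq : ∀ {x z : G}, z * x * z⁻¹ ∈ fA b' → x * x = 1 := fun {x z} e => by
    calc x * x = z⁻¹ * (z * x * z⁻¹ * (z * x * z⁻¹)) * z := by group
      _ = _ := by rw [sqA F h2 e]; simp
  have EN : cmp (fA b') g ≤ 𝐍 := fun x hx => CA a ha a1 x (cj (commA F h2 hx wA))
  by_cases hE : cmp (fA b') g ≤ 𝐀
  · have hE' := eq_of_le_of_card_ge hE (by rw [card_cmp, F.card_fA h2, h.card_fA h2])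
    obtain ⟨x, i⟩ := (hB (swap 2 3 * swap 2 4)).2 (by decide)
    have m : ∀ i j, g⁻¹ * b' i j * g ∈ 𝐀 := fun i j => hE (by
      show g * (g⁻¹ * b' i j * g) * g⁻¹ ∈ fA b'
      rw [show g * (g⁻¹ * b' i j * g) * g⁻¹ = b' i j by group]; exact b_mem F h2 i j)
    have k1 : g⁻¹ * x * g ∈ 𝐍 := CA _ (m 0 1) (fun e => F.ne_one h2 (show (0 : Fin 6) ≠ 1 by decide) (by
      rwa [mul_assoc, inv_mul_eq_one, eq_comm, mul_eq_right] at e)) _ (by
      calc g⁻¹ * x * g * (g⁻¹ * b' 0 1 * g) = g⁻¹ * (x * b' 0 1 * x⁻¹ * x) * g := by group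
        _ = _ := by rw [e01, show x * b 0 1 * x⁻¹ = b 0 1 from i 0 1]; group)
    have k2 : g * (g⁻¹ * x * g * (g⁻¹ * b' 1 3 * g) * (g⁻¹ * x * g)⁻¹) * g⁻¹ ∈ fA b' :=
      hE'.ge (conjA k1 (m 1 3))
    rw [show g * (g⁻¹ * x * g * (g⁻¹ * b' 1 3 * g) * (g⁻¹ * x * g)⁻¹) * g⁻¹ = x * b' 1 3 * x⁻¹ by
      group] at k2
    exact absurd (ind_fix h h2 ((i.mul (ir 3)).mul i.inv) (show (2 : Fin 6) ≠ 3 by decide)
      (commA F h2 k2 (e23 ▸ b_mem F h2 2 3))) (by decide)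
  · obtain ⟨e, he, heA⟩ := SetLike.not_le_iff_exists.1 hE
    obtain ⟨n, hn, d⟩ := to_om h h2 (fun σ hσ s1 s2 => by
      obtain ⟨τ, t1, -, t2⟩ := m1 σ s1 s2 ((hB σ).1 hσ)
      exact ⟨τ, (hB τ).2 t2, t1⟩) (EN he) heA (sq he)
    have mem : ∀ x, x ∈ cmp (fA b') (g * n) ↔ n * x * n⁻¹ ∈ cmp (fA b') g := fun x => by
      show g * n * x * (g * n)⁻¹ ∈ fA b' ↔ g * (n * x * n⁻¹) * g⁻¹ ∈ fA b'
      rw [show g * n * x * (g * n)⁻¹ = g * (n * x * n⁻¹) * g⁻¹ by group]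
    have k := E16 (cmp (fA b') (g * n)) (fun x hx => by
        have := EN ((mem x).1 hx)
        rwa [mul_mem_cancel_right (inv_mem hn), mul_mem_cancel_left hn] at this)
      (fun x hx => sq hx) (fun x hx y hy => cj (commA F h2 hx hy))
      (by rw [card_cmp, F.card_fA h2]) _ ((mem _).2 (by simpa [mul_assoc] using he)) d
    obtain ⟨σ, i⟩ := (F.mem_norm h2).1 (show g * n ∈ normalizer (fA b' : Set G) from
      mem_normalizer_fintype fun x hx => k.ge hx)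
    have a' : n⁻¹ * a * n ∈ fA b' := k.le ((mem _).2 (by simpa [mul_assoc] using wA))
    obtain ⟨i', j', e'⟩ := (F.mem_fA h2).1 a'
    have k1 : b' i' j' ∈ 𝐀 := e' ▸ (by simpa using conjA (inv_mem hn) ha)
    have k2 := (inA _ _).2 ((hW σ ⟨_, i⟩).blk ((inA _ _).1 k1))
    rw [← i, ← e', show g * n * (n⁻¹ * a * n) * (g * n)⁻¹ = g * a * g⁻¹ by group] at k2
    exact absurd (h.ind_unique h2 (indA h h2 k2) c) (by decide)

theorem ca_conj {i j : Fin 6} {σ : Perm (Fin 6)} (hσ : σ ∈ fB b) (e1 : σ 4 = i) (e2 : σ 5 = j)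
    (CA : ∀ g, g * b 4 5 = b 4 5 * g → g ∈ 𝐍) (g : G) (hg : g * b i j = b i j * g) : g ∈ 𝐍 := by
  obtain ⟨n, c⟩ := hσ
  have hn := (h.mem_norm h2).2 ⟨σ, c⟩
  rw [← e1, ← e2, ← c] at hg
  have := CA _ (conj_cm hg)
  rwa [mul_mem_cancel_right hn, mul_mem_cancel_left (inv_mem hn)] at this

end CAx

open CAx

/-- **(N1a)**, automiser `A₆` -/
theorem Cx.Hy.n1a6 (H : C.Hy p) (hR : C.NR) (hS : Cx.SolC G) (h : C.FG γ b)
    (hB : ∀ σ, σ ∈ Cx.fB b ↔ Equiv.Perm.sign σ = 1) : False := by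
  have := H.fin
  have h2 := H.two
  have k := (ca_main H h hS ((hB _).2 (by decide)) ((hB _).2 (by decide))).resolve_right
    fun e => e.1 ((hB _).2 (by decide))
  have CA : ∀ a ∈ 𝐀, a ≠ 1 → ∀ g, g * a = a * g → g ∈ 𝐍 := fun a ha a1 => by
    obtain ⟨i, j, rfl⟩ := (h.mem_fA h2).1 ha
    obtain ⟨σ, e1, e2, e3⟩ := t6 i j fun e => a1 (e ▸ h.self' h2 i)
    exact ca_conj h h2 ((hB σ).2 e3) e1 e2 k
  have hc : ∀ σ ∈ fB b, σ * σ = 1 → σ ≠ 1 → ∃ τ ∈ fB b, σ * τ = τ * om := fun σ hσ s1 s2 => by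
    obtain ⟨τ, t1, -, t2⟩ := m1 σ s1 s2 ((hB σ).1 hσ)
    exact ⟨τ, (hB τ).2 t2, t1⟩
  exact CAx.fin H h ((hB _).2 (by decide)) hc CA
    (sc_red h h2 hc fun a ha a1 g => sc6 h h2 hB CA ha a1 g)

/-- automiser `A₅`: the centraliser of `b i j` normalises the frame if `i, j` are not fixed -/
theorem Cx.Hy.ca5b (H : C.Hy p) (hS : Cx.SolC G) (h : C.FG γ b)
    (hB : ∀ σ, σ ∈ Cx.fB b ↔ Equiv.Perm.sign σ = 1 ∧ σ 5 = 5) {i j : Fin 6} (hij : i ≠ j)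
    (hi : i ≠ 5) (hj : j ≠ 5) (g : G) (hg : g * b i j = b i j * g) :
    g ∈ normalizer (Cx.fA b : Set G) := by
  obtain ⟨τ, rfl, rfl, e⟩ := t3 i j hij hi hj
  have k : ∀ σ, σ ∈ fB (fun i j => b (τ i) (τ j)) ↔ Perm.sign σ = 1 ∧ σ 3 = 3 := fun σ => by
    rw [FG.mem_fB_perm, hB, ← e]
    simp [mul_comm, ← mul_assoc]
  have := ca_fix H (h.perm τ) hS ((k _).2 (by decide)) (fun σ hσ => ((k σ).1 hσ).symm) g hg
  rwa [FG.fA_perm] at this

/-- **(N1a)**, automiser `A₅`: the homology `r`, and `C(b 4 5) = C_{N(A)}(b 4 5) ⟨r⟩` -/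
theorem Cx.Hy.ca5 (H : C.Hy p) (hS : Cx.SolC G) (h : C.FG γ b)
    (hB : ∀ σ, σ ∈ Cx.fB b ↔ Equiv.Perm.sign σ = 1 ∧ σ 5 = 5) :
    ∃ (r : G) (μ : k), μ ^ 2 + μ + 1 = 0 ∧ (3 : k) ≠ 0 ∧
      C.L r ((1 - γ 0 1 * γ 2 3) +
        μ • (((-(2 : k)⁻¹) • (1 + γ 0 1 + γ 1 2 + γ 2 0)) * (1 + γ 0 1 * γ 2 3))) ∧
      ∀ g ∈ centralizer ({b 4 5} : Set G), ∃ i : ℕ, g * r ^ i ∈ normalizer (Cx.fA b : Set G) := by
  have := H.fin
  have h2 := H.two
  refine ((ca_main H h hS ((hB _).2 (by decide)) ((hB _).2 (by decide))).resolve_left fun k => ?_).2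
  have CA : ∀ a ∈ 𝐀, a ≠ 1 → ∀ g, g * a = a * g → g ∈ 𝐍 := fun a ha a1 => by
    obtain ⟨i, j, rfl⟩ := (h.mem_fA h2).1 ha
    have hij : i ≠ j := fun e => a1 (e ▸ h.self' h2 i)
    have k5 : ∀ i, i ≠ 5 → ∀ g, g * b i 5 = b i 5 * g → g ∈ 𝐍 := fun i hi => by
      obtain ⟨σ, e1, e2, e3⟩ := t5 i hi
      exact ca_conj h h2 ((hB σ).2 ⟨e3, e1⟩) e2 e1 k
    by_cases hj : j = 5
    · subst hj; exact k5 i hij
    by_cases hi : i = 5
    · subst hi; rw [← h.symm h2]; exact k5 j hj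
    exact H.ca5b hS h hB hij hi hj
  have hc : ∀ σ ∈ fB b, σ * σ = 1 → σ ≠ 1 → ∃ τ ∈ fB b, σ * τ = τ * om := fun σ hσ s1 s2 => by
    obtain ⟨τ, t1, t2, t3⟩ := m1 σ s1 s2 ((hB σ).1 hσ).1
    exact ⟨τ, (hB τ).2 ⟨t3, t2 ((hB σ).1 hσ).2⟩, t1⟩
  exact CAx.fin H h ((hB _).2 (by decide)) hc CA
    (sc_red h h2 hc fun a ha a1 g => sc5 h h2 hB CA ha a1 g)

end H28.R4
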