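import Mathlib

/-! Finite checks in `S₄` and `S₆` for the centraliser of a frame involution. -/

set_option autoImplicit false

namespace H28.R4.CAx

open Equiv Equiv.Perm

/-- a double transposition -/
def u0 : Perm (Fin 4) := swap 0 1 * swap 2 3
/-- a double transposition -/
def u1 : Perm (Fin 4) := swap 0 2 * swap 1 3
/-- a double transposition -/
def u2 : Perm (Fin 4) := swap 0 3 * swap 1 2
/-- a three-cycle -/
def c0 : Perm (Fin 4) := swap 1 3 * swap 1 2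

/-- the normal four-group -/
def V (a : Perm (Fin 4)) : Prop := a = 1 ∨ a = u0 ∨ a = u1 ∨ a = u2

instance (a : Perm (Fin 4)) : Decidable (V a) := by unfold V; infer_instance

/-- odd permutations -/
def Od (a : Perm (Fin 4)) : Prop :=
  a * c0 * a⁻¹ = c0⁻¹ ∨ u0 * a * c0 * (u0 * a)⁻¹ = c0⁻¹ ∨ u1 * a * c0 * (u1 * a)⁻¹ = c0⁻¹ ∨
    u2 * a * c0 * (u2 * a)⁻¹ = c0⁻¹

instance (a : Perm (Fin 4)) : Decidable (Od a) := by unfold Od; infer_instance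

theorem c0_u0 : c0 * u0 * c0⁻¹ = u1 := by decide
theorem u0_u1 : u0 * u1 = u2 := by decide
theorem u1_u0 : u1 * u0⁻¹ = u2 := by decide
theorem u2_ne : u2 ≠ 1 := by decide
theorem c0_ne : c0 ≠ 1 := by decide

set_option synthInstance.maxSize 2048 in
theorem l1 : ∀ u : Perm (Fin 4), u * u = 1 → ∀ c : Perm (Fin 4), c ^ 3 = 1 →
    u * (c * u * c⁻¹) = c * u * c⁻¹ * u → c * u * c⁻¹ ≠ u →
    ∃ k : Perm (Fin 4), k * u * k⁻¹ = u0 ∧ k * c * k⁻¹ = c0 := by decide +kernel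

theorem l2 : ∀ a b : Perm (Fin 4), V (a⁻¹ * b) → V (a * b⁻¹) ∧ b * a⁻¹ = a * b⁻¹ ∧
    V (a * u0 * a⁻¹) ∧ b * u0 * b⁻¹ = a * u0 * a⁻¹ ∧ V (a * u2 * a⁻¹) ∧
    b * u2 * b⁻¹ = a * u2 * a⁻¹ := by decide +kernel

theorem l3 : ∀ a b : Perm (Fin 4), V (a⁻¹ * b) ∨
    (V ((a * b⁻¹ * c0)⁻¹ * c0⁻¹) ∧ V (b * a⁻¹ * c0)⁻¹) ∨
    (V ((b * a⁻¹ * c0)⁻¹ * c0⁻¹) ∧ V (a * b⁻¹ * c0)⁻¹) ∨
    (V ((a * c0 * a⁻¹ * c0)⁻¹ * c0⁻¹) ∧ V (b * c0 * b⁻¹ * c0)⁻¹) ∨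
    (V ((b * c0 * b⁻¹ * c0)⁻¹ * c0⁻¹) ∧ V (a * c0 * a⁻¹ * c0)⁻¹) := by decide +kernel

theorem l4 : ∀ a b : Perm (Fin 4), V (a * c0⁻¹) → V b → ∃ v, V v ∧ v * (a * b⁻¹) * v⁻¹ = c0 := by
  decide +kernel

theorem l5 : ∀ a b : Perm (Fin 4), Od a ∨ Od b ∨ V ((a * c0 ^ 0)⁻¹ * b) ∨ V ((a * c0 ^ 1)⁻¹ * b) ∨
    V ((a * c0 ^ 2)⁻¹ * b) := by decide +kernel

theorem l6 : ∀ a : Perm (Fin 4), a * u0 * a⁻¹ = u0 → a * u1 * a⁻¹ = u2 → Od a := by decide +kernel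

theorem l7 : V (u2⁻¹ * 1) ∧ u2 * u0 * u2⁻¹ = u0 ∧ u2 * u2 * u2⁻¹ = u2 := by decide +kernel

/-- the standard double transposition -/
def om : Perm (Fin 6) := swap 0 1 * swap 2 3
/-- a second double transposition -/
def ka : Perm (Fin 6) := swap 0 2 * swap 1 3
/-- a third double transposition -/
def nu : Perm (Fin 6) := swap 0 1 * swap 4 5

theorem m2 : ∀ σ : Perm (Fin 6), σ 5 = 5 → σ ^ 4 = 1 → sign σ = 1 → σ * σ = 1 := by decide +kernel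

/-- the stabiliser of the pairing -/
def W (τ : Perm (Fin 6)) : Prop :=
  (τ 0).val / 2 = (τ 1).val / 2 ∧ (τ 2).val / 2 = (τ 3).val / 2 ∧ (τ 4).val / 2 = (τ 5).val / 2

instance (a : Perm (Fin 6)) : Decidable (W a) := by unfold W; infer_instance

/-- equality of unordered pairs -/
abbrev De (i j l m : Fin 6) : Prop := (i = l ∧ j = m) ∨ (i = m ∧ j = l)

/-- fixes a pair of the pairing but not the pairing -/
def Gd (τ : Perm (Fin 6)) : Prop :=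
  (De (τ 0) (τ 1) 0 1 ∨ De (τ 2) (τ 3) 2 3 ∨ De (τ 4) (τ 5) 4 5) ∧ ¬ W τ

instance (a : Perm (Fin 6)) : Decidable (Gd a) := by unfold Gd; infer_instance

theorem m5 : ∀ σ : Perm (Fin 6), W σ ∨ Gd (σ * om * σ⁻¹) ∨ Gd (σ * om * σ⁻¹ * ka * σ) ∨
    Gd (σ * om * σ⁻¹ * om * ka * σ) := by decide +kernel

theorem m1 : ∀ σ : Perm (Fin 6), σ * σ = 1 → σ ≠ 1 → sign σ = 1 →
    ∃ τ : Perm (Fin 6), σ * τ = τ * om ∧ (σ 5 = 5 → τ 5 = 5) ∧ sign τ = 1 := by decide +kernel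

theorem mq : ∀ σ : Perm (Fin 6), σ 3 = 3 → (De (σ 0) (σ 1) 0 1 ∨ De (σ 0) (σ 1) 2 3) →
    (De (σ 1) (σ 2) 1 2 ∨ De (σ 1) (σ 2) 0 3) → sign σ = 1 → σ = 1 := by decide +kernel

theorem t5 : ∀ i : Fin 6, i ≠ 5 → ∃ σ : Perm (Fin 6), σ 5 = 5 ∧ σ 4 = i ∧ sign σ = 1 := by
  decide +kernel

theorem t6 : ∀ i j : Fin 6, i ≠ j → ∃ σ : Perm (Fin 6), σ 4 = i ∧ σ 5 = j ∧ sign σ = 1 := by
  decide +kernel

theorem t3 : ∀ i j : Fin 6, i ≠ j → i ≠ 5 → j ≠ 5 →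
    ∃ τ : Perm (Fin 6), τ 4 = i ∧ τ 5 = j ∧ τ 3 = 5 := by decide +kernel

theorem fix_om : ∀ i j : Fin 6, De (om i) (om j) i j → i = j ∨ De i j 0 1 ∨ De i j 2 3 ∨ De i j 4 5 := by
  decide +kernel

theorem fix_ka : ∀ i j : Fin 6, De (om i) (om j) i j → De (ka i) (ka j) i j → i = j ∨ De i j 4 5 := by
  decide +kernel

theorem fix5 : ∀ σ : Perm (Fin 6), σ 5 = 5 → De (σ 0) (σ 1) 0 1 → De (σ 2) (σ 3) 2 3 → sign σ = 1 →
    σ = 1 ∨ σ = om := by decide +kernel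

theorem cent_om : ∀ σ : Perm (Fin 6), σ * σ = 1 → σ * om = om * σ → sign σ = 1 →
    (σ = 1 ∨ σ = om ∨ σ = nu ∨ σ = om * nu) ∨ σ = ka ∨ om * σ = ka := by decide +kernel

theorem cent_ka : ∀ σ : Perm (Fin 6), σ * om = om * σ → σ * ka = ka * σ → sign σ = 1 →
    σ = 1 ∨ σ = om ∨ σ = ka ∨ σ = om * ka := by decide +kernel

/-- the permutations induced by the second frame -/
def rho : Fin 6 → Perm (Fin 6) := ![1, 1, om, om, nu, nu]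

theorem rho_eq : ∀ i j : Fin 6, (rho i)⁻¹ * rho j = 1 ↔ i.val / 2 = j.val / 2 := by decide +kernel

theorem W.blk {σ : Perm (Fin 6)} (h : W σ) {i j : Fin 6} (e : i.val / 2 = j.val / 2) :
    (σ i).val / 2 = (σ j).val / 2 := by
  obtain ⟨h1, h2, h3⟩ := h
  fin_cases i <;> fin_cases j <;> first | rfl | assumption | (symm; assumption) | simp at e

end H28.R4.CAx
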