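import Cfsg.Agent.Lib.R4.FrB
import Cfsg.Agent.Lib.R4.Base
import Cfsg.Agent.Lib.R4.CA1

/-! The stabiliser of the two eigenspaces of a frame involution. -/

set_option autoImplicit false
set_option linter.unusedSectionVars false

namespace H28.R4.CAx

open Matrix Subgroup Cfsg Cx Equiv

variable {G k ι : Type*} [Group G] [Field k] [Fintype ι] [DecidableEq ι] {C : Cx G k ι} {p : ℕ}
  {γ : Fin 6 → Fin 6 → Matrix ι ι k} {b : Fin 6 → Fin 6 → G}

/-- anticommuting matrices -/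
def An (M N : Matrix ι ι k) : Prop := M * N = -(N * M)

theorem An.symm {M N : Matrix ι ι k} (h : An M N) : An N M := by
  unfold An at *; rw [h, neg_neg]

theorem An.mul_c {M N L : Matrix ι ι k} (h : An M N) (h' : Commute M L) : An M (N * L) := by
  unfold An at *; rw [← mul_assoc, h, neg_mul, mul_assoc, h'.eq, mul_assoc]

theorem An.c_mul {M N L : Matrix ι ι k} (h' : Commute M L) (h : An M N) : An M (L * N) := by
  unfold An at *; rw [← mul_assoc, h'.eq, mul_assoc, h, mul_neg, mul_assoc]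

theorem An.mul {M N L : Matrix ι ι k} (h : An M N) (h' : An M L) : Commute M (N * L) := by
  unfold An at *
  show _ = _
  rw [← mul_assoc, h, neg_mul, mul_assoc, h', mul_neg, neg_neg, mul_assoc]

theorem An.smul {M N : Matrix ι ι k} (h : An M N) (c : k) : An M (c • N) := by
  unfold An at *; rw [mul_smul_comm, h, smul_neg, smul_mul_assoc]

theorem An.flip {M S : Matrix ι ι k} (h : An M S) : M * (1 - S) = (1 + S) * M := by
  unfold An at h; rw [mul_sub, h, add_mul, mul_one, one_mul, sub_neg_eq_add]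

/-- overlapping pairs -/
abbrev Ov (i j l m : Fin 6) : Prop := i ≠ j ∧ l ≠ m ∧
  ((i = l ∧ j ≠ m) ∨ (i = m ∧ j ≠ l) ∨ (j = l ∧ i ≠ m) ∨ (j = m ∧ i ≠ l))

theorem an (h : Fr γ) {i j l m : Fin 6} (e : Ov i j l m) : An (γ i j) (γ l m) := by
  obtain ⟨h1, h2, ⟨rfl, h3⟩ | ⟨rfl, h3⟩ | ⟨rfl, h3⟩ | ⟨rfl, h3⟩⟩ := e <;> unfold An
  · exact h.anti' (by simp [h1, h2, h3])
  · rw [h.anti _ _ h2.symm, mul_neg, neg_mul, h.anti' (by simp [h1, h2.symm, h3])]
  · rw [h.anti _ _ h1.symm, mul_neg, neg_mul, h.anti' (by simp [h1.symm, h2, h3])]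
  · rw [h.anti _ _ h1.symm, h.anti _ _ h2.symm, neg_mul_neg, neg_mul_neg,
      h.anti' (by simp [h1.symm, h2.symm, h3])]

theorem cm (h : Fr γ) {i j l m : Fin 6} (e : [i, j, l, m].Nodup) : Commute (γ i j) (γ l m) :=
  h.comm e

theorem add_ne (C : Cx G k ι) (h2 : (2 : k) ≠ 0) {S : Matrix ι ι k} (hS : Bi S) : 1 + S ≠ 0 :=
  fun e => by
    have := congrArg trace e
    rw [trace_add, C.trace_one, hS.2, trace_zero, add_zero, show (4 : k) = 2 * 2 by norm_num] at this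
    exact mul_ne_zero h2 h2 this

theorem nsc (C : Cx G k ι) (h2 : (2 : k) ≠ 0) {S M N : Matrix ι ι k} (hS : Bi S) (hM : IsUnit M)
    (hN : IsUnit N) (h1 : Commute N S) (h3 : An N M) {c : k} (e : M * (1 + S) = c • (1 + S)) :
    False := by
  have h4 : N * (1 + S) = (1 + S) * N := ((Commute.one_right N).add_right h1).eq
  have h5 : N * (M * (1 + S)) = -(N * (M * (1 + S))) := by
    nth_rewrite 1 [← mul_assoc, h3, neg_mul, mul_assoc, h4, ← mul_assoc, e]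
    rw [e, smul_mul_assoc, mul_smul_comm, h4]
  have h6 : N * (M * (1 + S)) = 0 := by
    have : (2 : k) • (N * (M * (1 + S))) = 0 := by rw [two_smul]; nth_rewrite 1 [h5]; simp
    exact (smul_eq_zero.1 this).resolve_left h2
  exact add_ne C h2 hS (hM.mul_right_eq_zero.1 (hN.mul_right_eq_zero.1 h6))

theorem flip {S N N' M : Matrix ι ι k} (h : An N S) (h1 : N * N' = 1) (h2 : N' * N = 1) {c : k} :
    N * M * N' * (1 + S) = c • (1 + S) ↔ M * (1 - S) = c • (1 - S) := by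
  have e1 : 1 + S = N * (1 - S) * N' := by rw [h.flip, mul_assoc, h1, mul_one]
  have e2 : N * M * N' * (1 + S) = N * (M * (1 - S)) * N' := by
    rw [e1]; simp only [mul_assoc]; rw [← mul_assoc N' N, h2, one_mul]
  rw [e2]
  constructor
  · intro e
    have := congrArg (fun Z => N' * Z * N) e
    simp only [e1, mul_smul_comm, smul_mul_assoc, mul_assoc, h2, mul_one] at this
    simpa only [← mul_assoc, h2, one_mul] using this
  · intro e
    rw [e, e1, mul_smul_comm, smul_mul_assoc]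

theorem tr_an (h2 : (2 : k) ≠ 0) {N N' M : Matrix ι ι k} (h : An N M) (h1 : N' * N = 1) :
    M.trace = 0 := by
  have e : M.trace = -M.trace := by
    calc M.trace = (N' * (N * M)).trace := by rw [← mul_assoc, h1, one_mul]
      _ = -(M * (N * N')).trace := by
        rw [h, mul_neg, trace_neg, trace_mul_comm, mul_assoc]
      _ = _ := by rw [mul_eq_one_comm.1 h1, mul_one]
  have : (2 : k) * M.trace = 0 := by linear_combination e
  exact (mul_eq_zero.1 this).resolve_left h2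

/-- the matrix which is `2 ν Y` on the fixed space of `T` and `2` on the other eigenspace -/
def Am (T Y : Matrix ι ι k) (ν : k) : Matrix ι ι k := (1 - T) + ν • (Y * (1 + T))

section Am
variable {T Y Z : Matrix ι ι k} (hT : T * T = 1)
include hT

theorem pq : (1 + T) * (1 - T) = 0 := by rw [add_mul, mul_sub, mul_sub, hT]; simp
theorem qp : (1 - T) * (1 + T) = 0 := by rw [sub_mul, mul_add, mul_add, hT]; simp [add_comm]
theorem pp : (1 + T) * (1 + T) = (2 : k) • (1 + T) := by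
  rw [add_mul, mul_add, mul_add, hT, two_smul]; simp [add_comm]
theorem qq : (1 - T) * (1 - T) = (2 : k) • (1 - T) := by
  rw [sub_mul, mul_sub, mul_sub, hT, two_smul]; simp; abel

theorem Am_q (ν : k) : Am T Y ν * (1 - T) = (2 : k) • (1 - T) := by
  rw [Am, add_mul, qq hT, smul_mul_assoc, mul_assoc, pq hT]; simp

theorem Am_p (ν : k) : Am T Y ν * (1 + T) = (2 * ν) • (Y * (1 + T)) := by
  rw [Am, add_mul, qp hT, smul_mul_assoc, mul_assoc, pp hT, zero_add, mul_smul_comm, smul_smul,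
    mul_comm]

theorem Am_mul (hZ : Commute Z T) (ν μ : k) :
    Am T Y ν * Am T Z μ = (2 : k) • Am T (Y * Z) (ν * μ) := by
  have e : Z * (1 + T) = (1 + T) * Z := ((Commute.one_right Z).add_right hZ).eq
  rw [show Am T Z μ = (1 - T) + μ • (Z * (1 + T)) from rfl, mul_add, Am_q hT, mul_smul_comm, e,
    ← mul_assoc, Am_p hT, smul_mul_assoc, mul_assoc, ← e, Am, smul_add, smul_smul, smul_smul,
    mul_assoc Y]
  congr 2; ring

theorem Am_T (ν : k) : -(Am T Y ν * T) = Am T Y (-ν) := by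
  rw [Am, Am, add_mul, smul_mul_assoc, mul_assoc, add_mul, sub_mul, hT, one_mul, add_comm T,
    neg_smul]
  abel

omit hT in
theorem Am_one (ν : k) : Am T 1 ν = (1 + ν) • 1 + (ν - 1) • T := by
  rw [Am, one_mul]; module

end Am

local notation "𝐓" => γ 0 1 * γ 2 3
local notation "𝐯" => γ 0 1 + γ 1 2 + γ 2 0
local notation "𝐗" => (-(2 : k)⁻¹) • (1 + γ 0 1 + γ 1 2 + γ 2 0)

section frame
variable (h : C.FG γ b) (h2 : (2 : k) ≠ 0)
include h h2

theorem biT : Bi 𝐓 := h.toFr.bi C.card h2 (by decide)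

theorem liftT : C.L (b 4 5) 𝐓 :=
  h.triple h2 (show [0, 1, 2, 3, 4, 5].Nodup by decide) ▸ C.mul (h.lift 0 1) (h.lift 2 3)

omit h2 in
theorem anT : An (γ 3 4) 𝐓 := An.c_mul (cm h.toFr (by decide)) (an h.toFr (by decide))

omit h2 in
theorem c01 : Commute (γ 0 1) 𝐓 := (Commute.refl _).mul_right (cm h.toFr (by decide))
omit h2 in
theorem c12 : Commute (γ 1 2) 𝐓 := (an h.toFr (by decide)).mul (an h.toFr (by decide))
omit h2 in
theorem c20 : Commute (γ 2 0) 𝐓 := (an h.toFr (by decide)).mul (an h.toFr (by decide))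
omit h2 in
theorem cv : Commute 𝐯 𝐓 := ((c01 h).add_left (c12 h)).add_left (c20 h)
omit h2 in
theorem cX : Commute 𝐗 𝐓 :=
  ((((Commute.one_left _).add_left (c01 h)).add_left (c12 h)).add_left (c20 h)).smul_left _

omit h2 in
theorem cv' {i j : Fin 6} (e0 : [i, j, 0, 1].Nodup) (e1 : [i, j, 1, 2].Nodup)
    (e2 : [i, j, 2, 0].Nodup) : Commute (γ i j) 𝐯 :=
  ((cm h.toFr e0).add_right (cm h.toFr e1)).add_right (cm h.toFr e2)

omit h2 in
theorem v_sq : (𝐯) * (𝐯) = (-3 : k) • 1 := by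
  have a1 : An (γ 0 1) (γ 1 2) := an h.toFr (by decide)
  have a2 : An (γ 0 1) (γ 2 0) := an h.toFr (by decide)
  have a3 : An (γ 1 2) (γ 2 0) := an h.toFr (by decide)
  unfold An at a1 a2 a3
  simp only [mul_add, add_mul]
  rw [a1, a2, a3, h.toFr.sq (by decide), h.toFr.sq (by decide), h.toFr.sq (by decide)]
  module

theorem X_sq : (𝐗) * (𝐗) = -1 - 𝐗 := by
  rw [add_assoc, add_assoc, ← add_assoc (γ 0 1), smul_mul_assoc, mul_smul_comm, add_mul, one_mul,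
    mul_add, v_sq h, mul_one]
  match_scalars <;> field_simp <;> ring

theorem X_cube : (𝐗) * (𝐗) * (𝐗) = 1 := by
  rw [X_sq h h2, sub_mul, X_sq h h2, neg_one_mul]; abel

theorem tr_v : (𝐯).trace = 0 := by
  rw [trace_add, trace_add, h.toFr.trace C.card h2 (by decide), h.toFr.trace C.card h2 (by decide),
    h.toFr.trace C.card h2 (by decide)]; simp

theorem tr_p : (1 + 𝐓).trace = 4 := by rw [trace_add, C.trace_one, (biT h h2).2, add_zero]

theorem tr_Xp : ((𝐗) * (1 + 𝐓)).trace = -2 := by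
  have e : ((𝐯) * (𝐓)).trace = 0 := tr_an h2 (N := γ 3 4) (N' := γ 4 3)
    (An.c_mul (cv' h (by decide) (by decide) (by decide)) (anT h)) (by rw [h.mul, h.self])
  rw [add_assoc, add_assoc, ← add_assoc (γ 0 1), smul_mul_assoc, add_mul, one_mul, mul_add, mul_one,
    trace_smul, trace_add, tr_p h h2, trace_add, tr_v h h2, e, smul_eq_mul]
  field_simp; norm_num

theorem s_inv : (b 3 4)⁻¹ = b 4 3 := by
  rw [inv_eq_iff_mul_eq_one, h.mul' h2, h.self' h2]

theorem s_St {g : G} (hg : g ∈ C.St 𝐓) : b 3 4 * g * (b 3 4)⁻¹ ∈ C.St 𝐓 := by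
  obtain ⟨M, hM⟩ := C.ex g
  rw [s_inv h h2]
  exact mul_mem_St (C.mul (h.lift 3 4) hM) (h.lift 4 3)
    (An.mul_c (anT h).symm (hg M hM).symm).symm
    (An.c_mul (cm h.toFr (by decide)) (an h.toFr (by decide)) : An (γ 4 3) 𝐓)

theorem b_mem (i j : Fin 6) : b i j ∈ fA b := (h.mem_fA h2).2 ⟨i, j, rfl⟩

theorem mem_N [Finite G] {g : G} (h01 : g * b 0 1 * g⁻¹ ∈ fA b) (h12 : g * b 1 2 * g⁻¹ ∈ fA b)
    (h34 : g * b 3 4 * g⁻¹ ∈ fA b) (h45 : g * b 4 5 * g⁻¹ ∈ fA b) :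
    g ∈ normalizer (fA b : Set G) := by
  let K := (fA b).comap (MulAut.conj g).toMonoidHom
  have k01 : b 0 1 ∈ K := h01
  have k12 : b 1 2 ∈ K := h12
  have k34 : b 3 4 ∈ K := h34
  have k45 : b 4 5 ∈ K := h45
  have k03 : b 0 3 ∈ K := h.triple h2 (show [1, 2, 4, 5, 0, 3].Nodup by decide) ▸ mul_mem k12 k45
  have k0 : ∀ j, b 0 j ∈ K := fun j => by
    fin_cases j
    · exact (h.self' h2 0).symm ▸ one_mem K
    · exact k01
    · exact h.mul' h2 0 1 2 ▸ mul_mem k01 k12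
    · exact k03
    · exact h.mul' h2 0 3 4 ▸ mul_mem k03 k34
    · exact h.mul' h2 0 4 5 ▸ h.mul' h2 0 3 4 ▸ mul_mem (mul_mem k03 k34) k45
  refine mem_normalizer_fintype fun a ha => ?_
  obtain ⟨i, j, rfl⟩ := (h.mem_fA h2).1 ha
  have : b i j ∈ K := by
    rw [← h.mul' h2 i 0 j, h.symm h2 0 i]; exact mul_mem (k0 i) (k0 j)
  exact this

end frame

/-- the action on the first projective line, as a map to `S₄` -/
structure Ph (C : Cx G k ι) (γ : Fin 6 → Fin 6 → Matrix ι ι k) (b : Fin 6 → Fin 6 → G) where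
  /-- the lift of the three-cycle -/
  x : G
  hx : C.L x ((-(2 : k)⁻¹) • (1 + γ 0 1 + γ 1 2 + γ 2 0))
  ind : Ind b x (swap 0 1 * swap 0 2)
  /-- the map to `S₄` -/
  φ : C.St (γ 0 1 * γ 2 3) →* Perm (Fin 4)
  ker : ∀ g, φ g = 1 ↔ C.chi (γ 0 1 * γ 2 3) g = 1
  φ0 : ∀ h, φ ⟨b 0 1, h⟩ = u0
  φx : ∀ h, φ ⟨x, h⟩ = c0

theorem exists_ph (H : C.Hy p) (hS : SolC G) (h : C.FG γ b) (h3 : swap 0 1 * swap 0 2 ∈ fB b) :
    Nonempty (Ph C γ b) := by
  have := H.fin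
  have h2 := H.two
  obtain ⟨t1, t2, t3⟩ := h.three h2 (show [0, 1, 2].Nodup by decide)
  obtain ⟨x, hx, ind⟩ := h.of_matrix h2 h3 t1 fun i j => ⟨1, by rw [one_smul, t3]⟩
  have hx' := C.smul hx (neg_ne_zero.2 (inv_ne_zero h2))
  have mx : x ∈ C.St 𝐓 := (mem_St hx').2 (cX h)
  have m01 : b 0 1 ∈ C.St 𝐓 := (mem_St (h.lift 0 1)).2 (c01 h)
  have m20 : b 2 0 ∈ C.St 𝐓 := (mem_St (h.lift 2 0)).2 (c20 h)
  have hs : Group.IsSolvable (C.Y 𝐓) := by
    have := hS _ (h.order h2 (show (4 : Fin 6) ≠ 5 by decide))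
    have : Group.IsSolvable (C.St 𝐓) := Group.isSolvable_of_isSolvable_injective
      (inclusion_injective (St_le (liftT h h2)))
    infer_instance
  have hu : C.chi 𝐓 ⟨b 0 1, m01⟩ * C.chi 𝐓 ⟨b 0 1, m01⟩ = 1 := by
    rw [← map_mul, ← map_one (C.chi 𝐓)]
    congr 1
    exact Subtype.ext (h.mul_self h2 0 1)
  have hu1 : C.chi 𝐓 ⟨b 0 1, m01⟩ ≠ 1 := fun e => by
    obtain ⟨c, hc⟩ := (chi_eq_one (x := ⟨b 0 1, m01⟩) (h.lift 0 1)).1 e
    exact nsc C h2 (biT h h2) (unit (h.lift 0 1)) (unit (h.lift 1 2)) (c12 h)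
      (an h.toFr (by decide)) hc
  have hx3 : C.chi 𝐓 ⟨x, mx⟩ ^ 3 = 1 := by
    rw [← map_pow, ← map_one (C.chi 𝐓)]
    congr 1
    exact Subtype.ext ((eq_one_iff (pow hx 3)).2 ⟨_, t2⟩)
  have hc : C.chi 𝐓 ⟨x, mx⟩ * C.chi 𝐓 ⟨b 0 1, m01⟩ * (C.chi 𝐓 ⟨x, mx⟩)⁻¹ = C.chi 𝐓 ⟨b 2 0, m20⟩ := by
    rw [← map_inv, ← map_mul, ← map_mul]
    congr 1
    exact Subtype.ext (ind 0 1)
  have hcm : Commute (C.chi 𝐓 ⟨b 0 1, m01⟩) (C.chi 𝐓 ⟨b 2 0, m20⟩) :=
    Commute.map (Subtype.ext (h.comm h2 0 1 2 0)) _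
  have hne : C.chi 𝐓 ⟨b 2 0, m20⟩ ≠ C.chi 𝐓 ⟨b 0 1, m01⟩ := fun e => by
    rw [← e] at hu
    nth_rewrite 2 [e] at hu
    rw [← map_mul] at hu
    obtain ⟨c, hc⟩ := (chi_eq_one (C.mul (h.lift 2 0) (h.lift 0 1))).1 hu
    rw [h.mul] at hc
    exact nsc C h2 (biT h h2) (unit (h.lift 2 1)) (unit (h.lift 0 1)) (c01 h)
      (an h.toFr (by decide)) hc
  obtain ⟨f, hf⟩ : ∃ f : C.Y 𝐓 →* Perm (Fin 4), Function.Injective f := by
    rcases (H.tame (biT h h2)).a4 hs (orderOf_eq_prime (by rw [sq, hu]) hu1) hx3 (hc ▸ hcm)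
      (hc ▸ hne) with ⟨⟨e⟩⟩ | ⟨⟨e⟩⟩
    · exact ⟨(Subgroup.subtype _).comp e.toMonoidHom, (subtype_injective _).comp e.injective⟩
    · exact ⟨e.toMonoidHom, e.injective⟩
  obtain ⟨κ, k1, k2⟩ := l1 (f (C.chi 𝐓 ⟨b 0 1, m01⟩)) (by rw [← map_mul, hu, map_one])
    (f (C.chi 𝐓 ⟨x, mx⟩)) (by rw [← map_pow, hx3, map_one])
    (by rw [← map_inv f, ← map_mul f, ← map_mul f, ← map_mul f, ← map_mul f, hc, hcm.eq])
    (by rw [← map_inv f, ← map_mul f, ← map_mul f, hc]; exact hf.ne hne)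
  exact ⟨⟨x, hx', ind, (MulAut.conj κ).toMonoidHom.comp (f.comp (C.chi 𝐓)), fun g =>
    (map_eq_one_iff _ (MulAut.conj κ).injective).trans (map_eq_one_iff _ hf),
    fun _ => k1, fun _ => k2⟩⟩

end H28.R4.CAx
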