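import Cfsg.Agent.Lib.R4.CA2

/-! The centraliser of a frame involution: either it normalises the frame, or there is a
homology. -/

set_option autoImplicit false
set_option linter.unusedSectionVars false

namespace H28.R4.CAx

open Matrix Subgroup Cfsg Cx Equiv

variable {G k ι : Type*} [Group G] [Field k] [Fintype ι] [DecidableEq ι] {C : Cx G k ι} {p : ℕ}
  {γ : Fin 6 → Fin 6 → Matrix ι ι k} {b : Fin 6 → Fin 6 → G}

local notation "𝐓" => γ 0 1 * γ 2 3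
local notation "𝐯" => γ 0 1 + γ 1 2 + γ 2 0
local notation "𝐗" => (-(2 : k)⁻¹) • (1 + γ 0 1 + γ 1 2 + γ 2 0)

namespace Ph

variable (P : Ph C γ b)

/-- the actions of `g` on the two projective lines -/
def R (g : G) (α β : Perm (Fin 4)) : Prop :=
  ∃ (h1 : g ∈ C.St 𝐓) (h2 : b 3 4 * g * (b 3 4)⁻¹ ∈ C.St 𝐓), P.φ ⟨_, h1⟩ = α ∧ P.φ ⟨_, h2⟩ = β

variable {P} {g g' : G} {α β α' β' : Perm (Fin 4)}

theorem R.mul (a : P.R g α β) (c : P.R g' α' β') : P.R (g * g') (α * α') (β * β') := by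
  obtain ⟨a1, a2, rfl, rfl⟩ := a
  obtain ⟨c1, c2, rfl, rfl⟩ := c
  have e : b 3 4 * (g * g') * (b 3 4)⁻¹ = b 3 4 * g * (b 3 4)⁻¹ * (b 3 4 * g' * (b 3 4)⁻¹) := by group
  exact ⟨mul_mem a1 c1, e ▸ mul_mem a2 c2, map_mul P.φ ⟨_, a1⟩ ⟨_, c1⟩,
    (congrArg P.φ (Subtype.ext e)).trans (map_mul P.φ ⟨_, a2⟩ ⟨_, c2⟩)⟩

theorem R.inv (a : P.R g α β) : P.R g⁻¹ α⁻¹ β⁻¹ := by
  obtain ⟨a1, a2, rfl, rfl⟩ := a
  have e : b 3 4 * g⁻¹ * (b 3 4)⁻¹ = (b 3 4 * g * (b 3 4)⁻¹)⁻¹ := by group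
  exact ⟨inv_mem a1, e ▸ inv_mem a2, map_inv P.φ ⟨_, a1⟩,
    (congrArg P.φ (Subtype.ext e)).trans (map_inv P.φ ⟨_, a2⟩)⟩

theorem R.one : P.R 1 1 1 :=
  ⟨one_mem _, by simp, map_one P.φ, (congrArg P.φ (Subtype.ext (by simp))).trans (map_one P.φ)⟩

theorem R.pow (a : P.R g α β) (n : ℕ) : P.R (g ^ n) (α ^ n) (β ^ n) := by
  induction n with
  | zero => simpa using R.one
  | succ n ih => simpa only [pow_succ] using ih.mul a

theorem R.uniq (a : P.R g α β) (c : P.R g α' β') : α = α' ∧ β = β' := by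
  obtain ⟨a1, a2, rfl, rfl⟩ := a
  obtain ⟨c1, c2, rfl, rfl⟩ := c
  exact ⟨rfl, rfl⟩

theorem R.of_comm (h1 : g ∈ C.St 𝐓) (e : b 3 4 * g = g * b 3 4) (f : P.φ ⟨g, h1⟩ = α) :
    P.R g α α := by
  have e' : b 3 4 * g * (b 3 4)⁻¹ = g := by rw [e, mul_inv_cancel_right]
  exact ⟨h1, e'.symm ▸ h1, f, (congrArg P.φ (Subtype.ext e')).trans f⟩

theorem R.plus {M N : Matrix ι ι k} (a : P.R g α β) (c : P.R g' α β') (hM : C.L g M)
    (hN : C.L g' N) : ∃ c : k, M * (1 + 𝐓) = c • (N * (1 + 𝐓)) := by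
  obtain ⟨a1, -, rfl, -⟩ := a
  obtain ⟨c1, -, e, -⟩ := c
  refine (chi_eq (x := ⟨g, a1⟩) (y := ⟨g', c1⟩) hM hN).1 ?_
  rw [← inv_mul_eq_one, ← map_inv, ← map_mul, ← P.ker, map_mul, map_inv, e, inv_mul_cancel]

theorem R.eq_one {M : Matrix ι ι k} (a : P.R g α β) (hM : C.L g M) {c : k}
    (e : M * (1 + 𝐓) = c • (1 + 𝐓)) : α = 1 := by
  obtain ⟨a1, -, rfl, -⟩ := a
  exact (P.ker _).2 ((chi_eq_one (x := ⟨g, a1⟩) hM).2 ⟨c, e⟩)

variable (H : C.Hy p) (h : C.FG γ b)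
include H h

theorem R.ex (hg : g ∈ C.St 𝐓) : ∃ α β, P.R g α β := ⟨_, _, hg, s_St h H.two hg, rfl, rfl⟩

theorem R.swap (a : P.R g α β) : P.R (b 3 4 * g * (b 3 4)⁻¹) β α := by
  obtain ⟨a1, a2, rfl, rfl⟩ := a
  have e : b 3 4 * (b 3 4 * g * (b 3 4)⁻¹) * (b 3 4)⁻¹ = g := by
    rw [show b 3 4 * (b 3 4 * g * (b 3 4)⁻¹) * (b 3 4)⁻¹ =
      (b 3 4 * b 3 4) * g * (b 3 4 * b 3 4)⁻¹ by group, h.mul_self H.two]; simp
  exact ⟨a2, e.symm ▸ a1, rfl, congrArg P.φ (Subtype.ext e)⟩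

theorem R.minus {M : Matrix ι ι k} (a : P.R g α 1) (hM : C.L g M) :
    ∃ c : k, M * (1 - 𝐓) = c • (1 - 𝐓) := by
  obtain ⟨c, e⟩ := (a.swap H h).plus R.one
    (s_inv h H.two ▸ C.mul (C.mul (h.lift 3 4) hM) (h.lift 4 3)) C.one
  rw [one_mul] at e
  exact ⟨c, (flip (anT h) (h.inv 3 4) (h.inv 4 3)).1 e⟩

theorem R.ker (a : P.R g 1 1) : g = 1 ∨ g = b 4 5 := by
  obtain ⟨M, hM⟩ := C.ex g
  obtain ⟨c, e⟩ := a.minus H h hM
  have h1 : g ∈ C.St (-(𝐓)) := by rw [St_neg]; exact a.1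
  exact H.chi_both (liftT h H.two) (biT h H.two) a.1 h1 ((P.ker _).1 a.2.2.1)
    ((chi_eq_one (x := ⟨g, h1⟩) hM).2 ⟨c, by rwa [← sub_eq_add_neg]⟩)

theorem R.eq (a : P.R g α β) (c : P.R g' α β) : g = g' ∨ g = g' * b 4 5 := by
  have := (c.inv.mul a)
  rw [inv_mul_cancel, inv_mul_cancel] at this
  rcases this.ker H h with e | e
  · exact Or.inl (inv_mul_eq_one.1 e).symm
  · exact Or.inr (inv_mul_eq_iff_eq_mul.1 e)

theorem Rx : P.R P.x c0 c0 := R.of_comm ((mem_St P.hx).2 (cX h))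
  (mul_inv_eq_iff_eq_mul.1 (P.ind 3 4)).symm (P.φx _)

theorem R0 : P.R (b 0 1) u0 u0 :=
  R.of_comm ((mem_St (h.lift 0 1)).2 (c01 h)) (h.comm H.two ..) (P.φ0 _)

theorem R1 : P.R (b 2 0) u1 u1 := by
  have := ((Rx (P := P) H h).mul (R0 H h)).mul (Rx H h).inv
  rwa [P.ind 0 1, c0_u0] at this

theorem R2 : P.R (b 1 2) u2 u2 := by
  have := (R0 (P := P) H h).mul (R1 H h)
  rwa [u0_u1, h.comm H.two, h.mul' H.two, h.symm H.two] at this

theorem Rt : P.R (b 4 5) 1 1 := by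
  have h1 : b 4 5 ∈ C.St 𝐓 := (mem_St (liftT h H.two)).2 rfl
  refine R.of_comm h1 (h.comm H.two ..) ((P.ker _).2
    ((chi_eq_one (x := ⟨_, h1⟩) (liftT h H.two)).2 ⟨1, ?_⟩))
  rw [mul_add, (biT h H.two).1, mul_one, one_smul, add_comm]

theorem RV {v : Perm (Fin 4)} (hv : V v) : ∃ e ∈ fA b, P.R e v v := by
  rcases hv with rfl | rfl | rfl | rfl
  exacts [⟨1, one_mem _, R.one⟩, ⟨_, b_mem h H.two _ _, R0 H h⟩, ⟨_, b_mem h H.two _ _, R1 H h⟩,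
    ⟨_, b_mem h H.two _ _, R2 H h⟩]

theorem R.memA {v : Perm (Fin 4)} (hv : V v) (a : P.R g v v) : g ∈ fA b := by
  obtain ⟨e, he, c⟩ := RV (P := P) H h hv
  rcases a.eq H h c with rfl | rfl
  exacts [he, mul_mem he (b_mem h H.two _ _)]

theorem R.diag (a : P.R g α β) (hv : V (α⁻¹ * β)) : g ∈ normalizer (fA b : Set G) := by
  have := H.fin
  obtain ⟨k1, k2, k3, k4, k5, k6⟩ := l2 α β hv
  refine mem_N h H.two (R.memA H h k3 (k4 ▸ (a.mul (R0 H h)).mul a.inv))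
    (R.memA H h k5 (k6 ▸ (a.mul (R2 H h)).mul a.inv)) ?_ ?_
  · have := mul_mem (R.memA H h k1 (k2 ▸ a.mul (a.inv.swap H h))) (b_mem h H.two 3 4)
    rwa [show g * (b 3 4 * g⁻¹ * (b 3 4)⁻¹) * b 3 4 = g * b 3 4 * g⁻¹ by group] at this
  · rw [mem_centralizer_singleton_iff.1 (St_le (liftT h H.two) a.1), mul_inv_cancel_right]
    exact b_mem h H.two _ _

theorem R.ex_aux (a : P.R g α β) (e : V (α * c0⁻¹) ∧ V β) : ∃ r, P.R r c0 1 := by
  obtain ⟨v, hv, e1⟩ := l4 α β e.1 e.2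
  obtain ⟨y, -, hy⟩ := RV (P := P) H h hv
  obtain ⟨z, -, hz⟩ := RV (P := P) H h e.2
  have := (hy.mul (a.mul hz.inv)).mul hy.inv
  rw [e1, mul_inv_cancel, mul_one, mul_inv_cancel] at this
  exact ⟨_, this⟩

theorem R.ex_r (a : P.R g α β) : V (α⁻¹ * β) ∨ ∃ r, P.R r c0 1 := by
  have hx := Rx (P := P) H h
  have a' := a.swap H h
  rcases l3 α β with e | e | e | e | e
  · exact Or.inl e
  · exact Or.inr (((a.mul a'.inv).mul hx).inv.ex_aux H h e)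
  · exact Or.inr (((a'.mul a.inv).mul hx).inv.ex_aux H h e)
  · exact Or.inr ((((a.mul hx).mul a.inv).mul hx).inv.ex_aux H h e)
  · exact Or.inr ((((a'.mul hx).mul a'.inv).mul hx).inv.ex_aux H h e)

theorem R.shape {Y : Matrix ι ι k} (a : P.R g α 1) (c : P.R g' α β) (hY : C.L g' Y) :
    ∃ ν : k, C.L g (Am (𝐓) Y ν) := by
  obtain ⟨M, hM⟩ := C.ex g
  obtain ⟨x, hx⟩ := a.plus c hM hY
  obtain ⟨y, hy⟩ := a.minus H h hM
  have y0 : y ≠ 0 := by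
    rintro rfl
    rw [zero_smul, (unit hM).mul_right_eq_zero, sub_eq_add_neg] at hy
    exact add_ne C H.two (biT h H.two).neg hy
  refine ⟨y⁻¹ * x, ?_⟩
  have := C.smul hM (mul_ne_zero (inv_ne_zero y0) H.two)
  rwa [show (y⁻¹ * 2) • M = y⁻¹ • (M * (1 - 𝐓) + M * (1 + 𝐓)) by
    rw [← mul_add, sub_add_add_cancel, ← two_smul k, mul_smul_comm, mul_one, smul_smul],
    hx, hy, smul_add, smul_smul, smul_smul, inv_mul_cancel₀ y0, one_smul] at this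

omit P in
theorem biax {c ν : k} (c0 : c ≠ 0) (hg : C.L g (c • Am (𝐓) 1 ν)) : ν = -1 ∨ ν = 1 := by
  have := C.smul hg (inv_ne_zero c0)
  rw [smul_smul, inv_mul_cancel₀ c0, one_smul, Am_one] at this
  exact (H.biax (liftT h H.two) (biT h H.two) this).imp (fun e => by linear_combination e)
    fun e => by linear_combination e

omit P in
theorem cube (μ : k) : Am (𝐓) (𝐗) μ * Am (𝐓) (𝐗) μ * Am (𝐓) (𝐗) μ = (4 : k) • Am (𝐓) 1 (μ ^ 3) := by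
  have hT := (biT h H.two).1
  rw [Am_mul hT (cX h), smul_mul_assoc, Am_mul hT (cX h), X_cube h H.two, smul_smul]
  congr 2 <;> ring

theorem R.norm (a : P.R g c0 1) : ∃ (r : G) (μ : k), P.R r c0 1 ∧ μ ^ 3 = 1 ∧ C.L r (Am (𝐓) (𝐗) μ) := by
  obtain ⟨μ, hμ⟩ := a.shape H h (Rx H h) P.hx
  have := C.mul (C.mul hμ hμ) hμ
  rw [cube H h] at this
  rcases biax H h (Fx.four_ne H.two) this with e | e
  · refine ⟨g * b 4 5, -μ, by simpa using a.mul (Rt H h), by linear_combination -e, ?_⟩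
    rw [← Am_T (biT h H.two).1]
    exact neg (C.mul hμ (liftT h H.two))
  · exact ⟨g, μ, a, e, hμ⟩

theorem R.not_od {r : G} {μ : k} (a : P.R r c0 1) (h3 : μ ^ 3 = 1) (hr : C.L r (Am (𝐓) (𝐗) μ))
    (c : P.R g α β) (ho : Od α) : μ = 1 := by
  have hT := (biT h H.two).1
  obtain ⟨g, α, β, c, e⟩ : ∃ g α β, P.R g α β ∧ α * c0 * α⁻¹ = c0⁻¹ := by
    rcases ho with e | e | e | e
    exacts [⟨_, _, _, c, e⟩, ⟨_, _, _, (R0 H h).mul c, e⟩, ⟨_, _, _, (R1 H h).mul c, e⟩,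
      ⟨_, _, _, (R2 H h).mul c, e⟩]
  have a2 := (c.mul a).mul c.inv
  rw [e, mul_one, mul_inv_cancel] at a2
  obtain ⟨ν, hν⟩ := a2.shape H h (Rx H h).inv
    (inv_of_mul P.hx (N := (𝐗) * (𝐗)) (by rw [← mul_assoc, X_cube h H.two]))
  have k1 := C.mul hν hr
  rw [Am_mul hT (cX h), X_cube h H.two] at k1
  obtain ⟨M, hM⟩ := C.ex g
  obtain ⟨d, -, k2⟩ := C.uniq hν (conj hM hr)
  have k3 : M⁻¹ * (1 - 𝐓) = (1 - 𝐓) * M⁻¹ :=
    ((Commute.one_right _).sub_right (c.inv.1 _ (Cx.inv hM))).eq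
  have k4 : M * (1 - 𝐓) = (1 - 𝐓) * M := ((Commute.one_right _).sub_right (c.1 _ hM)).eq
  have k5 : d = 1 := by
    have := congrArg (· * (1 - 𝐓)) k2
    rw [smul_mul_assoc, Am_q hT, mul_assoc, k3, mul_assoc, ← mul_assoc (Am _ _ _), Am_q hT,
      smul_mul_assoc, mul_smul_comm, ← mul_assoc, k4, mul_assoc, mul_inv hM, mul_one, smul_comm,
      ← sub_eq_zero, ← smul_sub, smul_eq_zero, ← one_smul k (1 - 𝐓), smul_smul, mul_one,
      ← sub_smul, smul_eq_zero, sub_eq_add_neg 1 (𝐓)] at this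
    exact (sub_eq_zero.1 ((this.resolve_left H.two).resolve_right
      (add_ne C H.two (biT h H.two).neg))).symm
  have k6 : μ = ν := by
    have := congrArg trace k2
    rw [k5, one_smul, trace_mul_cycle, inv_mul hM, one_mul, Am, Am, trace_add, trace_add,
      trace_smul, trace_smul, X_sq h H.two, sub_mul, neg_one_mul, trace_sub (-(1 + 𝐓)), trace_neg,
      tr_p h H.two, tr_Xp h H.two, smul_eq_mul, smul_eq_mul] at this
    exact mul_left_cancel₀ H.two (by linear_combination -this)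
  subst k6
  rcases biax H h H.two k1 with e | e
  · exact absurd (by linear_combination (μ ^ 4 - μ ^ 2 + 1) * e - (μ ^ 3 + 1) * h3) H.two
  · linear_combination h3 - μ * e

end Ph

end H28.R4.CAx
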