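import Cfsg.Agent.Lib.R4.CA3

/-! The centraliser of a frame involution: the three positions. -/

set_option autoImplicit false
set_option linter.unusedSectionVars false

namespace H28.R4.CAx

open Matrix Subgroup Cfsg Cx Equiv

variable {G k ι : Type*} [Group G] [Field k] [Fintype ι] [DecidableEq ι] {C : Cx G k ι} {p : ℕ}
  {γ : Fin 6 → Fin 6 → Matrix ι ι k} {b : Fin 6 → Fin 6 → G}

local notation "𝐓" => γ 0 1 * γ 2 3
local notation "𝐯" => γ 0 1 + γ 1 2 + γ 2 0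
local notation "𝐗" => (-(2 : k)⁻¹) • (1 + γ 0 1 + γ 1 2 + γ 2 0)

theorem ord6 {Y : Type*} [Group Y] {a c : Y} (ha : a * a = 1) (hc : c ^ 3 = 1) (e : Commute a c)
    (a1 : a ≠ 1) (c1 : c ≠ 1) : orderOf (a * c) = 2 * 3 ∧ (a * c) ^ 3 = a := by
  have : Fact (Nat.Prime 3) := ⟨Nat.prime_three⟩
  have h2 : orderOf a = 2 := orderOf_eq_prime (by rw [sq, ha]) a1
  have h3 : orderOf c = 3 := orderOf_eq_prime hc c1
  refine ⟨by rw [e.orderOf_mul_eq_mul_orderOf_of_coprime (by rw [h2, h3]; norm_num), h2, h3], ?_⟩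
  rw [e.mul_pow, hc, mul_one, pow_succ, sq, ha, one_mul]

variable (H : C.Hy p) (h : C.FG γ b)
include H h

theorem cX' {i j : Fin 6} (e0 : [i, j, 0, 1].Nodup) (e1 : [i, j, 1, 2].Nodup)
    (e2 : [i, j, 2, 0].Nodup) : Commute (γ i j) 𝐗 :=
  ((((Commute.one_right _).add_right (cm h.toFr e0)).add_right (cm h.toFr e1)).add_right
    (cm h.toFr e2)).smul_right _

theorem char3 (P : Ph C γ b) (h3 : (3 : k) = 0) {r : G} (hr : C.L r (Am (𝐓) (𝐗) 1)) : False := by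
  have h2 := H.two
  have hT := (biT h h2).1
  obtain ⟨D, hD⟩ : ∃ D, D = (𝐗) - 1 := ⟨_, rfl⟩
  have d1 : D * D = 0 := by
    have : D * D = -((3 : k) • (𝐗)) := by
      rw [hD, sub_mul, mul_sub, X_sq h h2, one_mul, mul_one]; module
    rw [this, h3, zero_smul, neg_zero]
  have d2 : Commute D 𝐓 := hD ▸ (cX h).sub_left (Commute.one_left _)
  have d3 : Commute (γ 3 4) D :=
    hD ▸ (cX' H h (by decide) (by decide) (by decide)).sub_right (Commute.one_right _)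
  have d4 : ∀ {U W : Matrix ι ι k}, Commute D U → (2 : k)⁻¹ • (D * U) * (2 : k)⁻¹ • (D * W) = 0 :=
    fun {U W} e => by
      rw [smul_mul_assoc, mul_smul_comm, mul_assoc, ← mul_assoc U, ← e.eq, ← mul_assoc, ← mul_assoc,
        d1]; simp
  have cp := (Commute.one_right D).add_right d2
  have cq := (Commute.one_right D).sub_right d2
  have e1 : γ 3 4 * (D * (1 - 𝐓)) = D * (1 + 𝐓) * γ 3 4 := by
    rw [← mul_assoc, d3.eq, mul_assoc, (anT h).flip, mul_assoc]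
  have e2 : γ 4 3 * (D * (1 + 𝐓)) * γ 3 4 = D * (1 - 𝐓) := by
    rw [mul_assoc, ← e1, ← mul_assoc, h.inv, one_mul]
  have l1 : C.L r (1 + (2 : k)⁻¹ • (D * (1 + 𝐓))) := by
    have := C.smul hr (inv_ne_zero h2)
    rwa [Am, one_smul, show (𝐗) = D + 1 by rw [hD, sub_add_cancel], add_mul, one_mul, add_comm (D * _),
      ← add_assoc, sub_add_add_cancel, smul_add, ← two_smul k, smul_smul, inv_mul_cancel₀ h2,
      one_smul] at this
  have l2 := C.mul (C.mul (h.lift 4 3) l1) (h.lift 3 4)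
  rw [mul_add, add_mul, mul_one, h.inv, mul_smul_comm, smul_mul_assoc, e2] at l2
  have k0 : D * (1 + 𝐓) ≠ 0 := fun e => c0_ne ((Ph.Rx (P := P) H h).eq_one P.hx (c := 1) (by
    rw [hD, sub_mul, sub_eq_zero] at e; rw [e, one_mul, one_smul]))
  have k1 : ∀ c : k, c ≠ 0 → D * (1 - 𝐓) ≠ c • (D * (1 + 𝐓)) := fun c c0 e => by
    have := congrArg (· * (1 + 𝐓)) e
    rw [mul_assoc, qp hT, mul_zero, smul_mul_assoc, mul_assoc, pp hT, mul_smul_comm, smul_smul,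
      eq_comm, smul_eq_zero] at this
    exact this.elim (mul_ne_zero c0 h2) k0
  rcases H.q3 _ _ _ _ l1 l2 (d4 cp) (d4 cq) (d4 cp) (d4 cq) with e | e | e | e
  · exact k0 ((smul_eq_zero.1 e).resolve_left (inv_ne_zero h2))
  · rw [(smul_eq_zero.1 e).resolve_left (inv_ne_zero h2), mul_zero, eq_comm,
      (unit (h.lift 3 4)).mul_left_eq_zero] at e1
    exact k0 e1
  · exact k1 1 one_ne_zero (by rw [one_smul]; exact smul_right_injective _ (inv_ne_zero h2) e)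
  · exact k1 (-1) (neg_ne_zero.2 one_ne_zero) (by
      rw [neg_one_smul]; exact smul_right_injective _ (inv_ne_zero h2) (e.trans (smul_neg _ _).symm))

theorem biS {d : k} (h3 : (3 : k) ≠ 0) (hd : d * d = -3) : Bi (d⁻¹ • (𝐯)) := by
  have d0 : d ≠ 0 := by rintro rfl; exact h3 (by linear_combination hd)
  refine ⟨?_, by rw [trace_smul, tr_v h H.two, smul_zero]⟩
  rw [smul_mul_assoc, mul_smul_comm, v_sq h, smul_smul, smul_smul, ← hd,
    show d⁻¹ * d⁻¹ * (d * d) = 1 by field_simp, one_smul]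

theorem nsc_Am {d : k} (h3 : (3 : k) ≠ 0) (hd : d * d = -3) {c : k}
    (e : Am (𝐓) (𝐗) 1 * (1 + d⁻¹ • (𝐯)) = c • (1 + d⁻¹ • (𝐯))) : False := by
  have h2 := H.two
  have d0 : d ≠ 0 := by rintro rfl; exact h3 (by linear_combination hd)
  have hS := biS H h h3 hd
  have c1 : Commute (𝐓) (d⁻¹ • (𝐯)) := (cv h).symm.smul_right _
  have c2 : Commute (γ 3 4) (d⁻¹ • (𝐯)) := (cv' h (by decide) (by decide) (by decide)).smul_right _
  have e0 : (𝐗) = (-(2 : k)⁻¹) • (1 + d • d⁻¹ • (𝐯)) := by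
    rw [smul_smul, mul_inv_cancel₀ d0, one_smul, add_assoc, add_assoc, add_assoc]
  generalize d⁻¹ • (𝐯) = S at hS c1 c2 e e0
  have e1 : (𝐗) * (1 + S) = (-(2 : k)⁻¹ * (1 + d)) • (1 + S) := by
    rw [e0, smul_mul_assoc, add_mul, smul_mul_assoc, mul_add S, hS.1, one_mul, mul_one]; module
  rw [Am, one_smul, ((Commute.one_right _).add_right (cX h)).eq, add_mul, mul_assoc, e1,
    mul_smul_comm, sub_mul, add_mul, one_mul] at e
  have w : (-(2 : k)⁻¹ * (1 + d)) - 1 ≠ 0 := fun w => by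
    have : d = -3 := by field_simp at w; linear_combination -w
    subst this
    exact mul_ne_zero (Fx.four_ne h2) h3 (by linear_combination hd)
  generalize -(2 : k)⁻¹ * (1 + d) = ω at e w
  refine nsc C h2 hS (unit (liftT h h2)) (unit (h.lift 3 4)) c2 (anT h)
    (c := (ω - 1)⁻¹ * (c - 1 - ω)) ?_
  rw [mul_smul, eq_inv_smul_iff₀ w, sub_smul (c - 1), sub_smul c, ← e]
  module

theorem mu_ne (h3 : (3 : k) ≠ 0) (hB : swap 0 1 * swap 3 4 ∈ fB b) {r : G}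
    (hr : C.L r (Am (𝐓) (𝐗) 1)) : False := by
  have h2 := H.two
  have := H.closed
  have := H.fin
  have hT := (biT h h2).1
  obtain ⟨d, hd⟩ := IsAlgClosed.exists_eq_mul_self (-3 : k)
  have hS := biS H h h3 hd.symm
  obtain ⟨t1, t2⟩ := h.dbl h2 (show [0, 1, 3, 4].Nodup by decide)
  generalize γ 0 3 - γ 0 4 - γ 1 3 + γ 1 4 = M at t1 t2
  have hM : IsUnit M := by
    refine IsUnit.of_mul_eq_one ((-4 : k)⁻¹ • M) ?_
    rw [mul_smul_comm, t1, smul_smul, inv_mul_cancel₀ (neg_ne_zero.2 (Fx.four_ne h2)), one_smul]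
  obtain ⟨n, hn, ind⟩ := h.of_matrix h2 hB hM fun i j => ⟨1, by rw [one_smul, t2]⟩
  have a1 : An M (d⁻¹ • (𝐯)) := An.smul (by
    unfold An
    rw [mul_add, mul_add, t2, t2, t2, ← add_mul, ← add_mul, ← neg_mul]
    congr 1
    show γ 1 0 + γ 0 2 + γ 2 1 = _
    rw [h.anti 0 1 (by decide), h.anti 2 0 (by decide), h.anti 1 2 (by decide)]
    abel) _
  have cS : ∀ {i j : Fin 6}, [i, j, 0, 1].Nodup → [i, j, 1, 2].Nodup → [i, j, 2, 0].Nodup →
      Commute (γ i j) (d⁻¹ • (𝐯)) := fun e0 e1 e2 => (cv' h e0 e1 e2).smul_right _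
  have cA : Commute (Am (𝐓) (𝐗) 1) (d⁻¹ • (𝐯)) := by
    have c1 : Commute (𝐓) (𝐯) := (cv h).symm
    have c2 : Commute (𝐗) (𝐯) := by
      rw [add_assoc, add_assoc, ← add_assoc (γ 0 1)]
      exact ((Commute.one_left _).add_left (Commute.refl _)).smul_left _
    exact (((Commute.one_left _).sub_left c1).add_left
      ((c2.mul_left ((Commute.one_left _).add_left c1)).smul_left _)).smul_right _
  have cT : Commute (Am (𝐓) (𝐗) 1) 𝐓 := ((Commute.one_left _).sub_left (Commute.refl _)).add_left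
    (((cX h).mul_left ((Commute.one_left _).add_left (Commute.refl _))).smul_left _)
  have r3 : r ^ 3 = 1 := by
    have := C.mul (C.mul hr hr) hr
    rw [Ph.cube H h, Am_one, one_pow, sub_self, zero_smul, add_zero, smul_smul] at this
    rw [pow_succ, sq]
    exact (eq_one_iff this).2 ⟨_, rfl⟩
  have rt : b 4 5 * r = r * b 4 5 :=
    (mem_centralizer_singleton_iff.1 (St_le (liftT h h2) ((mem_St hr).2 cT))).symm
  have nA := @nsc_Am _ _ _ _ _ _ _ _ _ _ _ H h (-d) h3 (by rw [neg_mul_neg, hd])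
  rw [inv_neg, neg_smul d⁻¹, ← sub_eq_add_neg] at nA
  have pA := @nsc_Am _ _ _ _ _ _ _ _ _ _ _ H h d h3 hd.symm
  generalize d⁻¹ • (𝐯) = S at hS a1 cS cA nA pA
  have m1 : b 4 5 ∈ C.St S := (mem_St (h.lift 4 5)).2 (cS (by decide) (by decide) (by decide))
  have m2 : b 3 5 ∈ C.St S := (mem_St (h.lift 3 5)).2 (cS (by decide) (by decide) (by decide))
  have m3 : r ∈ C.St S := (mem_St hr).2 cA
  have a2 : An M⁻¹ S := by
    unfold An at a1 ⊢
    rw [← mul_one (M⁻¹ * S), ← mul_inv hn, ← mul_assoc, mul_assoc M⁻¹, ← neg_neg (S * M), ← a1,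
      mul_neg, ← mul_assoc, inv_mul hn, one_mul, neg_mul]
  have m4 : n * r * n⁻¹ ∈ C.St S :=
    mul_mem_St (C.mul hn hr) (Cx.inv hn) (An.mul_c a1.symm cA.symm).symm a2
  have ne : ∀ {i j l : Fin 6} (m : b i j ∈ C.St S), Commute (γ 3 l) S → Ov 3 l i j →
      C.chi S ⟨b i j, m⟩ ≠ 1 := fun {i j l} m c o e => by
    obtain ⟨c', hc⟩ := (chi_eq_one (x := ⟨_, m⟩) (h.lift i j)).1 e
    exact nsc C h2 hS (unit (h.lift i j)) (unit (h.lift 3 l)) c (an h.toFr o) hc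
  have sq : ∀ {i j : Fin 6} (m : b i j ∈ C.St S), C.chi S ⟨b i j, m⟩ * C.chi S ⟨b i j, m⟩ = 1 :=
    fun {i j} m => by
      rw [← map_mul, ← map_one (C.chi S)]; exact congrArg _ (Subtype.ext (h.mul_self h2 i j))
  have c34 := cS (i := 3) (j := 4) (by decide) (by decide) (by decide)
  obtain ⟨o1, p1⟩ := ord6 (sq m1) (c := C.chi S ⟨r, m3⟩)
    (by rw [← map_pow, ← map_one (C.chi S)]; exact congrArg _ (Subtype.ext r3))
    (Commute.map (Subtype.ext rt) _) (ne m1 c34 (by decide)) fun e => by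
      obtain ⟨c, hc⟩ := (chi_eq_one (x := ⟨_, m3⟩) hr).1 e
      exact pA hc
  obtain ⟨o2, p2⟩ := ord6 (sq m2) (c := C.chi S ⟨_, m4⟩)
    (by
      rw [← map_pow, ← map_one (C.chi S)]
      exact congrArg _ (Subtype.ext (by simp [conj_pow, r3])))
    (Commute.map (Subtype.ext (by
      show b 3 5 * (n * r * n⁻¹) = n * r * n⁻¹ * b 3 5
      rw [← show n * b 4 5 * n⁻¹ = b 3 5 from ind 4 5]
      calc n * b 4 5 * n⁻¹ * (n * r * n⁻¹) = n * (b 4 5 * r) * n⁻¹ := by group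
        _ = _ := by rw [rt]; group)) _) (ne m2 c34 (by decide)) fun e => by
      obtain ⟨c, hc⟩ := (chi_eq_one (x := ⟨_, m4⟩) (conj hn hr)).1 e
      exact nA ((flip a1 (mul_inv hn) (inv_mul hn)).1 hc)
  have key := (H.tame hS).l6 le_rfl le_rfl o1 o2
  rw [p1, p2] at key
  have m5 : b 3 4 ∈ C.St S := (mem_St (h.lift 3 4)).2 c34
  refine ne m5 (cS (i := 3) (j := 5) (by decide) (by decide) (by decide)) (by decide) ?_
  rw [← sq m1]
  nth_rewrite 1 [key]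
  rw [← map_mul]
  exact congrArg _ (Subtype.ext
    (show b 3 4 = b 3 5 * b 4 5 by rw [← h.mul' h2 3 5 4, h.symm h2 4 5]))

theorem St_or {g : G} (hg : g * b 4 5 = b 4 5 * g) : g ∈ C.St 𝐓 ∨ b 3 4 * g ∈ C.St 𝐓 := by
  obtain ⟨M, hM⟩ := C.ex g
  exact (comm_cases H.two (liftT h H.two) (biT h H.two).1 hM hg).imp (mem_St hM).2
    (mul_mem_St (h.lift 3 4) hM (anT h))

theorem dich (P : Ph C γ b) :
    (∀ g, g * b 4 5 = b 4 5 * g → g ∈ normalizer (fA b : Set G)) ∨ ∃ r, P.R r c0 1 := by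
  refine or_iff_not_imp_right.2 fun hn g hg => ?_
  have key : ∀ g ∈ C.St 𝐓, g ∈ normalizer (fA b : Set G) := fun g hg => by
    obtain ⟨α, β, a⟩ := Ph.R.ex (P := P) H h hg
    exact a.diag H h ((a.ex_r H h).resolve_right hn)
  rcases St_or H h hg with e | e
  · exact key g e
  · exact (mul_mem_cancel_left (le_normalizer (b_mem h H.two 3 4))).1 (key _ e)

theorem ca_fix (hS : SolC G) (h3 : swap 0 1 * swap 0 2 ∈ fB b)
    (hB : ∀ σ ∈ fB b, σ 3 = 3 ∧ Perm.sign σ = 1) (g : G) (hg : g * b 4 5 = b 4 5 * g) :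
    g ∈ normalizer (fA b : Set G) := by
  have h2 := H.two
  obtain ⟨P⟩ := exists_ph H hS h h3
  refine (dich H h P).resolve_right (fun ⟨r, a⟩ => ?_) g hg
  have q := ((a.mul (Ph.R0 H h)).mul a.inv).mul (Ph.R0 H h).inv
  rw [c0_u0, u1_u0, one_mul, inv_one, mul_one, mul_inv_cancel] at q
  generalize r * b 0 1 * r⁻¹ * (b 0 1)⁻¹ = y at q
  obtain ⟨σ, ind⟩ := (h.mem_norm h2).1 (q.diag H h l7.1)
  have k1 := (q.mul (Ph.R0 H h)).mul q.inv
  have k2 := (q.mul (Ph.R2 H h)).mul q.inv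
  rw [l7.2.1, one_mul, inv_one, mul_one, ind] at k1
  rw [l7.2.2, one_mul, inv_one, mul_one, ind] at k2
  have k3 := k1.eq H h (Ph.R0 H h)
  have k4 := k2.eq H h (Ph.R2 H h)
  rw [h.triple h2 (show [0, 1, 4, 5, 2, 3].Nodup by decide), h.eq_iff h2 (by simp),
    h.eq_iff h2 (by simp)] at k3
  rw [h.triple h2 (show [1, 2, 4, 5, 0, 3].Nodup by decide), h.eq_iff h2 (by simp),
    h.eq_iff h2 (by simp)] at k4
  obtain rfl := mq σ (hB σ ⟨y, ind⟩).1 k3 k4 (hB σ ⟨y, ind⟩).2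
  have k5 := q.swap H h
  obtain ⟨i, j, rfl⟩ := (h.mem_fA h2).1 ((h.ind_one h2).1 ind)
  rw [h.comm h2, mul_inv_cancel_right] at k5
  exact u2_ne (q.uniq k5).1

theorem ca_main (hS : SolC G) (h3 : swap 0 1 * swap 0 2 ∈ fB b) (hB : swap 0 1 * swap 3 4 ∈ fB b) :
    (∀ g, g * b 4 5 = b 4 5 * g → g ∈ normalizer (fA b : Set G)) ∨
    (swap 0 1 * swap 4 5 ∉ fB b ∧ ∃ (r : G) (μ : k), μ ^ 2 + μ + 1 = 0 ∧ (3 : k) ≠ 0 ∧
      C.L r (Am (𝐓) (𝐗) μ) ∧
      ∀ g ∈ centralizer ({b 4 5} : Set G), ∃ i : ℕ, g * r ^ i ∈ normalizer (fA b : Set G)) := by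
  have h2 := H.two
  obtain ⟨P⟩ := exists_ph H hS h h3
  refine (dich H h P).imp_right fun ⟨r, a⟩ => ?_
  obtain ⟨r, μ, a, m3, hr⟩ := a.norm H h
  have m1 : μ ≠ 1 := by
    rintro rfl
    exact mu_ne H h (fun e => char3 H h P e hr) hB hr
  have m2 : μ ^ 2 + μ + 1 = 0 :=
    mul_left_cancel₀ (sub_ne_zero.2 m1) (by linear_combination m3)
  have no : ∀ {g α β}, P.R g α β → ¬ Od α := fun c o => m1 (a.not_od H h m3 hr c o)
  refine ⟨fun ⟨n, ind⟩ => ?_, r, μ, m2, fun e => m1 ?_, hr, fun g hg => ?_⟩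
  · have key : ∀ g ∈ C.St 𝐓, g * b 0 1 * g⁻¹ = b 0 1 → g * b 2 0 * g⁻¹ = b 1 2 → False :=
      fun g hg e1 e2 => by
        obtain ⟨α, β, c⟩ := Ph.R.ex (P := P) H h hg
        exact no c (l6 α ((e1 ▸ (c.mul (Ph.R0 H h)).mul c.inv).uniq (Ph.R0 H h)).1
          ((e2 ▸ (c.mul (Ph.R1 H h)).mul c.inv).uniq (Ph.R2 H h)).1)
    have e1 : n * b 0 1 * n⁻¹ = b 0 1 := (ind 0 1).trans (h.symm h2 0 1)
    have e2 : n * b 2 0 * n⁻¹ = b 1 2 := (ind 2 0).trans (h.symm h2 1 2)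
    rcases St_or H h (mul_inv_eq_iff_eq_mul.1 ((ind 4 5).trans (h.symm h2 4 5))) with e | e
    · exact key n e e1 e2
    · refine key _ e ?_ ?_
      · rw [_root_.mul_inv_rev, ← mul_assoc, mul_assoc (b 3 4), mul_assoc (b 3 4), e1, h.comm h2,
          mul_inv_cancel_right]
      · rw [_root_.mul_inv_rev, ← mul_assoc, mul_assoc (b 3 4), mul_assoc (b 3 4), e2, h.comm h2,
          mul_inv_cancel_right]
  · exact sub_eq_zero.1 (pow_eq_zero_iff two_ne_zero |>.1 (by linear_combination m2 - μ * e))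
  · have key : ∀ g ∈ C.St 𝐓, ∃ i : ℕ, g * r ^ i ∈ normalizer (fA b : Set G) := fun g hg => by
      obtain ⟨α, β, c⟩ := Ph.R.ex (P := P) H h hg
      have k : ∀ i : ℕ, V ((α * c0 ^ i)⁻¹ * β) → g * r ^ i ∈ normalizer (fA b : Set G) :=
        fun i e => (c.mul (a.pow i)).diag H h (by rwa [one_pow, mul_one])
      rcases l5 α β with e | e | e | e | e
      exacts [absurd e (no c), absurd e (no (c.swap H h)), ⟨0, k 0 e⟩, ⟨1, k 1 e⟩, ⟨2, k 2 e⟩]
    rcases St_or H h (mem_centralizer_singleton_iff.1 hg) with e | e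
    · exact key g e
    · obtain ⟨i, hi⟩ := key _ e
      rw [mul_assoc] at hi
      exact ⟨i, (mul_mem_cancel_left (le_normalizer (b_mem h H.two 3 4))).1 hi⟩

end H28.R4.CAx
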