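import Cfsg.Agent.Lib.R4.CA2
import Cfsg.Agent.Lib.Invol.Dihedral

/-! A frame group which is strongly closed in its normaliser, and whose involutions have their
centralisers in the normaliser, does not occur. -/

set_option autoImplicit false
set_option linter.unusedSectionVars false

namespace H28.R4.CAx

open Matrix Subgroup Cfsg Cx Equiv

variable {G k ι : Type*} [Group G] [Field k] [Fintype ι] [DecidableEq ι] {C : Cx G k ι} {p : ℕ}
  {γ : Fin 6 → Fin 6 → Matrix ι ι k} {b : Fin 6 → Fin 6 → G}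

local notation "𝐀" => fA b
local notation "𝐍" => normalizer (fA b : Set G)

theorem card_le_of_list (E : Subgroup G) (l : List G) (h : ∀ x ∈ E, x ∈ l) :
    Nat.card E ≤ l.length := by
  classical
  calc Nat.card E = (E : Set G).ncard := rfl
    _ ≤ (l.toFinset : Set G).ncard := Set.ncard_le_ncard (fun x hx => by simpa using h x hx)
    _ ≤ _ := by rw [Set.ncard_coe_finset]; exact l.toFinset_card_le

/-- the preimage under conjugation -/
abbrev cmp (K : Subgroup G) (g : G) : Subgroup G := K.comap (MulAut.conj g).toMonoidHom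

theorem card_cmp (K : Subgroup G) (g : G) : Nat.card (cmp K g) = Nat.card K := by
  rw [cmp, comap_equiv_eq_map_symm']
  exact card_map_of_injective (MulAut.conj g).symm.injective

theorem dih {x y : G} (hx : x * x = 1) (hy : y * y = 1) (n : ℕ) :
    (∃ c, c * x * c⁻¹ = (x * y) ^ n * x) ∨ ∃ c, c * y * c⁻¹ = (x * y) ^ n * x := by
  obtain ⟨j, rfl | rfl⟩ := Nat.even_or_odd' n
  · refine Or.inl ⟨(x * y) ^ (j : ℤ), ?_⟩
    rw [H9.zpow_conj_left hx hy, ← zpow_natCast]; simp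
  · refine Or.inr ⟨(x * y) ^ (j + 1 : ℤ), ?_⟩
    rw [← _root_.zpow_neg, mul_assoc, H9.right_mul_zpow hx hy, neg_neg, ← mul_assoc, ← _root_.zpow_add]
    nth_rewrite 2 [H9.right_eq hx hy]
    rw [← mul_assoc, ← _root_.zpow_add, ← zpow_natCast]
    congr 2; push_cast; ring

section
variable (h : C.FG γ b) (h2 : (2 : k) ≠ 0) {g w : G} {σ τ : Perm (Fin 6)}
include h h2

theorem commA {a a' : G} (ha : a ∈ 𝐀) (ha' : a' ∈ 𝐀) : a * a' = a' * a := by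
  obtain ⟨i, j, rfl⟩ := (h.mem_fA h2).1 ha
  obtain ⟨l, m, rfl⟩ := (h.mem_fA h2).1 ha'
  exact h.comm h2 ..

theorem sqA {a : G} (ha : a ∈ 𝐀) : a * a = 1 := by
  obtain ⟨i, j, rfl⟩ := (h.mem_fA h2).1 ha
  exact h.mul_self h2 ..

theorem indA {a : G} (ha : a ∈ 𝐀) : Ind b a 1 := (h.ind_one h2).2 ha

theorem ind_eq_one (a : Ind b g σ) (e : g = 1) : σ = 1 :=
  h.ind_unique h2 a (indA h h2 (e ▸ one_mem _))

theorem ind_comm (a : Ind b g σ) (c : Ind b w τ) (e : g * w = w * g) : σ * τ = τ * σ :=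
  h.ind_unique h2 (a.mul c) (e ▸ c.mul a)

theorem ind_fix (a : Ind b g σ) {i j : Fin 6} (hij : i ≠ j) (e : g * b i j = b i j * g) :
    De (σ i) (σ j) i j := by
  rw [← mul_inv_eq_iff_eq_mul, a] at e
  exact (h.eq_iff h2 (σ.injective.ne hij)).1 e

theorem ind_div (a : Ind b g σ) (c : Ind b w σ) : g⁻¹ * w ∈ 𝐀 :=
  (h.ind_one h2).1 (inv_mul_cancel σ ▸ a.inv.mul c)

theorem eq_of_De {i j l m : Fin 6} (e : De i j l m) : b i j = b l m := by
  rcases e with ⟨rfl, rfl⟩ | ⟨rfl, rfl⟩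
  exacts [rfl, h.symm h2 ..]

theorem fixU (c : Ind b w om) {a : G} (ha : a ∈ 𝐀) (e : w * a = a * w) :
    a = 1 ∨ a = b 0 1 ∨ a = b 2 3 ∨ a = b 4 5 := by
  obtain ⟨i, j, rfl⟩ := (h.mem_fA h2).1 ha
  by_cases hij : i = j
  · exact Or.inl (hij ▸ h.self' h2 i)
  · exact Or.inr (((fix_om i j (ind_fix h h2 c hij e)).resolve_left hij).imp (eq_of_De h h2)
      (Or.imp (eq_of_De h h2) (eq_of_De h h2)))

theorem div_comm (a : Ind b g σ) (c : Ind b w σ) (hg : g * g = 1) (hw : w * w = 1) :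
    g * (g⁻¹ * w) = g⁻¹ * w * g := by
  have := sqA h h2 (ind_div h h2 a c)
  rw [inv_eq_of_mul_eq_one_right hg] at this ⊢
  rw [← mul_assoc, hg, one_mul, ← mul_left_inj w, hw, ← this, mul_assoc (g * w)]

theorem to_om (hc : ∀ σ ∈ fB b, σ * σ = 1 → σ ≠ 1 → ∃ τ ∈ fB b, σ * τ = τ * om) (hw : w ∈ 𝐍)
    (hA : w ∉ 𝐀) (hw2 : w * w = 1) : ∃ n ∈ 𝐍, Ind b (n⁻¹ * w * n) om := by
  obtain ⟨σ, a⟩ := (h.mem_norm h2).1 hw
  obtain ⟨τ, ⟨n, c⟩, e⟩ := hc σ ⟨w, a⟩ (ind_eq_one h h2 (a.mul a) hw2) fun e =>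
    hA ((h.ind_one h2).1 (e ▸ a))
  refine ⟨n, (h.mem_norm h2).2 ⟨τ, c⟩, ?_⟩
  have := (c.inv.mul a).mul c
  rwa [mul_assoc τ⁻¹, e, inv_mul_cancel_left] at this

theorem om_lift (c : Ind b w om) (hw : w * w = 1) {W : Matrix ι ι k} (hW : C.L w W) :
    An W (γ 0 1) ∧ Commute W (γ 0 1 * γ 2 3) := by
  obtain ⟨ε, he, e⟩ := h.ind_sign h2 c hW
  obtain ⟨x, hx⟩ := (eq_one_iff (C.mul hW hW)).1 hw
  have sq : ∀ i, ε i * ε i = 1 := fun i => by rcases he i with e | e <;> simp [e]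
  have key : ∀ i j : Fin 6, om i = j → om j = i → i ≠ j → An W (γ i j) := fun i j e1 e2 hij => by
    have k1 := e i 4
    have k2 := e j 4
    rw [e1, show om 4 = 4 from rfl] at k1
    rw [e2, show om 4 = 4 from rfl] at k2
    have k3 : W * W * γ i 4 = (ε i * ε j) • (γ i 4 * (W * W)) := by
      rw [mul_assoc, k1, mul_smul_comm, ← mul_assoc, k2, smul_mul_assoc, smul_smul, mul_assoc (γ i 4)]
      congr 1
      linear_combination (ε i * ε j) * sq 4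
    rw [hx, smul_mul_assoc, mul_smul_comm, one_mul, mul_one, ← sub_eq_zero,
      ← one_smul k (x • γ i 4), smul_smul (ε i * ε j), mul_one, ← sub_smul, smul_eq_zero] at k3
    have k4 : ε i * ε j = 1 := (sub_eq_zero.1 (k3.resolve_right
      (ne_zero (C.smul (h.lift i 4) fun x0 => ne_zero (C.mul hW hW) (by rw [hx, x0, zero_smul]))))).symm
    unfold An
    rw [e, k4, one_smul, e1, e2, h.anti i j hij, neg_mul]
  exact ⟨key 0 1 rfl rfl (by decide), (key 0 1 rfl rfl (by decide)).mul (key 2 3 rfl rfl (by decide))⟩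

theorem exists_dbl {i j l m : Fin 6} (e : [i, j, l, m].Nodup) (hB : swap i j * swap l m ∈ fB b) :
    ∃ w, C.L w (γ i l - γ i m - γ j l + γ j m) ∧ Ind b w (swap i j * swap l m) ∧ w * w = 1 := by
  obtain ⟨t1, t2⟩ := h.dbl h2 e
  generalize γ i l - γ i m - γ j l + γ j m = M at t1 t2
  have hM : IsUnit M := by
    refine IsUnit.of_mul_eq_one ((-4 : k)⁻¹ • M) ?_
    rw [mul_smul_comm, t1, smul_smul, inv_mul_cancel₀ (neg_ne_zero.2 (Fx.four_ne h2)), one_smul]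
  obtain ⟨n, hn, ind⟩ := h.of_matrix h2 hB hM fun i j => ⟨1, by rw [one_smul, t2]⟩
  exact ⟨n, hn, ind, (eq_one_iff (C.mul hn hn)).2 ⟨_, t1⟩⟩

end

theorem conjA {n a : G} (hn : n ∈ 𝐍) (ha : a ∈ 𝐀) : n * a * n⁻¹ ∈ 𝐀 := (mem_normalizer_iff.1 hn a).1 ha

theorem fin (H : C.Hy p) (h : C.FG γ b) (hom : om ∈ fB b)
    (hc : ∀ σ ∈ fB b, σ * σ = 1 → σ ≠ 1 → ∃ τ ∈ fB b, σ * τ = τ * om)
    (CA : ∀ a ∈ 𝐀, a ≠ 1 → ∀ g, g * a = a * g → g ∈ 𝐍)
    (SC : ∀ a ∈ 𝐀, ∀ g, g * a * g⁻¹ ∈ 𝐍 → g * a * g⁻¹ ∈ 𝐀) : False := by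
  have := H.fin
  have h2 := H.two
  have F0 : ∀ a ∈ 𝐀, a ≠ 1 → ∀ g, g * a * g⁻¹ ∈ 𝐀 → g ∈ 𝐍 := fun a ha a1 g hg =>
    mem_normalizer_fintype fun x hx => SC x hx g (CA _ hg (by simpa using a1) _ (by
      calc g * x * g⁻¹ * (g * a * g⁻¹) = g * (x * a) * g⁻¹ := by group
        _ = _ := by rw [commA h h2 hx ha]; group))
  have F2 : ∀ a ∈ 𝐀, a ≠ 1 → ∀ a' ∈ 𝐀, a' ≠ 1 → ∀ g, g ∉ 𝐍 → Odd (orderOf (a * (g * a' * g⁻¹))) := by
    intro a ha a1 a' ha' a1' g hg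
    rw [← Nat.not_even_iff_odd]
    intro he
    have s1 := sqA h h2 ha
    have s2 : g * a' * g⁻¹ * (g * a' * g⁻¹) = 1 := by
      rw [show g * a' * g⁻¹ * (g * a' * g⁻¹) = g * (a' * a') * g⁻¹ by group, sqA h h2 ha']; simp
    obtain ⟨c1, c2⟩ := H9.pow_half_commute s1 s2 he
    have o := H9.orderOf_pow_half he
    have d1 := dih s1 s2 (orderOf (a * (g * a' * g⁻¹)) / 2)
    have d2 := dih s2 s1 (orderOf (a * (g * a' * g⁻¹)) / 2)
    rw [show g * a' * g⁻¹ * a = (a * (g * a' * g⁻¹))⁻¹ by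
      rw [_root_.mul_inv_rev, inv_eq_of_mul_eq_one_right s1, inv_eq_of_mul_eq_one_right s2],
      inv_pow, H9.inv_eq_of_orderOf_two o] at d2
    generalize (a * (g * a' * g⁻¹)) ^ (orderOf (a * (g * a' * g⁻¹)) / 2) = z at c1 c2 o d1 d2
    have k1 : z * a ∈ 𝐍 := CA a ha a1 _ (c1.mul_left (Commute.refl a))
    have k2 : z * a ∈ 𝐀 := by
      rcases d1 with ⟨c, e⟩ | ⟨c, e⟩
      · exact e ▸ SC a ha c (e ▸ k1)
      · have e' : c * g * a' * (c * g)⁻¹ = z * a := by rw [← e]; group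
        exact e' ▸ SC a' ha' _ (e' ▸ k1)
    have k3 : g⁻¹ * z * g * a' ∈ 𝐍 := CA a' ha' a1' _ (by
      calc g⁻¹ * z * g * a' * a' = g⁻¹ * (z * (g * a' * g⁻¹)) * g * a' := by group
        _ = _ := by rw [c2.eq]; group)
    have k4 : g⁻¹ * z * g * a' ∈ 𝐀 := by
      rcases d2 with ⟨c, e⟩ | ⟨c, e⟩
      · have e' : g⁻¹ * c * g * a' * (g⁻¹ * c * g)⁻¹ = g⁻¹ * z * g * a' := by
          rw [show g⁻¹ * z * g * a' = g⁻¹ * (z * (g * a' * g⁻¹)) * g by group, ← e]; group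
        exact e' ▸ SC a' ha' _ (e' ▸ k3)
      · have e' : g⁻¹ * c * a * (g⁻¹ * c)⁻¹ = g⁻¹ * z * g * a' := by
          rw [show g⁻¹ * z * g * a' = g⁻¹ * (z * (g * a' * g⁻¹)) * g by group, ← e]; group
        exact e' ▸ SC a ha _ (e' ▸ k3)
    refine hg (F0 _ ((mul_mem_cancel_right ha').1 k4) (fun e => H9.ne_one_of_orderOf_two o ?_) g ?_)
    · rwa [mul_assoc, inv_mul_eq_one, eq_comm, mul_eq_right] at e
    · rw [show g * (g⁻¹ * z * g) * g⁻¹ = z by group]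
      exact (mul_mem_cancel_right ha).1 k2
  have P0 : ∀ w, Ind b w om → w * w = 1 → ∀ x, x * w = w * x → x ∈ 𝐍 := by
    intro w c hw x hx
    by_contra hn
    obtain ⟨n, hn⟩ := H9.exists_pow_conj_of_odd (h.mul_self h2 0 1) (y := x * b 4 5 * x⁻¹) (by
      rw [show x * b 4 5 * x⁻¹ * (x * b 4 5 * x⁻¹) = x * (b 4 5 * b 4 5) * x⁻¹ by group,
        h.mul_self h2]; simp)
      (F2 _ (b_mem h h2 0 1) (h.ne_one h2 (by decide)) _ (b_mem h h2 4 5) (h.ne_one h2 (by decide)) x hn)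
    have c1 : Commute (b 0 1) w :=
      (mul_inv_eq_iff_eq_mul.1 ((c 0 1).trans (h.symm h2 0 1))).symm
    have c2 : Commute (b 4 5) w := (mul_inv_eq_iff_eq_mul.1 (c 4 5)).symm
    have c3 : Commute x w := hx
    have c4 : Commute (x⁻¹ * (b 0 1 * (x * b 4 5 * x⁻¹)) ^ n) w :=
      c3.inv_left.mul_left ((c1.mul_left ((c3.mul_left c2).mul_left c3.inv_left)).pow_left n)
    have e : x⁻¹ * (b 0 1 * (x * b 4 5 * x⁻¹)) ^ n * b 0 1 =
        b 4 5 * (x⁻¹ * (b 0 1 * (x * b 4 5 * x⁻¹)) ^ n) := by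
      rw [mul_assoc, mul_inv_eq_iff_eq_mul.1 hn]; group
    generalize x⁻¹ * (b 0 1 * (x * b 4 5 * x⁻¹)) ^ n = y at c4 e
    obtain ⟨W, hW, hW2⟩ := @exists_pow _ _ _ _ _ _ _ C w H.closed 2 two_ne_zero (by rw [sq, hw])
    obtain ⟨Y, hY⟩ := C.ex y
    obtain ⟨a1, a2⟩ := om_lift h h2 c hw hW
    obtain ⟨d, d0, hd⟩ := C.uniq (C.mul (liftT h h2) hY) (e ▸ C.mul hY (h.lift 0 1))
    have k : W * (Y * γ 0 1) = -(W * (Y * γ 0 1)) := by
      rcases comm_cases h2 hW (by rw [← sq, hW2]) hY c4.eq with f | f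
      · nth_rewrite 1 [← mul_assoc, ← f, mul_assoc, a1, mul_neg, ← mul_assoc, hd]
        rw [hd, smul_mul_assoc, mul_smul_comm, mul_assoc, f, ← mul_assoc, ← a2.eq, mul_assoc]
      · nth_rewrite 1 [← mul_assoc, ← neg_neg (W * Y), ← f, neg_mul, mul_assoc, a1, mul_neg, neg_neg,
          ← mul_assoc, hd]
        rw [hd, smul_mul_assoc, mul_smul_comm, mul_assoc, f, mul_neg, smul_neg, ← mul_assoc, ← a2.eq,
          mul_assoc]
    exact ne_zero (C.mul hW (C.mul hY (h.lift 0 1))) (Fx.eq_zero_of_neg h2 k)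
  have P1 : ∀ z ∈ 𝐍, orderOf z = 2 → ∀ x, x * z = z * x → x ∈ 𝐍 := by
    intro z hz o x hx
    by_cases hA : z ∈ 𝐀
    · exact CA z hA (H9.ne_one_of_orderOf_two o) x hx
    have s := H9.mul_self_of_orderOf_two o
    obtain ⟨n, hn, c⟩ := to_om h h2 hc hz hA s
    have := P0 _ c (by
      rw [show n⁻¹ * z * n * (n⁻¹ * z * n) = n⁻¹ * (z * z) * n by group, s]; simp) (n⁻¹ * x * n) (by
      calc n⁻¹ * x * n * (n⁻¹ * z * n) = n⁻¹ * (x * z) * n := by group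
        _ = _ := by rw [hx]; group)
    rwa [mul_mem_cancel_right hn, mul_mem_cancel_left (inv_mem hn)] at this
  obtain ⟨w, -, c, hw⟩ := exists_dbl h h2 (show [0, 1, 2, 3].Nodup by decide) hom
  have wN : w ∈ 𝐍 := (h.mem_norm h2).2 ⟨_, c⟩
  have top : ∀ g, g ∈ 𝐍 := fun g => by
    have s : g * b 4 5 * g⁻¹ * (g * b 4 5 * g⁻¹) = 1 := by
      rw [show g * b 4 5 * g⁻¹ * (g * b 4 5 * g⁻¹) = g * (b 4 5 * b 4 5) * g⁻¹ by group,
        h.mul_self h2]; simp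
    obtain ⟨z, o, c1, c2⟩ := H9.exists_involution_commute_of_not_isConj s hw fun e => by
      obtain ⟨y, e⟩ := isConj_iff.1 e
      have e' : y * g * b 4 5 * (y * g)⁻¹ = w := by rw [← e]; group
      have := indA h h2 (e' ▸ SC _ (b_mem h h2 4 5) _ (e' ▸ wN))
      exact absurd (h.ind_unique h2 this c) (by decide)
    exact F0 _ (b_mem h h2 4 5) (h.ne_one h2 (by decide)) g
      (SC _ (b_mem h h2 4 5) g (P1 z (P0 w c hw z c2) o _ c1.symm))
  have := H.simple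
  rcases IsSimpleGroup.eq_bot_or_eq_top_of_normal 𝐀
    (normalizer_eq_top_iff.1 (eq_top_iff.2 fun g _ => top g)) with e | e
  · exact h.ne_one h2 (show (4 : Fin 6) ≠ 5 by decide) (mem_bot.1 (e ▸ b_mem h h2 4 5))
  · exact H.nab ⟨⟨fun x y => commA h h2 (e ▸ mem_top x) (e ▸ mem_top y)⟩⟩

end H28.R4.CAx
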