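import Mathlib
import Cfsg.Agent.Base
import Cfsg.Agent.Lib.R4.Defs

set_option autoImplicit false

namespace H28.R4

open Matrix Subgroup Cfsg
open scoped MatrixGroups

variable {G k ι : Type*} [Group G] [Field k] [Fintype ι] [DecidableEq ι] {C : Cx G k ι} {p : ℕ}
  {γ : Fin 6 → Fin 6 → Matrix ι ι k} {b : Fin 6 → Fin 6 → G}

namespace E9x

theorem idem_zero (h4 : Fintype.card ι = 4) (h2 : (2 : k) ≠ 0) (h3 : (3 : k) ≠ 0) {e : Matrix ι ι k}
    (he : e * e = e) (ht : e.trace = 0) : e = 0 := by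
  have hi : IsIdempotentElem (toLin' e) := by
    show toLin' e * toLin' e = toLin' e
    rw [Module.End.mul_eq_comp, ← toLin'_mul, he]
  have h1 := (LinearMap.IsIdempotentElem.isProj_range _ hi).trace
  rw [Matrix.trace_toLin'_eq, ht] at h1
  have h5 : Module.finrank k (LinearMap.range (toLin' e)) ≤ 4 := by
    simpa [h4] using Submodule.finrank_le (LinearMap.range (toLin' e))
  have h0 : Module.finrank k (LinearMap.range (toLin' e)) = 0 := by
    generalize Module.finrank k (LinearMap.range (toLin' e)) = n at h1 h5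
    interval_cases n
    · rfl
    · simp at h1
    · exact absurd (by simpa using h1.symm) h2
    · exact absurd (by simpa using h1.symm) h3
    · refine absurd ?_ (mul_ne_zero h2 h2)
      rw [show (2 : k) * 2 = ((4 : ℕ) : k) by norm_num, ← h1]
  rw [Submodule.finrank_eq_zero, LinearMap.range_eq_bot] at h0
  exact toLin'.injective (by rw [h0, map_zero])

theorem card_le {I : Type*} [Fintype I] (e : I → Matrix ι ι k) (h0 : ∀ i, e i ≠ 0) (h1 : ∀ i, e i * e i = e i)
    (h2 : ∀ i j, i ≠ j → e i * e j = 0) : Fintype.card I ≤ Fintype.card ι := by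
  classical
  have hv : ∀ i, ∃ v, e i *ᵥ v ≠ 0 := fun i => by
    by_contra hn
    push Not at hn
    exact h0 i (toLin'.injective (by ext1 v; ext1; simp [hn]))
  choose v hv using hv
  have hl : LinearIndependent k fun i => e i *ᵥ v i := by
    rw [Fintype.linearIndependent_iff]
    intro c hc i
    have := congrArg (fun w => e i *ᵥ w) hc
    simp only [mulVec_sum, mulVec_smul, mulVec_mulVec, mulVec_zero] at this
    rw [Finset.sum_eq_single i (fun j _ hj => by rw [h2 i j hj.symm]; simp) (by simp), h1] at this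
    exact (smul_eq_zero.1 this).resolve_right (hv i)
  simpa using hl.fintype_card_le_finrank

/-- the (unnormalised) spectral projection -/
def F (x : k) (A : Matrix ι ι k) : Matrix ι ι k := 1 + x • A + x ^ 2 • (A * A)

theorem F_mul {A : Matrix ι ι k} (hA : A ^ 3 = 1) {x : k} (hx : x ^ 3 = 1) (y : k) :
    F y A * F x A = (1 + y * x ^ 2 + (y * x ^ 2) ^ 2) • F x A := by
  have e : A * F x A = x ^ 2 • F x A := by
    have h3 : A * (A * A) = 1 := by rw [← hA]; noncomm_ring
    simp only [F, mul_add, mul_smul_comm, mul_one, h3, smul_add, smul_smul]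
    rw [show x ^ 2 * x = 1 by rw [← hx]; ring, show x ^ 2 * x ^ 2 = x by linear_combination x * hx, one_smul]
    abel
  conv_lhs => rw [F]
  rw [add_mul, add_mul, one_mul, smul_mul_assoc, smul_mul_assoc, mul_assoc, e, mul_smul_comm, e]
  module

theorem F_comm {A B : Matrix ι ι k} (h : A * B = B * A) (x y : k) : F x A * F y B = F y B * F x A := by
  have h0 : Commute A B := h
  have h1 : Commute (F x A) B :=
    ((Commute.one_left B).add_left (h0.smul_left x)).add_left ((h0.mul_left h0).smul_left _)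
  have h2 : Commute (F x A) (F y B) :=
    ((Commute.one_right _).add_right (h1.smul_right y)).add_right ((h1.mul_right h1).smul_right (y ^ 2))
  exact h2

theorem FF {A B : Matrix ι ι k} (h : A * B = B * A) (x y x' y' : k) :
    F x A * F y B * (F x' A * F y' B) = F x A * F x' A * (F y B * F y' B) := by
  rw [mul_assoc, ← mul_assoc (F y B), ← F_comm h, mul_assoc, mul_assoc]

theorem cube_sum {u : k} (h : u ^ 3 = 1) (h1 : u ≠ 1) : 1 + u + u ^ 2 = 0 :=
  mul_left_cancel₀ (sub_ne_zero.2 h1) (by linear_combination h)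

theorem exists_lift [IsAlgClosed k] {a : G} (ha : a ^ 3 = 1) : ∃ M, C.L a M ∧ M ^ 3 = 1 ∧ M.det = 1 := by
  obtain ⟨M, hM, h3⟩ := Cx.exists_pow (C := C) (by norm_num) ha
  have hd : M.det ^ 3 = 1 := by rw [← det_pow, h3, det_one]
  refine ⟨(M.det ^ 2) • M, C.smul hM (pow_ne_zero _ (Cx.det_ne hM)), ?_, ?_⟩
  · rw [_root_.smul_pow, h3, ← pow_mul, show 2 * 3 = 3 * 2 by rfl, pow_mul, hd, one_pow, one_smul]
  · rw [C.det_smul']; linear_combination (M.det ^ 6 + M.det ^ 3 + 1) * hd

theorem lift_uniq {a : G} {M N : Matrix ι ι k} (hM : C.L a M) (hN : C.L a N) (m3 : M ^ 3 = 1) (n3 : N ^ 3 = 1)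
    (md : M.det = 1) (nd : N.det = 1) : N = M := by
  have := C.nonempty
  obtain ⟨c, -, rfl⟩ := C.uniq hM hN
  rw [_root_.smul_pow, m3] at n3
  rw [C.det_smul', md, mul_one] at nd
  have c3 : c ^ 3 = 1 := by
    obtain ⟨i⟩ := this
    simpa using congrFun (congrFun n3 i) i
  rw [show c = 1 by linear_combination nd - c * c3, one_smul]

theorem trace_eq {a c : G} {M N : Matrix ι ι k} (hM : C.L a M) (hN : C.L c N) (m3 : M ^ 3 = 1) (n3 : N ^ 3 = 1)
    (md : M.det = 1) (nd : N.det = 1) (h : IsConj a c) : N.trace = M.trace := by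
  obtain ⟨g, rfl⟩ := isConj_iff.1 h
  obtain ⟨X, hX⟩ := C.ex g
  have e : N = X * M * X⁻¹ := by
    refine lift_uniq (Cx.conj hX hM) hN ?_ n3 ?_ nd
    · calc (X * M * X⁻¹) ^ 3 = X * M * (X⁻¹ * X) * M * (X⁻¹ * X) * M * X⁻¹ := by noncomm_ring
        _ = X * M ^ 3 * X⁻¹ := by rw [Cx.inv_mul hX]; noncomm_ring
        _ = 1 := by rw [m3, mul_one, Cx.mul_inv hX]
    · rw [det_mul, det_mul, md, mul_one, ← det_mul, Cx.mul_inv hX, det_one]
  rw [e, trace_mul_comm, ← mul_assoc, Cx.inv_mul hX, one_mul]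

theorem lift_comm {a c : G} {M N : Matrix ι ι k} (hM : C.L a M) (hN : C.L c N) (n3 : N ^ 3 = 1)
    (nd : N.det = 1) (h : a * c = c * a) : M * N = N * M := by
  have e : M * N * M⁻¹ = N := by
    refine lift_uniq hN (by simpa [h] using Cx.conj hM hN) n3 ?_ nd ?_
    · calc (M * N * M⁻¹) ^ 3 = M * N * (M⁻¹ * M) * N * (M⁻¹ * M) * N * M⁻¹ := by noncomm_ring
        _ = M * N ^ 3 * M⁻¹ := by rw [Cx.inv_mul hM]; noncomm_ring
        _ = 1 := by rw [n3, mul_one, Cx.mul_inv hM]
    · rw [det_mul, det_mul, nd, mul_one, ← det_mul, Cx.mul_inv hM, det_one]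
  rw [← e, mul_assoc _ M⁻¹, Cx.inv_mul hM, mul_one, e]

theorem core (h4 : Fintype.card ι = 4) (h2 : (2 : k) ≠ 0) (h3 : (3 : k) ≠ 0) {ω τ : k} (hω : ω ^ 3 = 1)
    (h1 : ω ≠ 1) {A B : Matrix ι ι k} (hA : A ^ 3 = 1) (hB : B ^ 3 = 1) (hc : A * B = B * A)
    (ht : ∀ i j : ℕ, i < 3 → j < 3 → (i ≠ 0 ∨ j ≠ 0) → (A ^ i * B ^ j).trace = τ) : A = 1 := by
  have ω0 : ω ≠ 0 := by rintro rfl; simp at hω
  have hs := cube_sum hω h1
  have t1 : (1 : Matrix ι ι k).trace = 4 := by rw [trace_one, h4]; norm_num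
  have idem : ∀ {X : Matrix ι ι k} {x : k}, X ^ 3 = 1 → x ^ 3 = 1 → F x X * F x X = (3 : k) • F x X := by
    intro X x hX hx
    rw [F_mul hX hx]; congr 1; linear_combination (x ^ 3 + 2) * hx
  have orth : ∀ {X : Matrix ι ι k} {x y : k}, X ^ 3 = 1 → x ^ 3 = 1 → y ^ 3 = 1 → x ≠ y → F y X * F x X = 0 := by
    intro X x y hX hx hy hne
    rw [F_mul hX hx, cube_sum (u := y * x ^ 2) (by linear_combination (x ^ 6) * hy + (x ^ 3 + 1) * hx), zero_smul]
    intro e
    exact hne (by linear_combination (-x) * e + y * hx)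
  have t10 := ht 1 0 (by norm_num) (by norm_num) (by norm_num)
  have t20 := ht 2 0 (by norm_num) (by norm_num) (by norm_num)
  have t01 := ht 0 1 (by norm_num) (by norm_num) (by norm_num)
  have t02 := ht 0 2 (by norm_num) (by norm_num) (by norm_num)
  have t11 := ht 1 1 (by norm_num) (by norm_num) (by norm_num)
  have t12 := ht 1 2 (by norm_num) (by norm_num) (by norm_num)
  have t21 := ht 2 1 (by norm_num) (by norm_num) (by norm_num)
  have t22 := ht 2 2 (by norm_num) (by norm_num) (by norm_num)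
  simp only [pow_zero, pow_one, mul_one, one_mul, pow_two] at t10 t20 t01 t02 t11 t12 t21 t22
  by_cases hτ : τ = 4
  · have z : ∀ x : k, x ^ 3 = 1 → x ≠ 1 → F x A = 0 := fun x hx x1 => by
      have := idem_zero h4 h2 h3 (e := (3 : k)⁻¹ • F x A)
        (by rw [smul_mul_smul_comm, idem hA hx, smul_smul, mul_assoc, inv_mul_cancel₀ h3, mul_one])
        (by
          simp only [F, trace_smul, trace_add, t1, t10, t20, hτ, smul_eq_mul]
          linear_combination (3 : k)⁻¹ * 4 * cube_sum hx x1)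
      exact (smul_eq_zero.1 this).resolve_left (inv_ne_zero h3)
    have ω2 : ω ^ 2 ≠ 1 := fun e => h1 (by linear_combination hω - ω * e)
    have z1 := z ω hω h1
    have z2 := z (ω ^ 2) (by linear_combination (ω ^ 3 + 1) * hω) ω2
    have e : (ω - ω ^ 2) • (A - A * A) = 0 := by
      have : (ω ^ 2) ^ 2 = ω := by linear_combination ω * hω
      rw [← sub_self (0 : Matrix ι ι k)]
      nth_rewrite 1 [← z1]
      rw [← z2, F, F, this]
      module
    have e2 : A = A * A := by
      refine sub_eq_zero.1 ((smul_eq_zero.1 e).resolve_left fun e => h1 ?_)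
      exact (mul_left_cancel₀ ω0 (by linear_combination e)).symm
    calc A = A * A := e2
      _ = A * (A * A) := congrArg (A * ·) e2
      _ = 1 := by rw [← hA]; noncomm_ring
  · exfalso
    have hp : ∀ n : ℕ, (ω ^ n) ^ 3 = 1 := fun n => by rw [← pow_mul, mul_comm, pow_mul, hω, one_pow]
    have hprim : IsPrimitiveRoot ω 3 := (IsPrimitiveRoot.iff_def ω 3).2 ⟨hω, fun l hl => by
      rw [← orderOf_eq_prime hω h1]; exact orderOf_dvd_of_pow_eq_one hl⟩
    have hinj : ∀ m n : ℕ, m < 3 → n < 3 → ω ^ m = ω ^ n → m = n := fun m n hm hn e => hprim.pow_inj hm hn e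
    have := card_le (I := Fin 2 × Fin 3)
      (fun s => ((3 : k)⁻¹ * (3 : k)⁻¹) • (F (ω ^ (s.1.val + 1)) A * F (ω ^ s.2.val) B)) ?_ ?_ ?_
    · rw [h4] at this; simp at this
    · intro s e
      have x1 : ω ^ (s.1.val + 1) ≠ 1 := fun e => by
        have := hinj (s.1.val + 1) 0 (by omega) (by norm_num) (by rw [e, pow_zero])
        omega
      have := congrArg trace ((smul_eq_zero.1 e).resolve_left (mul_ne_zero (inv_ne_zero h3) (inv_ne_zero h3)))
      have hx := cube_sum (hp _) x1
      generalize ω ^ (s.1.val + 1) = x at this hx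
      generalize ω ^ s.2.val = y at this
      simp only [F, add_mul, mul_add, one_mul, mul_one, smul_mul_assoc, mul_smul_comm, trace_add, trace_smul,
        t1, t10, t20, t01, t02, t11, t12, t21, t22, smul_eq_mul, trace_zero] at this
      exact hτ (by linear_combination -this + τ * (1 + y + y ^ 2) * hx)
    · intro s
      rw [smul_mul_smul_comm, FF hc, idem hB (hp _), idem hA (hp _), smul_mul_smul_comm, smul_smul]
      congr 1
      field_simp
    · intro s s' hne
      rw [smul_mul_smul_comm, FF hc]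
      by_cases e : s.1 = s'.1
      · rw [orth hB (hp _) (hp _) fun e' => hne (Prod.ext e (Fin.ext (hinj _ _ s'.2.2 s.2.2 e').symm))]
        simp
      · rw [orth hA (hp _) (hp _) fun e' => e (Fin.ext (by
          have := hinj (s'.1.val + 1) (s.1.val + 1) (by omega) (by omega) e'
          omega))]
        simp

theorem force_eq : True := by
  have := @F.eq_1.{0, 0}
  trivial

end E9x

open E9x in
/-- an elementary abelian group of order nine all of whose non-trivial elements are conjugate -/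
theorem Cx.Hy.e9 (H : C.Hy p) {E : Subgroup G} (h9 : Nat.card E = 9) (h3 : ∀ a ∈ E, a ^ 3 = 1)
    (hc : ∀ a ∈ E, ∀ c ∈ E, a ≠ 1 → c ≠ 1 → IsConj a c) : p = 3 := by
  by_contra hp
  have := H.char
  have := H.closed
  have := H.fin
  have : Fact (Nat.Prime 3) := ⟨by norm_num⟩
  have k3 : (3 : k) ≠ 0 := fun e =>
    hp ((Nat.prime_dvd_prime_iff_eq H.prime (by norm_num)).1 ((CharP.cast_eq_zero_iff k p 3).1 (by simpa using e)))
  have : NeZero ((3 : ℕ) : k) := ⟨by simpa using k3⟩
  obtain ⟨ω, hω⟩ := HasEnoughRootsOfUnity.exists_primitiveRoot k 3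
  have hcm : ∀ a ∈ E, ∀ c ∈ E, a * c = c * a := fun a ha c hc => by
    have := IsPGroup.isMulCommutative_of_card_eq_prime_sq (p := 3) (G := E) (by rw [h9]; norm_num)
    exact congrArg Subtype.val (this.is_comm.comm (⟨a, ha⟩ : E) ⟨c, hc⟩)
  obtain ⟨⟨a, ha⟩, a1⟩ : ∃ a : E, a ≠ 1 := by
    have : Nontrivial E := Finite.one_lt_card_iff_nontrivial.1 (by rw [h9]; norm_num)
    exact exists_ne 1
  have a1 : a ≠ 1 := fun e => a1 (Subtype.ext e)
  have oa : orderOf a = 3 := orderOf_eq_prime (h3 a ha) a1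
  obtain ⟨c, hc', ca⟩ : ∃ c ∈ E, c ∉ zpowers a := by
    by_contra hn
    push Not at hn
    have := card_le_of_le (show E ≤ zpowers a from hn)
    rw [h9, Nat.card_zpowers, oa] at this
    omega
  have ne1 : ∀ i j : ℕ, i < 3 → j < 3 → (i ≠ 0 ∨ j ≠ 0) → a ^ i * c ^ j ≠ 1 := by
    intro i j hi hj hij e
    have e1 : c ^ j ∈ zpowers a := by
      rw [eq_inv_of_mul_eq_one_right e]; exact inv_mem (pow_mem (mem_zpowers a) i)
    interval_cases j
    · rw [pow_zero, mul_one] at e
      have := orderOf_dvd_of_pow_eq_one e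
      rw [oa] at this
      omega
    · exact ca (by simpa using e1)
    · refine ca ?_
      have : c = (c ^ 2) ^ 2 := by rw [← pow_mul, show 2 * 2 = 3 + 1 by rfl, pow_succ, h3 c hc', one_mul]
      rw [this]; exact pow_mem e1 2
  obtain ⟨A, hA, A3, Ad⟩ := exists_lift (C := C) (h3 a ha)
  obtain ⟨B, hB, B3, Bd⟩ := exists_lift (C := C) (h3 c hc')
  have AB : A * B = B * A := lift_comm hA hB B3 Bd (hcm a ha c hc')
  have := core C.card H.two k3 hω.pow_eq_one (hω.ne_one (by norm_num)) (τ := A.trace) A3 B3 AB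
    fun i j hi hj hij => by
      refine trace_eq hA (C.mul (Cx.pow hA i) (Cx.pow hB j)) A3 ?_ Ad ?_
        (hc a ha _ (mul_mem (pow_mem ha i) (pow_mem hc' j)) a1 (ne1 i j hi hj hij))
      · rw [((show Commute A B from AB).pow_pow i j).mul_pow, ← pow_mul, ← pow_mul, mul_comm i, mul_comm j,
          pow_mul, pow_mul, A3, B3, one_pow, one_pow, mul_one]
      · rw [det_mul, det_pow, det_pow, Ad, Bd, one_pow, one_pow, mul_one]
  exact a1 ((Cx.eq_one_iff hA).2 ⟨1, by rw [this, one_smul]⟩)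

end H28.R4
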