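import Mathlib
import Cfsg.Agent.Base
import Cfsg.Agent.Lib.R4.Defs

/-! Clifford frames: the algebra. -/

set_option autoImplicit false
set_option linter.unusedSectionVars false

namespace H28.R4

open Matrix Subgroup Cfsg
open scoped MatrixGroups

variable {k ι : Type*} [Field k] [Fintype ι] [DecidableEq ι] {M N : Matrix ι ι k}
  {γ : Fin 6 → Fin 6 → Matrix ι ι k}

namespace Fx

/-- the parity of the overlap of two pairs -/
def ov (i j l m : Fin 6) : Bool := xor (xor (i = l) (i = m)) (xor (j = l) (j = m))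

/-- the sixteen basis elements -/
abbrev Ix : Type := {p : Fin 6 × Fin 6 // p.1 < p.2 ∨ p = (0, 0)}

theorem card_Ix : Fintype.card Ix = 16 := by decide +kernel

theorem eq_zero_of_neg (h2 : (2 : k) ≠ 0) (e : M = -M) : M = 0 := by
  have : (2 : k) • M = 0 := by rw [two_smul]; exact eq_neg_iff_add_eq_zero.1 e
  exact (smul_eq_zero.1 this).resolve_left h2

theorem tr_eq {U V : Matrix ι ι k} {c : k} (e : M * U = c • (U * M)) (h : U * V = 1) : M.trace = c * M.trace := by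
  calc _ = (M * U * V).trace := by rw [mul_assoc, h, mul_one]
    _ = _ := by rw [e, smul_mul_assoc, trace_smul, trace_mul_comm, ← mul_assoc, mul_eq_one_comm.1 h, one_mul, smul_eq_mul]

theorem tr_anti (h2 : (2 : k) ≠ 0) {U V : Matrix ι ι k} (e : M * U = -(U * M)) (h : U * V = 1) : M.trace = 0 := by
  have := tr_eq (c := -1) (by rw [e, neg_one_smul]) h
  exact (mul_eq_zero.1 (show 2 * M.trace = 0 by linear_combination this)).resolve_left h2

theorem four_ne (h2 : (2 : k) ≠ 0) : (4 : k) ≠ 0 := by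
  rw [show (4 : k) = 2 * 2 by norm_num]
  exact mul_ne_zero h2 h2

theorem sum_anti {A : Type*} [AddCommGroup A] (f : Fin 6 → Fin 6 → A) (h : ∀ j l, j ≠ l → f l j = -f j l) :
    ∑ j, ∑ l, f j l = ∑ j, f j j := by
  simp only [Fin.sum_univ_six]
  rw [h 0 1, h 0 2, h 0 3, h 0 4, h 0 5, h 1 2, h 1 3, h 1 4, h 1 5, h 2 3, h 2 4, h 2 5, h 3 4, h 3 5, h 4 5]
  · abel
  all_goals decide

theorem exists_perm6 {i j l m n o : Fin 6} (e : [i, j, l, m, n, o].Nodup) :
    ∃ σ : Equiv.Perm (Fin 6), σ 0 = i ∧ σ 1 = j ∧ σ 2 = l ∧ σ 3 = m ∧ σ 4 = n ∧ σ 5 = o :=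
  ⟨Equiv.ofBijective ![i, j, l, m, n, o] (Finite.injective_iff_bijective.1 (List.nodup_ofFn.1 (by simpa using e))),
    rfl, rfl, rfl, rfl, rfl, rfl⟩

end Fx

open Fx

namespace Fr

theorem inv (h : Fr γ) (i j : Fin 6) : γ i j * γ j i = 1 := by rw [h.mul, h.self]

theorem sq (h : Fr γ) {i j : Fin 6} (e : i ≠ j) : γ i j * γ i j = -1 := by
  rw [← h.inv i j, h.anti i j e, mul_neg, neg_neg]

/-- the exchange rule -/
theorem exch (h : Fr γ) (a c : Fin 6) {i m : Fin 6} (e : i ≠ m) : γ a i * γ m c = -(γ a m * γ i c) :=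
  calc γ a i * γ m c = γ a i * (γ m i * γ i c) := by rw [h.mul]
    _ = _ := by rw [h.anti i m e, neg_mul, mul_neg, ← mul_assoc, h.mul]

theorem anti' (h : Fr γ) {i j l : Fin 6} (e : [i, j, l].Nodup) : γ i j * γ i l = -(γ i l * γ i j) := by
  simp only [List.nodup_cons, List.mem_cons, List.not_mem_nil, or_false, not_or] at e
  rw [h.exch i l (Ne.symm e.1.1), h.exch i j (Ne.symm e.1.2), h.self, one_mul, one_mul, h.anti j l e.2.1, neg_neg]

theorem comm (h : Fr γ) {i j l m : Fin 6} (e : [i, j, l, m].Nodup) : γ i j * γ l m = γ l m * γ i j := by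
  simp only [List.nodup_cons, List.mem_cons, List.not_mem_nil, or_false, not_or] at e
  rw [h.exch i m e.2.1.1, h.exch l j (Ne.symm e.1.2.2), h.anti i l e.1.2.1, h.anti j m e.2.1.2, neg_mul_neg]

theorem perm (h : Fr γ) (σ : Equiv.Perm (Fin 6)) : Fr fun i j => γ (σ i) (σ j) :=
  ⟨fun _ _ _ => h.mul _ _ _, fun _ => h.self _, fun _ _ e => h.anti _ _ (σ.injective.ne e)⟩

theorem sgn (h : Fr γ) {ε : Fin 6 → k} (he : ∀ i, ε i * ε i = 1) : Fr fun i j => (ε i * ε j) • γ i j :=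
  ⟨fun i j l => by rw [smul_mul_smul_comm, h.mul, mul_assoc, ← mul_assoc (ε j), he, one_mul],
    fun i => by rw [he, h.self, one_smul], fun i j e => by rw [h.anti i j e, smul_neg, mul_comm]⟩

theorem gm_mul (h : Fr γ) (u v w : Fin 6 → k) : gm γ u v * gm γ v w = (v ⬝ᵥ v) • gm γ u w := by
  have k1 : ∀ i m, ∑ j, ∑ l, (v j * v l) • (γ i j * γ l m) = (v ⬝ᵥ v) • γ i m := fun i m => by
    rw [sum_anti _ fun j l e => by rw [h.exch i m e.symm, smul_neg, mul_comm], dotProduct, Finset.sum_smul]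
    simp only [h.mul]
  simp only [gm, Finset.sum_mul, Finset.smul_sum, smul_comm (v ⬝ᵥ v), ← k1, smul_smul]
  simp only [Finset.mul_sum, smul_mul_smul_comm]
  refine Finset.sum_congr rfl fun i _ => (Finset.sum_comm.trans (Finset.sum_congr rfl fun j _ => ?_)).symm
  exact Finset.sum_comm.trans (Finset.sum_congr rfl fun l _ => Finset.sum_congr rfl fun m _ => by congr 1; ring)

theorem gm_swap (h : Fr γ) (u v : Fin 6 → k) : gm γ v u = (2 * (u ⬝ᵥ v)) • 1 - gm γ u v := by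
  rw [eq_sub_iff_add_eq, gm, gm, Finset.sum_comm, ← Finset.sum_add_distrib, dotProduct, Finset.mul_sum, Finset.sum_smul]
  refine Finset.sum_congr rfl fun i _ => ?_
  rw [← Finset.sum_add_distrib, Finset.sum_eq_single i (fun j _ e => by
    rw [h.anti j i e, smul_neg, mul_comm, add_neg_cancel]) (by simp), h.self, ← add_smul]
  congr 1; ring

theorem gm_single (i j : Fin 6) : gm γ (Pi.single i 1) (Pi.single j 1) = γ i j := by
  simp [gm, Pi.single_apply, ite_smul, Finset.sum_ite_eq']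

theorem of_orth (h : Fr γ) (h2 : (2 : k) ≠ 0) {f : Fin 6 → Fin 6 → k} {ν : k} (h0 : ν ≠ 0)
    (hf : ∀ i j, f i ⬝ᵥ f j = if i = j then ν else 0) : Fr fun i j => ν⁻¹ • gm γ (f i) (f j) := by
  refine ⟨fun i j l => ?_, fun i => ?_, fun i j e => ?_⟩
  · rw [smul_mul_smul_comm, h.gm_mul, hf, if_pos rfl, smul_smul, inv_mul_cancel_right₀ h0]
  · have := h.gm_swap (f i) (f i)
    rw [hf, if_pos rfl, eq_sub_iff_add_eq, ← two_smul k, mul_smul] at this
    rw [smul_right_injective _ h2 this, smul_smul, inv_mul_cancel₀ h0, one_smul]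
  · rw [h.gm_swap (f i) (f j), hf, if_neg e, mul_zero, zero_smul, zero_sub, smul_neg]

theorem cm0 (h : Fr γ) {i j l m : Fin 6} (e : ov i j l m = false) : γ i j * γ l m = γ l m * γ i j := by
  have c : ∀ i j l m, ov i j l m = false → i = j ∨ l = m ∨ (i = l ∧ j = m) ∨ (i = m ∧ j = l) ∨ [i, j, l, m].Nodup := by
    decide +kernel
  rcases c i j l m e with rfl | rfl | ⟨rfl, rfl⟩ | ⟨rfl, rfl⟩ | e
  · rw [h.self, one_mul, mul_one]
  · rw [h.self, one_mul, mul_one]
  · rfl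
  · rw [h.inv, h.inv]
  · exact h.comm e

theorem cm1 (h : Fr γ) {i j l m : Fin 6} (e : ov i j l m = true) : γ i j * γ l m = -(γ l m * γ i j) := by
  have c : ∀ i j l m, ov i j l m = true → i ≠ j ∧ l ≠ m ∧ ((i = l ∧ [i, j, m].Nodup) ∨ (i = m ∧ [i, j, l].Nodup) ∨
      (j = l ∧ [j, i, m].Nodup) ∨ (j = m ∧ [j, i, l].Nodup)) := by decide +kernel
  obtain ⟨a, b, ⟨rfl, f⟩ | ⟨rfl, f⟩ | ⟨rfl, f⟩ | ⟨rfl, f⟩⟩ := c i j l m e
  · exact h.anti' f
  · rw [h.anti _ _ b.symm, mul_neg, neg_mul, h.anti' f]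
  · rw [h.anti _ _ a.symm, mul_neg, neg_mul, h.anti' f]
  · rw [h.anti _ _ a.symm, h.anti _ _ b.symm, neg_mul_neg, neg_mul_neg, h.anti' f]

theorem cm (h : Fr γ) (i j l m : Fin 6) : ∃ c : k, γ i j * γ l m = c • (γ l m * γ i j) := by
  cases e : ov i j l m
  exacts [⟨1, by rw [h.cm0 e, one_smul]⟩, ⟨-1, by rw [h.cm1 e, neg_one_smul]⟩]

theorem reflR (h : Fr γ) (a c i j m : Fin 6) :
    (γ a i - γ a j) * γ m c = -(γ a (Equiv.swap i j m) * (γ i c - γ j c)) := by
  rw [sub_mul, mul_sub]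
  by_cases e : m = i
  · rw [e, Equiv.swap_apply_left, h.mul, h.mul, neg_sub]
  by_cases f : m = j
  · rw [f, Equiv.swap_apply_right, h.mul, h.mul, neg_sub]
  rw [Equiv.swap_apply_of_ne_of_ne e f, h.exch a c e, h.exch a c f, neg_sub_neg, neg_sub]

theorem reflL (h : Fr γ) (i j m : Fin 6) :
    γ i m - γ j m = -(γ (Equiv.swap i j m) i - γ (Equiv.swap i j m) j) := by
  by_cases g : i = j
  · simp [g]
  by_cases e : m = i
  · rw [e, Equiv.swap_apply_left, h.self, h.self, neg_sub]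
  by_cases f : m = j
  · rw [f, Equiv.swap_apply_right, h.self, h.self, neg_sub]
  rw [Equiv.swap_apply_of_ne_of_ne e f, h.anti m i e, h.anti m j f, neg_sub_neg, neg_sub]

/-- a product of two reflections -/
theorem two_refl (h : Fr γ) (i j l m n o : Fin 6) : (γ i l - γ i m - (γ j l - γ j m)) * γ n o =
    γ ((Equiv.swap i j * Equiv.swap l m) n) ((Equiv.swap i j * Equiv.swap l m) o) *
      (γ i l - γ i m - (γ j l - γ j m)) := by
  rw [sub_mul, h.reflR, h.reflR, neg_sub_neg, ← sub_mul, h.reflL l m o, ← neg_sub, h.reflL i j, neg_neg, mul_neg, mul_sub,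
    h.reflR, h.reflR, Equiv.Perm.mul_apply, Equiv.Perm.mul_apply]
  noncomm_ring

theorem one_refl (h : Fr γ) (i j n o : Fin 6) :
    ∃ c : k, (1 - γ i j) * γ n o = c • (γ (Equiv.swap i j n) (Equiv.swap i j o) * (1 - γ i j)) := by
  have k1 : ∀ a, ∃ c : k, γ i a = c • γ a i ∧ ∀ x y, γ x i * γ a y = c • (γ x a * γ i y) := fun a => by
    by_cases e : a = i
    · exact ⟨1, by simp [e]⟩
    · exact ⟨-1, by rw [h.anti a i e, neg_one_smul], fun x y => by rw [h.exch x y (Ne.symm e), neg_one_smul]⟩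
  obtain ⟨c, a, -⟩ := k1 (Equiv.swap i j n)
  obtain ⟨d, -, b⟩ := k1 (Equiv.swap i j o)
  refine ⟨c * d, ?_⟩
  rw [← h.self i, h.reflR, h.reflL i j o, mul_neg, neg_neg, mul_sub, mul_sub, a, smul_mul_assoc, smul_mul_assoc, b, b,
    smul_sub, smul_smul, smul_smul]

variable (h : Fr γ) (h4 : Fintype.card ι = 4) (h2 : (2 : k) ≠ 0)
include h h4 h2

theorem trace {i j : Fin 6} (e : i ≠ j) : (γ i j).trace = 0 := by
  have c : ∀ i j : Fin 6, i ≠ j → ∃ l m, ov i j l m = true := by decide +kernel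
  obtain ⟨l, m, f⟩ := c i j e
  exact tr_anti h2 (h.cm1 f) (h.inv l m)

theorem tr_mul {i j l m a c : Fin 6} (e : ov i j a c ≠ ov l m a c) : (γ i j * γ l m).trace = 0 := by
  refine tr_anti h2 ?_ (h.inv a c)
  cases f : ov i j a c <;> cases g : ov l m a c
  · exact absurd (f.trans g.symm) e
  · rw [mul_assoc, h.cm1 g, mul_neg, ← mul_assoc, h.cm0 f, mul_assoc]
  · rw [mul_assoc, h.cm0 g, ← mul_assoc, h.cm1 f, neg_mul, mul_assoc]
  · exact absurd (f.trans g.symm) e

theorem span (M : Matrix ι ι k) : ∃ (c : k) (x : Fin 6 → Fin 6 → k),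
    M = c • 1 + ∑ i, ∑ j, x i j • γ i j := by
  have c : ∀ p q : Ix, p ≠ q → ∃ a c, ov p.1.1 p.1.2 a c ≠ ov q.1.2 q.1.1 a c := by decide +kernel
  have li : LinearIndependent k fun p : Ix => γ p.1.1 p.1.2 := Fintype.linearIndependent_iff.2 fun x e q => by
    have := congrArg (fun X => (X * γ q.1.2 q.1.1).trace) e
    simp only [Finset.sum_mul, trace_sum, smul_mul_assoc, trace_smul, zero_mul, trace_zero] at this
    rw [Finset.sum_eq_single q (fun p _ f => by
      obtain ⟨a, c, g⟩ := c p q f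
      rw [h.tr_mul h4 h2 g, smul_zero]) (by simp), h.inv, trace_one, h4] at this
    exact (smul_eq_zero.1 this).resolve_right (by simpa using four_ne h2)
  have := li.span_eq_top_of_card_eq_finrank' (by rw [card_Ix, Module.finrank_matrix, h4, Module.finrank_self])
  obtain ⟨x, e⟩ := (Submodule.mem_span_range_iff_exists_fun k (v := fun p : Fin 6 × Fin 6 => γ p.1 p.2)).1
    (Submodule.span_mono (by rintro _ ⟨p, rfl⟩; exact ⟨p.1, rfl⟩) (this ▸ Submodule.mem_top : M ∈ _))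
  exact ⟨0, fun i j => x (i, j), by rw [zero_smul, zero_add, ← e, Fintype.sum_prod_type]⟩

theorem scalar (hM : ∀ i j, M * γ i j = γ i j * M) : ∃ c : k, M = c • 1 := by
  obtain ⟨c, e⟩ := mem_range_scalar_of_commute_single (M := M) fun i j _ => by
    obtain ⟨c, x, e⟩ := h.span h4 h2 (single i j 1)
    rw [e, Commute, SemiconjBy]
    simp only [add_mul, mul_add, Finset.sum_mul, Finset.mul_sum, smul_mul_assoc, mul_smul_comm, hM, one_mul, mul_one]
  exact ⟨c, by rw [← e, scalar_apply, smul_one_eq_diagonal]⟩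

theorem of_proj (hN : IsUnit N) (e : ∀ i j, ∃ c : k, N * γ i j = c • (γ i j * N)) :
    ∃ (n o : Fin 6) (c : k), N = c • γ n o := by
  by_cases f : ∀ n o, (N * γ o n).trace = 0
  · obtain ⟨c, x, g⟩ := h.span h4 h2 N⁻¹
    have := congrArg (fun X => (N * X).trace) g
    have f0 := f 0 0
    rw [h.self, mul_one] at f0
    simp only [mul_add, Finset.mul_sum, mul_smul_comm, trace_add, trace_sum, trace_smul, f, mul_one, f0, smul_zero,
      Finset.sum_const_zero, add_zero] at this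
    rw [mul_nonsing_inv _ ((isUnit_iff_isUnit_det _).1 hN), trace_one, h4] at this
    exact absurd this (by simpa using four_ne h2)
  · push Not at f
    obtain ⟨n, o, f⟩ := f
    obtain ⟨c, g⟩ := h.scalar h4 h2 (M := N * γ o n) fun i j => by
      obtain ⟨c, a⟩ := e i j
      obtain ⟨d, b⟩ := h.cm o n i j
      have a : N * γ o n * γ i j = (d * c) • (γ i j * (N * γ o n)) := by
        rw [mul_assoc, b, mul_smul_comm, ← mul_assoc, a, smul_mul_assoc, smul_smul, mul_assoc]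
      rw [a, mul_right_cancel₀ f ((tr_eq a (h.inv i j)).symm.trans (one_mul _).symm), one_smul]
    exact ⟨n, o, c, by rw [← mul_one N, ← h.inv o n, ← mul_assoc, g, smul_mul_assoc, one_mul]⟩

theorem triple {i j l m n o : Fin 6} (e : [i, j, l, m, n, o].Nodup) :
    ∃ c : k, c * c = -1 ∧ γ i j * γ l m = c • γ n o := by
  obtain ⟨σ, rfl, rfl, rfl, rfl, rfl, rfl⟩ := exists_perm6 e
  have h' := h.perm σ
  obtain ⟨c, f⟩ := h'.scalar h4 h2 (M := γ (σ 0) (σ 1) * γ (σ 2) (σ 3) * γ (σ 5) (σ 4)) fun a b => by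
    have c : ∀ a b, ov 5 4 a b = xor (ov 0 1 a b) (ov 2 3 a b) := by decide +kernel
    have c := c a b
    cases e1 : ov 0 1 a b <;> cases e2 : ov 2 3 a b <;> rw [e1, e2] at c
    · rw [mul_assoc, h'.cm0 c, ← mul_assoc, mul_assoc _ _ (γ (σ a) _), h'.cm0 e2, ← mul_assoc, h'.cm0 e1]
      simp only [mul_assoc]
    · rw [mul_assoc, h'.cm1 c, mul_neg, ← mul_assoc, mul_assoc _ _ (γ (σ a) _), h'.cm1 e2, mul_neg, ← mul_assoc,
        h'.cm0 e1]
      simp only [mul_assoc, neg_mul, neg_neg]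
    · rw [mul_assoc, h'.cm1 c, mul_neg, ← mul_assoc, mul_assoc _ _ (γ (σ a) _), h'.cm0 e2, ← mul_assoc, h'.cm1 e1]
      simp only [mul_assoc, neg_mul, neg_neg]
    · rw [mul_assoc, h'.cm0 c, ← mul_assoc, mul_assoc _ _ (γ (σ a) _), h'.cm1 e2, mul_neg, ← mul_assoc, h'.cm1 e1]
      simp only [mul_assoc, neg_mul, neg_neg]
  have g : γ (σ 0) (σ 1) * γ (σ 2) (σ 3) = c • γ (σ 4) (σ 5) := by
    rw [← mul_one (_ * _), ← h.inv (σ 5) (σ 4), ← mul_assoc, f, smul_mul_assoc, one_mul]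
  refine ⟨c, ?_, g⟩
  have g2 := congrArg (fun X => (X * X).trace) g
  rw [mul_assoc, ← mul_assoc (γ (σ 2) _), ← h'.comm (i := 0) (j := 1) (l := 2) (m := 3) (by decide), mul_assoc,
    h'.sq (by decide), ← mul_assoc, h'.sq (by decide), smul_mul_smul_comm, h'.sq (by decide), neg_mul_neg, one_mul,
    trace_smul, trace_neg, trace_one, h4] at g2
  refine mul_right_cancel₀ (four_ne h2) ?_
  simp only [smul_eq_mul, Nat.cast_ofNat] at g2
  linear_combination g2

/-- the biaxial involution proportional to `γ n o` -/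
theorem bi {i j l m : Fin 6} (e : [i, j, l, m].Nodup) : Bi (γ i j * γ l m) := by
  have c : ∀ i j l m : Fin 6, [i, j, l, m].Nodup → i ≠ j ∧ l ≠ m ∧ ∃ a c, ov i j a c ≠ ov l m a c := by
    decide +kernel
  obtain ⟨a, b, x, y, f⟩ := c i j l m e
  exact ⟨by rw [mul_assoc, ← mul_assoc (γ l m), ← h.comm e, mul_assoc, h.sq b, ← mul_assoc, h.sq a, neg_mul_neg,
    one_mul], h.tr_mul h4 h2 f⟩

end Fr

theorem eqns_FrA : True := by
  have := @Fx.ov.eq_1
  trivial

end H28.R4
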