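import Cfsg.Agent.Lib.R4.FrA

/-! Clifford frames of lifts: the elementary abelian group and its normaliser. -/

set_option autoImplicit false
set_option linter.unusedSectionVars false

namespace H28.R4

open Matrix Subgroup Cfsg Fx
open scoped MatrixGroups

variable {G k ι : Type*} [Group G] [Field k] [Fintype ι] [DecidableEq ι]
  {C : Cx G k ι} {g : G} {M : Matrix ι ι k} {γ : Fin 6 → Fin 6 → Matrix ι ι k} {b : Fin 6 → Fin 6 → G}

namespace Cx

theorem Ind.mul {g h : G} {σ τ : Equiv.Perm (Fin 6)} (a : Ind b g σ) (c : Ind b h τ) : Ind b (g * h) (σ * τ) :=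
  fun i j => by rw [Equiv.Perm.mul_apply, Equiv.Perm.mul_apply, ← a, ← c]; group

theorem Ind.inv {σ : Equiv.Perm (Fin 6)} (a : Ind b g σ) : Ind b g⁻¹ σ⁻¹ := fun i j => by
  have := a (σ⁻¹ i) (σ⁻¹ j)
  simp only [Equiv.Perm.coe_inv, Equiv.apply_symm_apply] at this
  simp only [Equiv.Perm.coe_inv]
  rw [← this]; group

namespace FG

theorem perm (h : C.FG γ b) (σ : Equiv.Perm (Fin 6)) :
    C.FG (fun i j => γ (σ i) (σ j)) fun i j => b (σ i) (σ j) := ⟨h.toFr.perm σ, fun _ _ => h.lift _ _⟩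

theorem mem_fB_perm (σ τ : Equiv.Perm (Fin 6)) :
    τ ∈ fB (fun i j => b (σ i) (σ j)) ↔ σ * τ * σ⁻¹ ∈ fB b :=
  exists_congr fun _ => ⟨fun a i j => by simpa using a (σ⁻¹ i) (σ⁻¹ j), fun a i j => by simpa using a (σ i) (σ j)⟩

theorem fA_perm (σ : Equiv.Perm (Fin 6)) : fA (fun i j => b (σ i) (σ j)) = fA b := by
  unfold fA
  congr 1
  ext a
  exact ⟨fun ⟨i, j, e⟩ => ⟨_, _, e⟩, fun ⟨i, j, e⟩ => ⟨σ⁻¹ i, σ⁻¹ j, by simpa using e⟩⟩

variable (h : C.FG γ b) (h2 : (2 : k) ≠ 0)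
include h h2

theorem self' (i : Fin 6) : b i i = 1 := C.inj (h.lift i i) (h.self i ▸ C.one)

theorem symm (i j : Fin 6) : b j i = b i j := by
  by_cases e : i = j
  · rw [e]
  · exact C.inj (h.lift j i) (h.anti i j e ▸ neg (h.lift i j))

theorem mul' (i j l : Fin 6) : b i j * b j l = b i l :=
  C.inj (C.mul (h.lift i j) (h.lift j l)) (h.mul i j l ▸ h.lift i l)

theorem mul_self (i j : Fin 6) : b i j * b i j = 1 := by
  rw [← h.self' h2 i, ← h.mul' h2 i j i, h.symm h2 i j]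

theorem ov_eq {i j l m n o r s : Fin 6} (e : g * b i j * g⁻¹ = b n o) (f : g * b l m * g⁻¹ = b r s) :
    ov n o r s = ov i j l m := by
  obtain ⟨M, hM⟩ := C.ex g
  obtain ⟨c, -, a⟩ := C.uniq (conj hM (h.lift i j)) (e ▸ h.lift n o)
  obtain ⟨d, -, a'⟩ := C.uniq (conj hM (h.lift l m)) (f ▸ h.lift r s)
  have k : ∀ X Y : Matrix ι ι k, M * X * M⁻¹ * (M * Y * M⁻¹) = M * (X * Y) * M⁻¹ := fun X Y => by
    rw [mul_assoc (M * X), ← mul_assoc M⁻¹, ← mul_assoc M⁻¹, inv_mul hM, one_mul, ← mul_assoc, mul_assoc M]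
  have e1 : γ n o * γ r s = (c * d) • (M * (γ i j * γ l m) * M⁻¹) := by rw [a, a', smul_mul_smul_comm, k]
  have e2 : γ r s * γ n o = (c * d) • (M * (γ l m * γ i j) * M⁻¹) := by rw [a, a', smul_mul_smul_comm, k, mul_comm]
  have n0 := ne_zero (C.mul (h.lift n o) (h.lift r s))
  cases x : ov n o r s <;> cases y : ov i j l m
  · rfl
  · exact absurd (eq_zero_of_neg h2 (by
      conv_rhs => rw [h.toFr.cm0 x, e2]
      rw [e1, h.toFr.cm1 y, mul_neg, neg_mul, smul_neg])) n0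
  · exact absurd (eq_zero_of_neg h2 (by
      conv_rhs => rw [e1, h.toFr.cm0 y, ← e2]
      exact h.toFr.cm1 x)) n0
  · rfl

theorem eq_iff {i j l m : Fin 6} (e : i ≠ j) : b i j = b l m ↔ (i = l ∧ j = m) ∨ (i = m ∧ j = l) := by
  refine ⟨fun a => ?_, ?_⟩
  · have c : ∀ i j l m : Fin 6, i ≠ j → (∀ r s, ov l m r s = ov i j r s) → (i = l ∧ j = m) ∨ (i = m ∧ j = l) := by
      decide +kernel
    exact c i j l m e fun r s => h.ov_eq h2 (g := 1) (by simpa using a) (by simp)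
  · rintro (⟨rfl, rfl⟩ | ⟨rfl, rfl⟩)
    exacts [rfl, h.symm h2 _ _]

theorem ne_one {i j : Fin 6} (e : i ≠ j) : b i j ≠ 1 := fun a => by
  rcases (h.eq_iff h2 e).1 (a.trans (h.self' h2 i).symm) with f | f
  exacts [e f.2.symm, e f.2.symm]

theorem order {i j : Fin 6} (e : i ≠ j) : orderOf (b i j) = 2 :=
  orderOf_eq_prime (by rw [sq, h.mul_self h2]) (h.ne_one h2 e)

theorem comm (i j l m : Fin 6) : b i j * b l m = b l m * b i j :=
  (comm_iff (h.lift i j) (h.lift l m)).2 (h.toFr.cm i j l m)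

theorem triple {i j l m n o : Fin 6} (e : [i, j, l, m, n, o].Nodup) : b i j * b l m = b n o := by
  obtain ⟨c, -, f⟩ := h.toFr.triple C.card h2 e
  exact (eq_of_smul (h.lift n o) (C.mul (h.lift i j) (h.lift l m)) f).symm

theorem mem_fA : g ∈ fA b ↔ ∃ i j, g = b i j := by
  refine ⟨fun a => ?_, fun a => subset_closure a⟩
  induction a using closure_induction with
  | mem x hx => exact hx
  | one => exact ⟨0, 0, (h.self' h2 0).symm⟩
  | inv x _ ih =>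
    obtain ⟨i, j, rfl⟩ := ih
    exact ⟨i, j, inv_eq_of_mul_eq_one_right (h.mul_self h2 i j)⟩
  | mul x y _ _ ih ih' =>
    obtain ⟨i, j, rfl⟩ := ih
    obtain ⟨l, m, rfl⟩ := ih'
    have c : ∀ i j l m : Fin 6, j = l ∨ j = m ∨ i = l ∨ i = m ∨ i = j ∨ l = m ∨ ∃ n o, [i, j, l, m, n, o].Nodup := by
      decide +kernel
    rcases c i j l m with rfl | rfl | rfl | rfl | rfl | rfl | ⟨n, o, e⟩
    · exact ⟨_, _, h.mul' h2 _ _ _⟩
    · exact ⟨i, l, by rw [h.symm h2 j l, h.mul' h2]⟩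
    · exact ⟨j, m, by rw [h.symm h2 j i, h.mul' h2]⟩
    · exact ⟨j, l, by rw [h.symm h2 j i, h.symm h2 i l, h.mul' h2]⟩
    · exact ⟨l, m, by rw [h.self' h2, one_mul]⟩
    · exact ⟨i, j, by rw [h.self' h2 l, mul_one]⟩
    · exact ⟨n, o, h.triple h2 e⟩

theorem card_fA : Nat.card (fA b) = 16 := by
  have c : ∀ p q : Ix, p.1.1 = p.1.2 ∧ q.1.1 = q.1.2 ∨ (p.1.1 = q.1.1 ∧ p.1.2 = q.1.2) ∨
      (p.1.1 = q.1.2 ∧ p.1.2 = q.1.1) → p = q := by decide +kernel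
  have d : ∀ i j : Fin 6, ∃ p : Ix, (i = j ∧ p.1.1 = p.1.2) ∨ (p.1.1 = i ∧ p.1.2 = j) ∨ (p.1.1 = j ∧ p.1.2 = i) := by
    decide +kernel
  rw [← card_Ix, ← Nat.card_eq_fintype_card]
  refine (Nat.card_congr (Equiv.ofBijective (fun p : Ix => (⟨b p.1.1 p.1.2, subset_closure ⟨_, _, rfl⟩⟩ : fA b))
    ⟨fun p q e => c p q ?_, fun x => ?_⟩)).symm
  · have e : b p.1.1 p.1.2 = b q.1.1 q.1.2 := congrArg Subtype.val e
    by_cases f : p.1.1 = p.1.2
    · exact Or.inl ⟨f, by_contra fun f' => h.ne_one h2 f' (by rw [← e, f, h.self' h2])⟩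
    · exact Or.inr ((h.eq_iff h2 f).1 e)
  · obtain ⟨i, j, e⟩ := (h.mem_fA h2).1 x.2
    obtain ⟨p, f⟩ := d i j
    refine ⟨p, Subtype.ext (e ▸ ?_)⟩
    rcases f with ⟨rfl, f⟩ | ⟨rfl, rfl⟩ | ⟨rfl, rfl⟩
    exacts [by rw [h.self' h2]; show b p.1.1 p.1.2 = 1; rw [f, h.self' h2], rfl, h.symm h2 _ _]

theorem cent (e : ∀ i j, g * b i j = b i j * g) : g ∈ fA b := by
  obtain ⟨M, hM⟩ := C.ex g
  obtain ⟨n, o, c, f⟩ := h.toFr.of_proj C.card h2 (unit hM) fun i j => (comm_iff hM (h.lift i j)).1 (e i j)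
  exact subset_closure ⟨n, o, (eq_of_smul (h.lift n o) hM f).symm⟩

theorem mem_norm : g ∈ normalizer (fA b : Set G) ↔ ∃ σ, Ind b g σ := by
  refine ⟨fun a => ?_, fun ⟨σ, a⟩ => mem_normalizer_iff.2 fun x => ?_⟩
  · have k : ∀ i, ∃ n o, g * b 0 i * g⁻¹ = b n o := fun i =>
      (h.mem_fA h2).1 ((mem_normalizer_iff.1 a _).1 (subset_closure ⟨_, _, rfl⟩))
    have c1 : ∀ n o r s, ov n o r s = true → n = r ∨ n = s ∨ o = r ∨ o = s := by decide +kernel
    have c2 : ∀ c x y, ov c x c y = true → ∀ n o, ov c x n o = true → ov c y n o = true →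
      (n = x ∧ o = y ∨ n = y ∧ o = x) ∨ n = c ∨ o = c := by decide +kernel
    obtain ⟨c, x, y, e1, e2⟩ : ∃ c x y, g * b 0 1 * g⁻¹ = b c x ∧ g * b 0 2 * g⁻¹ = b c y := by
      obtain ⟨n, o, e1⟩ := k 1
      obtain ⟨r, s, e2⟩ := k 2
      rcases c1 n o r s (h.ov_eq h2 e1 e2) with rfl | rfl | rfl | rfl
      exacts [⟨_, _, _, e1, e2⟩, ⟨_, _, _, e1, e2.trans (h.symm h2 _ _)⟩, ⟨_, _, _, e1.trans (h.symm h2 _ _), e2⟩,
        ⟨_, _, _, e1.trans (h.symm h2 _ _), e2.trans (h.symm h2 _ _)⟩]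
    have k' : ∀ i, ∃ w, g * b 0 i * g⁻¹ = b c w := fun i => by
      have c3 : ∀ i : Fin 6, i = 0 ∨ i = 1 ∨ i = 2 ∨ (ov 0 1 0 i = true ∧ ov 0 2 0 i = true) := by decide +kernel
      rcases c3 i with rfl | rfl | rfl | ⟨a1, a2⟩
      · exact ⟨c, by rw [h.self' h2, h.self' h2, mul_one, mul_inv_cancel]⟩
      · exact ⟨x, e1⟩
      · exact ⟨y, e2⟩
      obtain ⟨n, o, e⟩ := k i
      rcases c2 c x y (h.ov_eq h2 e1 e2) n o ((h.ov_eq h2 e1 e).trans a1) ((h.ov_eq h2 e2 e).trans a2) with f | rfl | rfl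
      · have e3 : g * b 1 2 * g⁻¹ = b n o := by
          rw [← h.mul' h2 1 0 2, h.symm h2 0 1, ← conj_mul, e1, e2, h.symm h2 x c, h.mul' h2]
          rcases f with ⟨rfl, rfl⟩ | ⟨rfl, rfl⟩
          exacts [rfl, h.symm h2 _ _]
        rcases (h.eq_iff h2 (by decide)).1 (mul_left_cancel (mul_right_cancel (e3.trans e.symm))) with f | f
        exacts [absurd f.1 (by decide), absurd f.2 (by decide)]
      · exact ⟨_, e⟩
      · exact ⟨_, e.trans (h.symm h2 _ _)⟩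
    choose f hf using k'
    have k2 : ∀ i j, g * b i j * g⁻¹ = b (f i) (f j) := fun i j => by
      rw [← h.mul' h2 i 0 j, h.symm h2 0 i, ← conj_mul, hf, hf, h.symm h2 (f i) c, h.mul' h2]
    exact ⟨Equiv.ofBijective f (Finite.injective_iff_bijective.1 fun i j e => by_contra fun e' =>
      h.ne_one h2 e' (conj_eq_one_iff.1 (by rw [k2, e, h.self' h2]))), k2⟩
  · rw [h.mem_fA h2, h.mem_fA h2]
    exact ⟨fun ⟨i, j, e⟩ => ⟨_, _, e ▸ a i j⟩, fun ⟨i, j, e⟩ => ⟨_, _, Eq.trans (by rw [← e]; group) (a.inv i j)⟩⟩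

theorem ind_unique {σ τ : Equiv.Perm (Fin 6)} (e1 : Ind b g σ) (e2 : Ind b g τ) : σ = τ := Equiv.ext fun i => by
  have c : ∀ i : Fin 6, ∃ j l, i ≠ j ∧ i ≠ l ∧ j ≠ l := by decide +kernel
  obtain ⟨j, l, a1, a2, a3⟩ := c i
  rcases (h.eq_iff h2 (σ.injective.ne a1)).1 ((e1 i j).symm.trans (e2 i j)) with f | f
  · exact f.1
  rcases (h.eq_iff h2 (σ.injective.ne a2)).1 ((e1 i l).symm.trans (e2 i l)) with f' | f'
  · exact f'.1
  exact absurd (τ.injective (f.1.symm.trans f'.1)) a3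

theorem ind_one : Ind b g 1 ↔ g ∈ fA b :=
  ⟨fun a => h.cent h2 fun i j => mul_inv_eq_iff_eq_mul.1 (a i j), fun a i j => by
    obtain ⟨l, m, rfl⟩ := (h.mem_fA h2).1 a
    exact mul_inv_eq_iff_eq_mul.2 (h.comm h2 _ _ _ _)⟩

theorem exists_sg : ∃ s : normalizer (fA b : Set G) →* Equiv.Perm (Fin 6), (∀ x, Ind b x.1 (s x)) ∧
    s.range = fB b ∧ s.ker = (fA b).subgroupOf _ := by
  choose s hs using fun x : normalizer (fA b : Set G) => (h.mem_norm h2).1 x.2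
  refine ⟨MonoidHom.mk' s fun x y => h.ind_unique h2 (hs _) ((hs x).mul (hs y)), hs, Subgroup.ext fun σ =>
    ⟨fun ⟨x, e⟩ => ⟨x, e ▸ hs x⟩, fun ⟨g, e⟩ => ⟨⟨g, (h.mem_norm h2).2 ⟨σ, e⟩⟩, h.ind_unique h2 (hs _) e⟩⟩,
    Subgroup.ext fun x => ⟨fun e => (h.ind_one h2).1 ((show s x = 1 from e) ▸ hs x),
      fun e => h.ind_unique h2 (hs x) ((h.ind_one h2).2 e)⟩⟩

theorem card_norm [Finite G] : Nat.card (normalizer (fA b : Set G)) = 16 * Nat.card (fB b) := by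
  obtain ⟨s, -, a, c⟩ := h.exists_sg h2
  rw [← a, ← index_ker, ← card_mul_index s.ker, c, Nat.card_congr (subgroupOfEquivOfLe le_normalizer).toEquiv,
    h.card_fA h2]

theorem ind_smul {σ : Equiv.Perm (Fin 6)} (e : Ind b g σ) (hg : C.L g M) (i j : Fin 6) :
    ∃ c : k, M * γ i j = c • (γ (σ i) (σ j) * M) :=
  (Cx.eq_iff (C.mul (h.lift _ _) hg) (C.mul hg (h.lift _ _))).1 (mul_inv_eq_iff_eq_mul.1 (e i j)).symm

theorem ind_sign {σ : Equiv.Perm (Fin 6)} (e : Ind b g σ) (hg : C.L g M) : ∃ ε : Fin 6 → k,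
    (∀ i, ε i = 1 ∨ ε i = -1) ∧ ∀ i j, M * γ i j = (ε i * ε j) • (γ (σ i) (σ j) * M) := by
  have k : ∀ i, ∃ c : k, (c = 1 ∨ c = -1) ∧ M * γ 0 i = c • (γ (σ 0) (σ i) * M) ∧
      M * γ i 0 = c • (γ (σ i) (σ 0) * M) := fun i => by
    by_cases f : 0 = i
    · exact ⟨1, Or.inl rfl, by simp [← f, h.self]⟩
    obtain ⟨c, a⟩ := h.ind_smul h2 e hg 0 i
    have a' : M * γ i 0 = c • (γ (σ i) (σ 0) * M) := by
      rw [h.anti _ _ f, h.anti _ _ (σ.injective.ne f), mul_neg, a, neg_mul, smul_neg]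
    refine ⟨c, mul_self_eq_one_iff.1 (smul_left_injective k (ne_zero hg) ?_), a, a'⟩
    show (c * c) • M = (1 : k) • M
    rw [one_smul]
    conv_rhs => rw [← mul_one M, ← h.toFr.inv 0 i, ← mul_assoc, a, smul_mul_assoc, mul_assoc, a', mul_smul_comm,
      smul_smul, ← mul_assoc, h.toFr.inv, one_mul]
  choose ε a c d using k
  exact ⟨ε, a, fun i j => by rw [← h.mul i 0 j, ← mul_assoc, d, smul_mul_assoc, mul_assoc, c, mul_smul_comm,
    smul_smul, ← mul_assoc, h.mul]⟩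

/-- the normaliser of the frame is the full preimage of `fB` -/
theorem of_matrix {σ : Equiv.Perm (Fin 6)} (hσ : σ ∈ fB b) (hM : IsUnit M)
    (e : ∀ i j, ∃ c : k, M * γ i j = c • (γ (σ i) (σ j) * M)) : ∃ g, C.L g M ∧ Ind b g σ := by
  obtain ⟨g, a⟩ := hσ
  obtain ⟨N, hN⟩ := C.ex g
  obtain ⟨n, o, c, f⟩ := h.toFr.of_proj C.card h2 ((unit (inv hN)).mul hM) fun i j => by
    obtain ⟨c, f⟩ := e i j
    obtain ⟨d, f'⟩ := h.ind_smul h2 a.inv (inv hN) (σ i) (σ j)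
    simp only [Equiv.Perm.coe_inv, Equiv.symm_apply_apply] at f'
    exact ⟨c * d, by rw [mul_assoc, f, mul_smul_comm, ← mul_assoc, f', smul_mul_assoc, smul_smul, mul_assoc]⟩
  have f' : M = c • (N * γ n o) := by rw [← mul_smul_comm, ← f, ← mul_assoc, mul_inv hN, one_mul]
  refine ⟨g * b n o, f' ▸ C.smul (C.mul hN (h.lift n o)) ?_,
    mul_one σ ▸ a.mul ((h.ind_one h2).2 (subset_closure ⟨_, _, rfl⟩))⟩
  rintro rfl
  have := C.nonempty
  exact hM.ne_zero (by rw [f', zero_smul])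

/-- the lift of a three-cycle without signs -/
theorem three {i j l : Fin 6} (e : [i, j, l].Nodup) :
    IsUnit (1 + γ i j + γ j l + γ l i) ∧ (1 + γ i j + γ j l + γ l i) ^ 3 = (-8 : k) • 1 ∧ ∀ m n,
      (1 + γ i j + γ j l + γ l i) * γ m n =
        γ ((Equiv.swap i j * Equiv.swap i l) m) ((Equiv.swap i j * Equiv.swap i l) n) *
          (1 + γ i j + γ j l + γ l i) := by
  simp only [List.nodup_cons, List.mem_cons, List.not_mem_nil, or_false, not_or] at e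
  have a1 := h.anti i j e.1.1
  have a2 := h.anti j l e.2.1
  have a3 := h.anti l i (Ne.symm e.1.2)
  have kk : (1 + γ i j + γ j l + γ l i) ^ 3 = (-8 : k) • 1 := by
    have k1 : (γ i j + γ j l + γ l i) * (γ i j + γ j l + γ l i) = -3 := by
      have b1 : γ j l * γ i j = γ l i := by rw [← neg_mul_neg, ← a1, ← a2, h.mul]
      have b2 : γ l i * γ j l = γ i j := by rw [← neg_mul_neg, ← a2, ← a3, h.mul]
      have b3 : γ i j * γ l i = γ j l := by rw [← neg_mul_neg, ← a1, ← a3, h.mul]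
      simp only [mul_add, add_mul, h.mul, b1, b2, b3, a1, a2, a3, h.toFr.sq e.1.1, h.toFr.sq e.2.1,
        h.toFr.sq (Ne.symm e.1.2)]
      rw [show (3 : Matrix ι ι k) = 1 + 1 + 1 by norm_num]
      abel
    rw [add_assoc 1, add_assoc 1]
    generalize γ i j + γ j l + γ l i = u at k1
    calc _ = 1 + 3 * u + 3 * (u * u) + u * (u * u) := by noncomm_ring
      _ = -(8 : Matrix ι ι k) := by rw [k1]; noncomm_ring; norm_num
      _ = _ := by rw [neg_smul, ofNat_smul_eq_nsmul]; simp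
  refine ⟨(isUnit_pow_iff three_ne_zero).1 (kk ▸ IsUnit.smul (Units.mk0 (-8 : k) ?_) isUnit_one), kk, fun m n => ?_⟩
  · rw [show (-8 : k) = -2 ^ 3 by norm_num]
    exact neg_ne_zero.2 (pow_ne_zero _ h2)
  · have := h.toFr.two_refl i j i l m n
    rwa [h.self, a1, a3, show 1 - -γ l i - (-γ i j - γ j l) = 1 + γ i j + γ j l + γ l i by abel] at this

/-- the lift of a double transposition without signs -/
theorem dbl {i j l m : Fin 6} (e : [i, j, l, m].Nodup) :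
    (γ i l - γ i m - γ j l + γ j m) * (γ i l - γ i m - γ j l + γ j m) = (-4 : k) • 1 ∧ ∀ n o,
      (γ i l - γ i m - γ j l + γ j m) * γ n o =
        γ ((Equiv.swap i j * Equiv.swap l m) n) ((Equiv.swap i j * Equiv.swap l m) o) *
          (γ i l - γ i m - γ j l + γ j m) := by
  simp only [List.nodup_cons, List.mem_cons, List.not_mem_nil, or_false, not_or] at e
  refine ⟨?_, fun n o => ?_⟩
  · have k : ∀ {x y}, x ≠ y → ∀ a c, (γ a x - γ a y) * (γ x c - γ y c) = γ a c + γ a c := fun f a c => by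
      rw [mul_sub, h.toFr.reflR, h.toFr.reflR, Equiv.swap_apply_left, Equiv.swap_apply_right, mul_sub, mul_sub, h.mul, h.mul,
        h.toFr.exch a c f]
      abel
    have k1 := k e.1.1
    have k2 := k e.2.2.1
    conv_lhs => rhs; rw [show γ i l - γ i m - γ j l + γ j m = -(γ l i - γ m i - (γ l j - γ m j)) by
      rw [h.anti i l e.1.2.1, h.anti i m e.1.2.2, h.anti j l e.2.1.1, h.anti j m e.2.1.2]; abel]
    rw [show γ i l - γ i m - γ j l + γ j m = γ i l - γ i m - (γ j l - γ j m) by abel, mul_neg, sub_mul, mul_sub _ (_ - _),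
      mul_sub _ (_ - _), k2, k2, k2, k2, h.self, h.self, h.anti i j e.1.1, neg_smul, ofNat_smul_eq_nsmul]
    abel
  · have := h.toFr.two_refl i j l m n o
    rwa [show γ i l - γ i m - (γ j l - γ j m) = γ i l - γ i m - γ j l + γ j m by abel] at this

end FG

end Cx

end H28.R4
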