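import Cfsg.Agent.Lib.R4.FrB
import Cfsg.Agent.Lib.R4.Base

/-! Elementary abelian 2-subgroups. -/

set_option autoImplicit false
set_option linter.unusedSectionVars false
set_option linter.unusedSimpArgs false

namespace H28.R4

open Matrix Subgroup Cfsg Fx Cx
open scoped MatrixGroups

variable {G k ι : Type*} [Group G] [Field k] [Fintype ι] [DecidableEq ι]
  {C : Cx G k ι} {p : ℕ} {g a b c d : G} {M N A B D F R : Matrix ι ι k} {E K L : Subgroup G}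

namespace Fx

theorem exists_notMem (l : List G) (h : l.length < Nat.card E) : ∃ x ∈ E, x ∉ l := by
  classical
  by_contra f
  push Not at f
  have := Set.ncard_le_ncard (s := (E : Set G)) (t := l.toFinset) fun x hx => by simpa using f x hx
  rw [Set.ncard_coe_finset] at this
  exact (h.trans_le (this.trans l.toFinset_card_le)).false

theorem card_eq_two_mul (h : ∀ x ∈ E, ∀ y ∈ E, x ∉ K → y ∉ K → x * y ∈ K) (ha : a ∈ E) (hn : a ∉ K) :
    Nat.card E = 2 * Nat.card (E ⊓ K :) := by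
  rw [← relIndex_bot_left, ← relIndex_bot_left, ← relIndex_mul_relIndex ⊥ (E ⊓ K) E bot_le inf_le_left,
    inf_relIndex_left, relIndex_eq_two_iff_exists_notMem_and.2 ⟨a, ha, hn, fun x hx =>
      or_iff_not_imp_right.2 fun f => h x hx a ha f hn⟩, mul_comm]

theorem card_le_two_mul (h : ∀ x ∈ E, ∀ y ∈ E, x ∉ K → y ∉ K → x * y ∈ K) :
    Nat.card E ≤ 2 * Nat.card (E ⊓ K :) := by
  by_cases f : E ≤ K
  · rw [inf_of_le_left f]; omega
  · obtain ⟨a, ha, hn⟩ := SetLike.not_le_iff_exists.1 f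
    exact (card_eq_two_mul h ha hn).le

theorem le_of_two (h : ∀ x ∈ E, ∀ y ∈ E, x ∉ K → y ∉ K → x * y ∈ K) (ha : a ∈ E) (hn : a ∉ K) (h1 : E ⊓ K ≤ L)
    (h2 : a ∈ L) : E ≤ L := fun x hx => by
  by_cases f : x ∈ K
  · exact h1 ⟨hx, f⟩
  · exact (mul_mem_cancel_right h2).1 (h1 ⟨mul_mem hx ha, h x hx a ha f hn⟩)

theorem ecomm (hE : ∀ a ∈ E, a ^ 2 = 1) (ha : a ∈ E) (hb : b ∈ E) : a * b = b * a := by
  have := hE _ (mul_mem ha hb)
  rwa [sq, ← eq_inv_iff_mul_eq_one, _root_.mul_inv_rev, inv_eq_of_mul_eq_one_right ((sq a).symm.trans (hE a ha)),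
    inv_eq_of_mul_eq_one_right ((sq b).symm.trans (hE b hb))] at this

theorem St_symm (hg : C.L a A) (hh : C.L b B) (e : a ∈ C.St B) : b ∈ C.St A :=
  (mem_St hh).2 ((mem_St hg).1 e).symm

theorem anti_of (h2 : (2 : k) ≠ 0) (ha : C.L a A) (hA : A * A = 1) (hg : C.L g M) (e : g * a = a * g)
    (n : g ∉ C.St A) : M * A = -(A * M) :=
  (comm_cases h2 ha hA hg e).resolve_left fun f => n ((mem_St hg).2 f)

theorem St_two (h2 : (2 : k) ≠ 0) (hE : ∀ a ∈ E, a ^ 2 = 1) (hK : K ≤ E) (h : a ∈ E) (ha : C.L a A) (hA : A * A = 1) :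
    ∀ x ∈ K, ∀ y ∈ K, x ∉ C.St A → y ∉ C.St A → x * y ∈ C.St A := fun x hx y hy m n => by
  obtain ⟨X, hX⟩ := C.ex x
  obtain ⟨Y, hY⟩ := C.ex y
  exact mul_mem_St hX hY (anti_of h2 ha hA hX (ecomm hE (hK hx) h) m) (anti_of h2 ha hA hY (ecomm hE (hK hy) h) n)

theorem lift1 (H : C.Hy p) (h : a ^ 2 = 1) : ∃ A, C.L a A ∧ A * A = 1 :=
  haveI := H.closed
  (exists_pow two_ne_zero h).imp fun A e => ⟨e.1, sq A ▸ e.2⟩

theorem no_three (h4 : Fintype.card ι = 4) (h2 : (2 : k) ≠ 0) (hA : Bi A) (h1 : B * A = A * B) (h3 : D * A = A * D)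
    (h5 : B * D = D * B) (hB : B * D * (B * D) = 1) (t1 : B.trace = 0) (t2 : (A * B).trace = 0) (t3 : D.trace = 0)
    (t4 : (A * D).trace = 0) (t5 : (B * D).trace = 0) (t6 : (A * (B * D)).trace = 0) : False := by
  obtain ⟨P, P', e1, e2, e3⟩ := hA.exists_diag h4 h2
  have k1 : ∀ {M x y}, P * M * P' = fromBlocks x 0 0 y → M.trace = 0 → (A * M).trace = 0 → x.trace = 0 :=
    fun e t t' => by
      rw [← Bx.trace_cj e2, e, Bx.trace_fromBlocks] at t
      rw [← Bx.trace_cj e2, Bx.cj_mul e2, e3, e, fromBlocks_multiply, Bx.trace_fromBlocks] at t'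
      simp only [Matrix.one_mul, Matrix.zero_mul, Matrix.neg_mul, add_zero, zero_add, trace_neg] at t'
      exact (mul_eq_zero.1 (by linear_combination t + t')).resolve_left h2
  obtain ⟨x, y, e4⟩ := Bx.blocks h2 e2 e3 h1
  obtain ⟨z, w, e5⟩ := Bx.blocks h2 e2 e3 h3
  have e6 : P * (B * D) * P' = fromBlocks (x * z) 0 0 (y * w) := by
    rw [Bx.cj_mul e2, e4, e5, fromBlocks_multiply]; simp
  have e7 : P * (B * D) * P' = fromBlocks (z * x) 0 0 (w * y) := by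
    rw [h5, Bx.cj_mul e2, e4, e5, fromBlocks_multiply]; simp
  have e8 := (Bx.blocks_sq (a := x * z) (d := y * w) (by rw [← e6, ← Bx.cj_mul e2, hB, Matrix.mul_one, e1])).1
  have e9 : x * z + z * x = x.trace • z + z.trace • x + ((x * z).trace - x.trace * z.trace) • 1 := by
    ext i j
    fin_cases i <;> fin_cases j <;> simp [trace_fin_two, mul_apply, Fin.sum_univ_two] <;> ring
  rw [k1 e4 t1 t2, k1 e5 t3 t4, k1 e6 t5 t6, ← (fromBlocks_inj.1 (e6.symm.trans e7)).1] at e9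
  rw [eq_zero_of_neg h2 (M := x * z) (eq_neg_of_add_eq_zero_left (by simpa using e9))] at e8
  simpa using congrFun (congrFun e8 0) 0

theorem card_le_four (H : C.Hy p) (hE : ∀ a ∈ E, a ^ 2 = 1) (hb : ∀ a ∈ E, a ≠ 1 → ∀ M, C.L a M → M.trace = 0)
    (hc : ∀ a ∈ E, ∀ A, C.L a A → A * A = 1 → E ≤ C.St A) : Nat.card E ≤ 4 := by
  by_contra f
  obtain ⟨a, ha, a1⟩ := exists_notMem (E := E) [1] (by simp; omega)
  obtain ⟨b, hb', b1⟩ := exists_notMem (E := E) [1, a] (by simp; omega)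
  obtain ⟨c, hc', c1⟩ := exists_notMem (E := E) [1, a, b, a * b] (by simp; omega)
  simp only [List.mem_cons, List.not_mem_nil, or_false, not_or] at a1 b1 c1
  obtain ⟨A, lA, sA⟩ := lift1 H (hE a ha)
  obtain ⟨B, lB, sB⟩ := lift1 H (hE b hb')
  obtain ⟨D, lD, sD⟩ := lift1 H (hE c hc')
  have k : ∀ x ∈ E, ∀ y, y ≠ x → x * y ≠ 1 := fun x hx y n e =>
    n ((eq_inv_of_mul_eq_one_right e).trans (inv_eq_of_mul_eq_one_right (sq x ▸ hE x hx)))
  have e := hc c hc' D lD sD hb' B lB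
  exact no_three C.card H.two ⟨sA, hb a ha a1 A lA⟩ (hc a ha A lA sA hb' B lB) (hc a ha A lA sA hc' D lD) e
    (by rw [mul_assoc, ← mul_assoc D, ← e, mul_assoc, sD, mul_one, sB]) (hb b hb' b1.1 B lB)
    (hb _ (mul_mem ha hb') (k a ha b b1.2) _ (C.mul lA lB)) (hb c hc' c1.1 D lD)
    (hb _ (mul_mem ha hc') (k a ha c c1.2.1) _ (C.mul lA lD))
    (hb _ (mul_mem hb' hc') (k b hb' c c1.2.2.1) _ (C.mul lB lD))
    (hb _ (mul_mem ha (mul_mem hb' hc')) (mul_assoc a b c ▸ k _ (mul_mem ha hb') c c1.2.2.2) _ (C.mul lA (C.mul lB lD)))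

theorem of_cliff {c : Fin 5 → Matrix ι ι k} (h1 : ∀ i, c i * c i = -1) (h2 : ∀ i j, i < j → c i * c j = -(c j * c i)) :
    Fr fun i j : Fin 6 => (Fin.cons 1 (-c) : Fin 6 → Matrix ι ι k) i * (Fin.cons 1 c : Fin 6 → Matrix ι ι k) j := by
  have k : ∀ i, (Fin.cons 1 c : Fin 6 → Matrix ι ι k) i * (Fin.cons 1 (-c) : Fin 6 → Matrix ι ι k) i = 1 :=
    fun i => by refine Fin.cases ?_ (fun i => ?_) i <;> simp [h1]
  refine ⟨fun i j l => (mul_assoc _ _ _).trans (congrArg _ ((mul_assoc _ _ _).symm.trans (by rw [k, one_mul]))), fun i => mul_eq_one_comm.1 (k i),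
    fun i j => ?_⟩
  refine Fin.cases ?_ (fun i => ?_) i <;> refine Fin.cases ?_ (fun j => ?_) j <;> intro e
  · exact absurd rfl e
  · simp
  · simp
  · rcases lt_or_gt_of_ne (fun f => e (congrArg Fin.succ f) : i ≠ j) with f | f <;> simp [h2 _ _ f]

theorem frame_of (H : C.Hy p) (hE : ∀ a ∈ E, a ^ 2 = 1) (ha : a ∈ E) (hb : b ∈ E) (hc : c ∈ E) (hd : d ∈ E)
    (lA : C.L a A) (lB : C.L b B) (lD : C.L c D) (lF : C.L d F) (sA : A * A = 1) (sB : B * B = 1) (sD : D * D = 1)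
    (sF : F * F = 1) (e1 : B * A = -(A * B)) (e2 : F * D = -(D * F)) (e3 : D * A = A * D) (e4 : D * B = B * D)
    (e5 : F * A = A * F) (e6 : F * B = B * F) :
    ∃ (γ : Fin 6 → Fin 6 → Matrix ι ι k) (b : Fin 6 → Fin 6 → G), C.FG γ b ∧ fA b = E := by
  have := H.closed
  obtain ⟨i, hi⟩ := IsAlgClosed.exists_eq_mul_self (-1 : k)
  have i0 : i ≠ 0 := by rintro rfl; simp at hi
  have r : ∀ {X Y : Matrix ι ι k} {s : k}, X * Y = s • (Y * X) → ∀ Z, X * (Y * Z) = s • (Y * (X * Z)) :=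
    fun e Z => by rw [← mul_assoc, e, smul_mul_assoc, mul_assoc]
  have r' : ∀ {X : Matrix ι ι k}, X * X = 1 → ∀ Z, X * (X * Z) = Z := fun e Z => by rw [← mul_assoc, e, one_mul]
  have f1 := r (e1.trans (neg_one_smul k _).symm)
  have f2 := r (e2.trans (neg_one_smul k _).symm)
  have f3 := r (e3.trans (one_smul k _).symm)
  have f4 := r (e4.trans (one_smul k _).symm)
  have f5 := r (e5.trans (one_smul k _).symm)
  have f6 := r (e6.trans (one_smul k _).symm)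
  have fr := of_cliff (c := ![i • A, i • B, A * B * D, A * B * F, i • (A * B * D * F)]) (fun j => by
    fin_cases j <;> simp [mul_assoc, smul_smul, ← hi, f1, f2, f3, f4, f5, f6, r' sA, r' sB, r' sD, sA, sB, sD, sF]) fun j l => by
    fin_cases j <;> fin_cases l <;> simp [mul_assoc, smul_smul, f1, f2, f3, f4, f5, f6, e1, e2, e3, e4, e5, e6,
      r' sA, r' sB, r' sD, sA, sB, sD, sF]
  let x : Fin 6 → G := ![1, a, b, a * b * c, a * b * d, a * b * c * d]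
  have hx : ∀ j, x j ∈ E := fun j => by
    fin_cases j
    exacts [one_mem _, ha, hb, mul_mem (mul_mem ha hb) hc, mul_mem (mul_mem ha hb) hd,
      mul_mem (mul_mem (mul_mem ha hb) hc) hd]
  have fg : C.FG _ fun j l => x j * x l := ⟨fr, fun j l => C.mul (by
    fin_cases j
    exacts [C.one, neg (C.smul lA i0), neg (C.smul lB i0), neg (C.mul (C.mul lA lB) lD), neg (C.mul (C.mul lA lB) lF),
      neg (C.smul (C.mul (C.mul (C.mul lA lB) lD) lF) i0)]) (by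
    fin_cases l
    exacts [C.one, C.smul lA i0, C.smul lB i0, C.mul (C.mul lA lB) lD, C.mul (C.mul lA lB) lF,
      C.smul (C.mul (C.mul (C.mul lA lB) lD) lF) i0])⟩
  exact ⟨_, _, fg, le_antisymm ((closure_le _).2 fun _ ⟨j, l, e⟩ => e ▸ mul_mem (hx j) (hx l))
    fun g hg => fg.cent H.two fun j l => ecomm hE hg (mul_mem (hx j) (hx l))⟩

theorem exists_anti (H : C.Hy p) (hE : ∀ a ∈ E, a ^ 2 = 1) (hK : K ≤ E)
    (h : ¬ ∀ a ∈ K, ∀ A, C.L a A → A * A = 1 → K ≤ C.St A) : ∃ a ∈ K, ∃ b ∈ K, ∃ A B, C.L a A ∧ C.L b B ∧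
      A * A = 1 ∧ B * B = 1 ∧ b ∉ C.St A ∧ a ∉ C.St B ∧ B * A = -(A * B) := by
  push Not at h
  obtain ⟨a, ha, A, lA, sA, n⟩ := h
  obtain ⟨b, hb, n⟩ := SetLike.not_le_iff_exists.1 n
  obtain ⟨B, lB, sB⟩ := lift1 H (hE b (hK hb))
  exact ⟨a, ha, b, hb, A, B, lA, lB, sA, sB, n, fun f => n (St_symm lA lB f),
    anti_of H.two lA sA lB (ecomm hE (hK hb) (hK ha)) n⟩

theorem tri0 (H : C.Hy p) (hE : ∀ a ∈ E, a ^ 2 = 1) (hb : ∀ a ∈ E, a ≠ 1 → ∀ M, C.L a M → M.trace = 0) :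
    Nat.card E ≤ 8 ∨ ∃ (γ : Fin 6 → Fin 6 → Matrix ι ι k) (b : Fin 6 → Fin 6 → G), C.FG γ b ∧ fA b = E := by
  by_cases h : ∀ a ∈ E, ∀ A, C.L a A → A * A = 1 → E ≤ C.St A
  · exact Or.inl ((card_le_four H hE hb h).trans (by norm_num))
  obtain ⟨a, ha, b, hb', A, B, lA, lB, sA, sB, -, n, e⟩ := exists_anti H hE le_rfl h
  by_cases h' : ∀ c ∈ E ⊓ C.St A ⊓ C.St B, ∀ D, C.L c D → D * D = 1 → E ⊓ C.St A ⊓ C.St B ≤ C.St D
  · have m : a ∈ E ⊓ C.St A := ⟨ha, (mem_St lA).2 rfl⟩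
    have k : ∀ {L}, E ⊓ C.St A ⊓ C.St B ≤ L → a ∈ L → E ⊓ C.St A ≤ L :=
      le_of_two (St_two H.two hE inf_le_left hb' lB sB) m n
    have := card_le_four (E := E ⊓ C.St A) H (fun x hx => hE x hx.1) (fun x hx => hb x hx.1) fun x hx X lX _ =>
      k (fun y hy => by
        obtain ⟨Y, lY, sY⟩ := lift1 H (hE y hy.1.1)
        exact St_symm lX lY (k (h' y hy Y lY sY) (St_symm lY lA hy.1.2) hx)) (St_symm lX lA hx.2)
    exact Or.inl ((card_le_two_mul (St_two H.two hE le_rfl ha lA sA)).trans (by omega))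
  obtain ⟨c, hc, d, hd, D, F, lD, lF, sD, sF, -, -, e'⟩ := exists_anti H hE (inf_le_left.trans inf_le_left) h'
  exact Or.inr (frame_of H hE ha hb' hc.1.1 hd.1.1 lA lB lD lF sA sB sD sF e e' (hc.1.2 D lD) (hc.2 D lD) (hd.1.2 F lF)
    (hd.2 F lF))

theorem rf_anti (h4 : Fintype.card ι = 4) (h2 : (2 : k) ≠ 0) (hR : Rf R) (sA : A * A = 1) (sB : B * B = 1)
    (e : B * A = -(A * B)) (e1 : R * A = A * R) (e2 : R * B = B * R) : False := by
  obtain ⟨v, φ, f, rfl⟩ := hR.exists_vec h4 h2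
  have k : ∀ {X : Matrix ι ι k}, (1 - vecMulVec v φ) * X = X * (1 - vecMulVec v φ) → ∃ c : k, X *ᵥ v = c • v :=
    fun {X} e => by
      rw [sub_mul, mul_sub, one_mul, mul_one, sub_right_inj] at e
      have := congrArg (· *ᵥ v) e
      simp only [← mulVec_mulVec, vecMulVec_mulVec, op_smul_eq_smul, f, mulVec_smul] at this
      exact ⟨_, by rw [← inv_smul_smul₀ h2 (X *ᵥ v), ← this, smul_smul]⟩
  obtain ⟨x, hx⟩ := k e1
  obtain ⟨y, hy⟩ := k e2
  have e3 := congrArg (· *ᵥ v) e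
  simp only [neg_mulVec, ← mulVec_mulVec, hx, hy, mulVec_smul, smul_smul] at e3
  have e4 : (A * B) *ᵥ v = 0 := by
    rw [← mulVec_mulVec, hy, mulVec_smul, hx, smul_smul, ← inv_smul_smul₀ h2 (_ • v), two_smul]
    conv_lhs => rhs; lhs; rw [mul_comm, e3]
    rw [neg_add_cancel, smul_zero]
  have e5 : v = 0 := by
    rw [← one_mulVec v, show 1 = B * A * (A * B) by rw [mul_assoc, ← mul_assoc A, sA, one_mul, sB], ← mulVec_mulVec, e4,
      mulVec_zero]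
  exact h2 (by rw [← f, e5, dotProduct_zero])

theorem tri (H : C.Hy p) (hE : ∀ a ∈ E, a ^ 2 = 1) :
    Nat.card E ≤ 8 ∨ ∃ (γ : Fin 6 → Fin 6 → Matrix ι ι k) (b : Fin 6 → Fin 6 → G), C.FG γ b ∧ fA b = E := by
  by_cases h : ∀ a ∈ E, ∀ R, C.L a R → ¬ Rf R
  · refine tri0 H hE fun a ha a1 M hM => ?_
    obtain ⟨T, lT, e⟩ := H.invol (orderOf_eq_prime (hE a ha) a1)
    obtain ⟨c, -, rfl⟩ := C.uniq lT hM
    rw [trace_smul, (e.resolve_right (h a ha T lT)).2, smul_zero]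
  push Not at h
  obtain ⟨r, hr, R, lR, hR⟩ := h
  have k : ∀ a ∈ E, ∀ A, C.L a A → A * A = 1 → R * A = A * R := fun a ha A lA sA =>
    (comm_cases H.two lA sA lR (ecomm hE hr ha)).resolve_right fun f => H.two (hR.2.1 ▸ tr_anti H.two f sA)
  have hc : ∀ a ∈ E, ∀ A, C.L a A → A * A = 1 → E ≤ C.St A := by
    by_contra f
    obtain ⟨a, ha, b, hb, A, B, lA, lB, sA, sB, -, -, e⟩ := exists_anti H hE le_rfl f
    exact rf_anti C.card H.two hR sA sB e (k a ha A lA sA) (k b hb B lB sB)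
  have sq : ∀ a ∈ E, ∀ b ∈ E, ∀ A B, C.L a A → C.L b B → A * A = 1 → B * B = 1 → A * B * (A * B) = 1 :=
    fun a ha b hb A B lA lB sA sB => by
      rw [mul_assoc, ← mul_assoc B, hc a ha A lA sA hb B lB, mul_assoc, sB, mul_one, sA]
  let K : Subgroup G :=
    { carrier := {a | a ∈ E ∧ ∃ A, C.L a A ∧ A * A = 1 ∧ A.det = 1}
      mul_mem' := fun ⟨ha, A, lA, sA, dA⟩ ⟨hb, B, lB, sB, dB⟩ =>
        ⟨mul_mem ha hb, A * B, C.mul lA lB, sq _ ha _ hb A B lA lB sA sB, by rw [det_mul, dA, dB, one_mul]⟩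
      one_mem' := ⟨one_mem _, 1, C.one, mul_one _, det_one⟩
      inv_mem' := fun ⟨ha, A, lA, sA, dA⟩ => ⟨inv_mem ha, A, inv_of_mul lA sA, sA, dA⟩ }
  have h1 := card_le_four (E := E ⊓ K) H (fun x hx => hE x hx.1) (fun x ⟨_, _, A, lA, sA, dA⟩ x1 M hM => by
    obtain ⟨c, -, rfl⟩ := C.uniq lA hM
    rcases Bx.invol_cases C.card H.two sA with f | f | f | f | f
    · exact absurd ((eq_one_iff lA).2 ⟨1, by rw [f, one_smul]⟩) x1
    · exact absurd ((eq_one_iff lA).2 ⟨-1, by rw [f, neg_one_smul]⟩) x1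
    · rw [trace_smul, f.2, smul_zero]
    · exact absurd (f.2.2.symm.trans dA) (Bx.neg_one_ne H.two)
    · exact absurd (f.2.2.symm.trans (by rw [det_neg, dA, C.card]; norm_num)) (Bx.neg_one_ne H.two))
    fun x hx A lA sA => inf_le_left.trans (hc x hx.1 A lA sA)
  refine Or.inl ((card_le_two_mul (K := K) fun x hx y hy m n => ?_).trans (by omega))
  have d : ∀ x ∈ E, x ∉ K → ∃ A, C.L x A ∧ A * A = 1 ∧ A.det = -1 := fun x hx m => by
    obtain ⟨A, lA, sA⟩ := lift1 H (hE x hx)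
    exact ⟨A, lA, sA, (mul_self_eq_one_iff.1 (by rw [← det_mul, sA, det_one])).resolve_left
      fun f => m ⟨hx, A, lA, sA, f⟩⟩
  obtain ⟨A, lA, sA, dA⟩ := d x hx m
  obtain ⟨B, lB, sB, dB⟩ := d y hy n
  exact ⟨mul_mem hx hy, A * B, C.mul lA lB, sq _ hx _ hy A B lA lB sA sB, by rw [det_mul, dA, dB]; norm_num⟩

end Fx

end H28.R4
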