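import Mathlib
import Cfsg.Agent.Base

/-!
# The four-dimensional Weil representation of `SL₂(7)` inside `2·A₇`: matrix identities
-/

set_option autoImplicit false

namespace H28.R4.L7

open Matrix

variable {k : Type*} [Field k] {z : k}

abbrev M4 (k : Type*) := Matrix (Fin 4) (Fin 4) k

/-- a primitive seventh root of unity -/
def Cy (z : k) : Prop := z ^ 6 + z ^ 5 + z ^ 4 + z ^ 3 + z ^ 2 + z + 1 = 0

def bb (z : k) : k := z + z ^ 2 + z ^ 4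

def rr (z : k) : k := 1 + 2 * bb z

def U (z : k) : M4 k := !![1, 0, 0, 0; 0, z, 0, 0; 0, 0, z ^ 2, 0; 0, 0, 0, z ^ 4]

def Hm (k : Type*) [Field k] : M4 k := !![1, 0, 0, 0; 0, 0, 0, 1; 0, 1, 0, 0; 0, 0, 1, 0]

def W (z : k) : M4 k := !![1, 2, 2, 2; 1, z ^ 2 + z ^ 5, z + z ^ 6, z ^ 3 + z ^ 4;
  1, z + z ^ 6, z ^ 3 + z ^ 4, z ^ 2 + z ^ 5; 1, z ^ 3 + z ^ 4, z ^ 2 + z ^ 5, z + z ^ 6]

def A (b : k) : M4 k := !![3, 2 * b, 2 * b, 2 * b; -1 - b, -1, -2 - 2 * b, 2 * b;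
  -1 - b, 2 * b, -1, -2 - 2 * b; -1 - b, -2 - 2 * b, 2 * b, -1]

def G (b : k) : M4 k := !![4 + 2 * b, 2 * b, 2 * b, 2 * b; -1 - b, 2 * b, -2 - 2 * b, 2 * b;
  -1 - b, 2 * b, 2 * b, -2 - 2 * b; -1 - b, -2 - 2 * b, 2 * b, 2 * b]

def Sk (a b c d e f : k) : M4 k := !![0, a, b, c; -a, 0, d, e; -b, -d, 0, f; -c, -e, -f, 0]

def S (b t : k) : M4 k := Sk (b * t) (b * t ^ 2) (b * t ^ 4) (t ^ 3) (-t ^ 5) (t ^ 6)

/-- an entry of the exterior square -/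
def mn (X : M4 k) (a b c d e f : k) (i j : Fin 4) : k :=
  a * (X i 0 * X j 1 - X i 1 * X j 0) + b * (X i 0 * X j 2 - X i 2 * X j 0) + c * (X i 0 * X j 3 - X i 3 * X j 0) +
    d * (X i 1 * X j 2 - X i 2 * X j 1) + e * (X i 1 * X j 3 - X i 3 * X j 1) + f * (X i 2 * X j 3 - X i 3 * X j 2)

theorem mul_Sk (X : M4 k) (a b c d e f : k) : X * Sk a b c d e f * Xᵀ =
    Sk (mn X a b c d e f 0 1) (mn X a b c d e f 0 2) (mn X a b c d e f 0 3) (mn X a b c d e f 1 2)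
      (mn X a b c d e f 1 3) (mn X a b c d e f 2 3) := by
  have : ∀ i j, (X * Sk a b c d e f * Xᵀ) i j = mn X a b c d e f i j := fun i j => by
    simp [Sk, mn, mul_apply, Fin.sum_univ_four]; ring
  ext i j
  rw [this]
  fin_cases i <;> fin_cases j <;> simp [Sk, mn] <;> ring

theorem smul_Sk (x a b c d e f : k) : x • Sk a b c d e f = Sk (x * a) (x * b) (x * c) (x * d) (x * e) (x * f) := by
  simp [Sk]

theorem Cy.pow (h : Cy z) : z ^ 7 = 1 := by rw [Cy] at h; linear_combination (z - 1) * h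

theorem Cy.bb (h : Cy z) : bb z ^ 2 + bb z + 2 = 0 := by rw [Cy] at h; rw [L7.bb]; grind

theorem Cy.rr (h : Cy z) : rr z ^ 2 = -7 := by rw [L7.rr]; linear_combination 4 * h.bb

theorem U_pow (n : ℕ) : U z ^ n = U (z ^ n) := by
  induction n with
  | zero => ext i j; fin_cases i <;> fin_cases j <;> simp [U]
  | succ n ih => rw [pow_succ, ih]; simp [U]; refine ⟨?_, ?_, ?_⟩ <;> ring

theorem U_S (b t : k) : U z * S b t * (U z)ᵀ = S b (z * t) := by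
  rw [S, S, mul_Sk]
  congr 1 <;> simp [U, mn] <;> ring

theorem W_S (h : Cy z) (i : Fin 7) :
    ∃ j : Fin 7, W z * S (bb z) (z ^ (i : ℕ)) * (W z)ᵀ = (-7 : k) • S (bb z) (z ^ (j : ℕ)) := by
  rw [Cy] at h
  refine ⟨![0, 4, 2, 3, 1, 6, 5] i, ?_⟩
  rw [S, S, mul_Sk, smul_Sk]
  simp only [W, mn, bb, of_apply, cons_val', cons_val_zero, cons_val_one, cons_val]
  fin_cases i <;> simp only [Fin.mk_zero', Fin.reduceFinMk, Fin.isValue, cons_val, cons_val_zero, cons_val_one,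
    Fin.coe_ofNat_eq_mod, Nat.reduceMod] <;> congr 1 <;> grind

theorem G_S (h : Cy z) (i : Fin 7) :
    ∃ j : Fin 7, G (bb z) * S (bb z) (z ^ (i : ℕ)) * (G (bb z))ᵀ = (-28 : k) • S (bb z) (z ^ (j : ℕ)) := by
  rw [Cy] at h
  refine ⟨![0, 4, 1, 3, 2, 5, 6] i, ?_⟩
  rw [S, S, mul_Sk, smul_Sk]
  simp only [G, mn, bb, of_apply, cons_val', cons_val_zero, cons_val_one, cons_val]
  fin_cases i <;> simp only [Fin.mk_zero', Fin.reduceFinMk, Fin.isValue, cons_val, cons_val_zero, cons_val_one,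
    Fin.coe_ofNat_eq_mod, Nat.reduceMod] <;> congr 1 <;> grind

theorem Cy.ne (h : Cy z) (h7 : (7 : k) ≠ 0) : 1 ≠ z ∧ 1 ≠ z ^ 2 ∧ 1 ≠ z ^ 4 ∧ z ≠ z ^ 2 ∧ z ≠ z ^ 4 ∧ z ^ 2 ≠ z ^ 4 := by
  rw [Cy] at h
  refine ⟨?_, ?_, ?_, ?_, ?_, ?_⟩ <;> intro e <;> apply h7 <;> grind

theorem W_sq (h : Cy z) : W z * W z = (7 : k) • 1 := by
  rw [Cy] at h
  ext i j
  fin_cases i <;> fin_cases j <;> simp [W, mul_apply, Fin.sum_univ_four] <;> grind

theorem A_eq (h : Cy z) : U z ^ 3 * W z * U z ^ 4 + Hm k * (U z ^ 3 * W z * U z ^ 4) * (Hm k * Hm k) +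
    Hm k * Hm k * (U z ^ 3 * W z * U z ^ 4) * Hm k = A (bb z) := by
  rw [Cy] at h
  rw [U_pow, U_pow]
  simp [U, W, Hm, A, bb]
  grind

theorem A_sq {b : k} (h : b ^ 2 + b + 2 = 0) : A b * A b = (21 : k) • 1 := by
  ext i j
  fin_cases i <;> fin_cases j <;> simp [A, mul_apply, Fin.sum_univ_four] <;> grind

theorem G_eq (b : k) : (1 + 2 * b) • (1 : M4 k) + A b = G b := by
  ext i j
  fin_cases i <;> fin_cases j <;> simp [A, G] <;> ring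

theorem G_det {b : k} (h : b ^ 2 + b + 2 = 0) : (G b).det = 784 := by
  simp [G, det_succ_row_zero, Fin.sum_univ_succ, Fin.succAbove]
  grind

theorem Hm_det : (Hm k).det = 1 := by
  simp [Hm, det_succ_row_zero, Fin.sum_univ_succ, Fin.succAbove]

theorem Hm_pow (n : ℕ) : (Hm k ^ n) 0 1 = 0 := by
  have : (Hm k ^ n) 0 1 = 0 ∧ (Hm k ^ n) 0 2 = 0 ∧ (Hm k ^ n) 0 3 = 0 := by
    induction n with
    | zero => simp
    | succ n ih => simp [pow_succ, mul_apply, Fin.sum_univ_four, Hm] at ih ⊢; tauto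
  exact this.1

theorem U_trace (h : Cy z) (h7 : (7 : k) ≠ 0) : (U z ^ 6).trace ≠ (U z).trace := fun e => h7 (by
  rw [Cy] at h
  rw [U_pow] at e
  simp [U, trace, Fin.sum_univ_four] at e
  grind)

theorem four (h : Cy z) (h7 : (7 : k) ≠ 0) {a b c d e f : k} (H : ∀ i : Fin 7,
    a * z ^ (i : ℕ) + b * (z ^ (i : ℕ)) ^ 2 + c * (z ^ (i : ℕ)) ^ 3 + d * (z ^ (i : ℕ)) ^ 4 + e * (z ^ (i : ℕ)) ^ 5 +
      f * (z ^ (i : ℕ)) ^ 6 = 0) : a = 0 ∧ b = 0 ∧ c = 0 ∧ d = 0 ∧ e = 0 ∧ f = 0 := by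
  haveI : Fact (Nat.Prime 7) := ⟨by norm_num⟩
  have ho : orderOf z = 7 := orderOf_eq_prime h.pow (h.ne h7).1.symm
  have := eq_zero_of_forall_index_sum_pow_mul_eq_zero (f := fun i : Fin 7 => z ^ (i : ℕ)) (v := ![0, a, b, c, d, e, f])
    (fun i j e => Fin.ext (pow_injOn_Iio_orderOf (by simpa [ho] using i.2) (by simpa [ho] using j.2) e))
    fun j => by simp [Fin.sum_univ_succ]; linear_combination H j
  simpa using this

theorem Sk_inj {a b c d e f a' b' c' d' e' f' : k} (h : Sk a b c d e f = Sk a' b' c' d' e' f') :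
    a = a' ∧ b = b' ∧ c = c' ∧ d = d' ∧ e = e' ∧ f = f' := by
  simp [Sk] at h
  tauto

theorem sq_of_fix (h : Cy z) (h2 : (2 : k) ≠ 0) (h7 : (7 : k) ≠ 0) {y : M4 k}
    (H : ∀ i : Fin 7, y * S (bb z) (z ^ (i : ℕ)) * yᵀ = S (bb z) (z ^ (i : ℕ))) : y * y = 1 := by
  have b0 : bb z ≠ 0 := fun e => h2 (by simpa [e] using h.bb)
  have H' := fun i => Sk_inj ((mul_Sk _ _ _ _ _ _ _).symm.trans (H i))
  have key : ∀ (r s : Fin 4) (a b c d e f : k), (∀ i : Fin 7, mn y (bb z * z ^ (i : ℕ)) (bb z * (z ^ (i : ℕ)) ^ 2)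
      (bb z * (z ^ (i : ℕ)) ^ 4) ((z ^ (i : ℕ)) ^ 3) (-(z ^ (i : ℕ)) ^ 5) ((z ^ (i : ℕ)) ^ 6) r s =
      a * (bb z * z ^ (i : ℕ)) + b * (bb z * (z ^ (i : ℕ)) ^ 2) + c * (bb z * (z ^ (i : ℕ)) ^ 4) +
        d * (z ^ (i : ℕ)) ^ 3 + e * -(z ^ (i : ℕ)) ^ 5 + f * (z ^ (i : ℕ)) ^ 6) →
      y r 0 * y s 1 - y r 1 * y s 0 = a ∧ y r 0 * y s 2 - y r 2 * y s 0 = b ∧ y r 0 * y s 3 - y r 3 * y s 0 = c ∧
      y r 1 * y s 2 - y r 2 * y s 1 = d ∧ y r 1 * y s 3 - y r 3 * y s 1 = e ∧ y r 2 * y s 3 - y r 3 * y s 2 = f := by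
    intro r s a b c d e f E
    have := four h h7 (a := bb z * (y r 0 * y s 1 - y r 1 * y s 0 - a)) (b := bb z * (y r 0 * y s 2 - y r 2 * y s 0 - b))
      (c := y r 1 * y s 2 - y r 2 * y s 1 - d) (d := bb z * (y r 0 * y s 3 - y r 3 * y s 0 - c))
      (e := -(y r 1 * y s 3 - y r 3 * y s 1 - e)) (f := y r 2 * y s 3 - y r 3 * y s 2 - f) fun i => by
        have := E i
        rw [mn] at this
        linear_combination this
    simp only [mul_eq_zero, b0, false_or, neg_eq_zero, sub_eq_zero] at this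
    tauto
  obtain ⟨a1, a2, a3, a4, a5, a6⟩ := key 0 1 1 0 0 0 0 0 fun i => by simpa using (H' i).1
  obtain ⟨b1, b2, b3, b4, b5, b6⟩ := key 0 2 0 1 0 0 0 0 fun i => by simpa using (H' i).2.1
  obtain ⟨c1, c2, c3, c4, c5, c6⟩ := key 0 3 0 0 1 0 0 0 fun i => by simpa using (H' i).2.2.1
  obtain ⟨d1, d2, d3, d4, d5, d6⟩ := key 1 2 0 0 0 1 0 0 fun i => by simpa using (H' i).2.2.2.1
  obtain ⟨e1, e2, e3, e4, e5, e6⟩ := key 1 3 0 0 0 0 1 0 fun i => by simpa using (H' i).2.2.2.2.1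
  obtain ⟨f1, f2, f3, f4, f5, f6⟩ := key 2 3 0 0 0 0 0 1 fun i => by simpa using (H' i).2.2.2.2.2
  clear key H H' h b0 h2 h7
  have y01 : y 0 1 = 0 := by grind
  have y02 : y 0 2 = 0 := by grind
  have y03 : y 0 3 = 0 := by grind
  have y10 : y 1 0 = 0 := by grind
  have y12 : y 1 2 = 0 := by grind
  have y13 : y 1 3 = 0 := by grind
  have y20 : y 2 0 = 0 := by grind
  have y21 : y 2 1 = 0 := by grind
  have y23 : y 2 3 = 0 := by grind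
  have y30 : y 3 0 = 0 := by grind
  have y31 : y 3 1 = 0 := by grind
  have y32 : y 3 2 = 0 := by grind
  ext i j
  fin_cases i <;> fin_cases j <;> simp [mul_apply, Fin.sum_univ_four, *] <;> grind

end H28.R4.L7
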