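import Mathlib
import Cfsg.Agent.Lib.R4.L27M

/-!
# Recognition of the four-dimensional Weil representation of `SL₂(7)`
-/

set_option autoImplicit false

namespace H28.R4.L7

open Matrix Polynomial

variable {k : Type*} [Field k] {z : k} {u h w : M4 k}

theorem pattern (r : w * Hm k = Hm k * Hm k * w) :
    ∃ a b c d e f, w = !![a, b, b, b; c, d, e, f; c, e, f, d; c, f, d, e] := by
  have r' := fun i j => congrFun (congrFun r i) j
  simp only [Fin.forall_fin_succ] at r'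
  simp [Hm, mul_apply, Fin.sum_univ_four] at r'
  refine ⟨w 0 0, w 0 1, w 1 0, w 1 1, w 1 2, w 1 3, ?_⟩
  ext i j
  fin_cases i <;> fin_cases j <;> simp <;> grind

theorem solve (hz : Cy z) (h2 : (2 : k) ≠ 0) (h7 : (7 : k) ≠ 0) {s : k} (r1 : w * U z ^ 6 * w = U z * w * U z)
    (r2 : w * w = s • 1) (r3 : w * Hm k = Hm k * Hm k * w) (hc : 7 * w 1 0 = rr z) : (7 : k) • w = rr z • W z := by
  obtain ⟨a, b, c, d, e, f, rfl⟩ := pattern r3
  have c0 : c ≠ 0 := by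
    rintro rfl
    have := hz.rr
    simp at hc
    rw [← hc] at this
    exact h7 (by linear_combination this)
  have p7 := hz.pow
  rw [U_pow] at r1
  have E0 := congrFun (congrFun r2 1) 0
  have E1 := congrFun (congrFun r1 1) 0
  have E2 := congrFun (congrFun r1 2) 0
  have E3 := congrFun (congrFun r1 3) 0
  have E4 := congrFun (congrFun r2 1) 2
  simp [U, mul_apply, Fin.sum_univ_four] at E0 E1 E2 E3 E4 hc
  clear r1 r2 r3
  replace E0 : a + d + e + f = 0 := mul_left_cancel₀ c0 (by linear_combination E0)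
  rw [show (z ^ 6) ^ 2 = z ^ 5 by linear_combination z ^ 5 * p7,
    show (z ^ 6) ^ 4 = z ^ 3 by linear_combination (z ^ 17 + z ^ 10 + z ^ 3) * p7] at E1 E2 E3
  replace E1 : a + d * z ^ 6 + e * z ^ 5 + f * z ^ 3 = z := mul_left_cancel₀ c0 (by linear_combination E1)
  replace E2 : a + e * z ^ 6 + f * z ^ 5 + d * z ^ 3 = z ^ 2 := mul_left_cancel₀ c0 (by linear_combination E2)
  replace E3 : a + f * z ^ 6 + d * z ^ 5 + e * z ^ 3 = z ^ 4 := mul_left_cancel₀ c0 (by linear_combination E3)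
  rw [Cy] at hz
  have hr : rr z = 1 + 2 * (z + z ^ 2 + z ^ 4) := rfl
  have ha : 7 * a = rr z := mul_left_cancel₀ h2 (by
    rw [hr]
    linear_combination (5 + 3 * z + 3 * z ^ 2 + 3 * z ^ 4) * E0 + (3 - z - z ^ 2 - z ^ 4) * E1 + (3 - z - z ^ 2 - z ^ 4) * E2 + (3
      - z - z ^ 2 - z ^ 4) * E3 + ((-5 + 2 * z + z ^ 4) * d + (-5 + 2 * z + z ^ 4) * e + (-5 + 2 * z + z ^ 4) * f
      + (-2 + z - z ^ 2)) * hz)
  have hd : 7 * d = rr z * (z ^ 2 + z ^ 5) := mul_left_cancel₀ h2 (by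
    rw [hr]
    linear_combination (3 - z - z ^ 2 - z ^ 4) * E0 + (-1 + 3 * z - z ^ 2 + 2 * z ^ 3 - z ^ 4 - 2 * z ^ 5) * E1 + (1 + z + z ^ 2 +
      2 * z ^ 3 + 5 * z ^ 4 + 4 * z ^ 5) * E2 + (-3 - 3 * z + z ^ 2 - 4 * z ^ 3 - 3 * z ^ 4 - 2 * z ^ 5) * E3 +
      ((11 - 10 * z - 2 * z ^ 3 + z ^ 4 + 2 * z ^ 5) * d + (-3 + 4 * z + 2 * z ^ 3 + z ^ 4 - 4 * z ^ 5) * e + (-3
      + 4 * z - 3 * z ^ 4 + 2 * z ^ 5) * f + (-z + 3 * z ^ 2 - 6 * z ^ 3)) * hz)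
  have he : 7 * e = rr z * (z + z ^ 6) := mul_left_cancel₀ h2 (by
    rw [hr]
    linear_combination (3 - z - z ^ 2 - z ^ 4) * E0 + (-3 - 3 * z + z ^ 2 - 4 * z ^ 3 - 3 * z ^ 4 - 2 * z ^ 5) * E1 + (-1 + 3 * z -
      z ^ 2 + 2 * z ^ 3 - z ^ 4 - 2 * z ^ 5) * E2 + (1 + z + z ^ 2 + 2 * z ^ 3 + 5 * z ^ 4 + 4 * z ^ 5) * E3 +
      ((-3 + 4 * z - 3 * z ^ 4 + 2 * z ^ 5) * d + (11 - 10 * z - 2 * z ^ 3 + z ^ 4 + 2 * z ^ 5) * e + (-3 + 4 * z
      + 2 * z ^ 3 + z ^ 4 - 4 * z ^ 5) * f + (-5 * z - 3 * z ^ 2 + 8 * z ^ 3 - 4 * z ^ 4)) * hz)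
  have hf : 7 * f = rr z * (z ^ 3 + z ^ 4) := mul_left_cancel₀ h2 (by
    rw [hr]
    linear_combination (3 - z - z ^ 2 - z ^ 4) * E0 + (1 + z + z ^ 2 + 2 * z ^ 3 + 5 * z ^ 4 + 4 * z ^ 5) * E1 + (-3 - 3 * z + z ^
      2 - 4 * z ^ 3 - 3 * z ^ 4 - 2 * z ^ 5) * E2 + (-1 + 3 * z - z ^ 2 + 2 * z ^ 3 - z ^ 4 - 2 * z ^ 5) * E3 +
      ((-3 + 4 * z + 2 * z ^ 3 + z ^ 4 - 4 * z ^ 5) * d + (-3 + 4 * z - 3 * z ^ 4 + 2 * z ^ 5) * e + (11 - 10 * z
      - 2 * z ^ 3 + z ^ 4 + 2 * z ^ 5) * f + (z - 3 * z ^ 2 - 2 * z ^ 3)) * hz)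
  have hb : 7 * b = rr z * 2 := mul_left_cancel₀ (hc ▸ mul_ne_zero h7 c0 : rr z ≠ 0) (by
    linear_combination 49 * E4 - 7 * b * hc - (7 * e + rr z * (z ^ 3 + z ^ 4)) * hd - (7 * f + rr z * (z ^ 2 + z ^ 5)) * he -
      (7 * d + rr z * (z + z ^ 6)) * hf - rr z ^ 2 * (2 - 2 * z + z ^ 3 + z ^ 5) * hz)
  ext i j
  fin_cases i <;> fin_cases j <;> simp [W, *]

theorem eig_iff {t : k} : (∃ v ≠ 0, u *ᵥ v = t • v) ↔ u.charpoly.eval t = 0 := by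
  rw [eval_charpoly, ← exists_mulVec_eq_zero_iff]
  refine exists_congr fun v => and_congr_right fun _ => ?_
  rw [sub_mulVec, sub_eq_zero, eq_comm, scalar_apply, diagonal_const_mulVec]

theorem exists_eig [IsAlgClosed k] (u7 : u ^ 7 = 1) (u1 : u ≠ 1) : ∃ z : k, Cy z ∧ ∃ v ≠ 0, u *ᵥ v = z • v := by
  have h0 : (0 : k) ∈ spectrum k (aeval u (X ^ 6 + X ^ 5 + X ^ 4 + X ^ 3 + X ^ 2 + X + 1 : k[X])) := by
    rw [spectrum.zero_mem_iff]
    refine fun e => u1 (sub_eq_zero.1 (e.mul_right_eq_zero.1 ?_))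
    simp only [map_add, map_pow, aeval_X, map_one]
    rw [← sub_eq_zero.2 u7]
    noncomm_ring
  rw [spectrum.map_polynomial_aeval_of_nonempty _ _ (spectrum.nonempty_of_isAlgClosed_of_finiteDimensional k u)] at h0
  obtain ⟨z, h1, h2⟩ := h0
  exact ⟨z, by simpa [Cy] using h2, eig_iff.2 (mem_spectrum_iff_isRoot_charpoly.1 h1)⟩

theorem eig_one (hz : Cy z) (hd : u.det = 1) (e1 : ∃ v ≠ 0, u *ᵥ v = z • v) (e2 : ∃ v ≠ 0, u *ᵥ v = z ^ 2 • v)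
    (e4 : ∃ v ≠ 0, u *ᵥ v = z ^ 4 • v) : ∃ v ≠ 0, u *ᵥ v = (1 : k) • v := by
  have a4 : u.charpoly.coeff 4 = 1 := by simpa [leadingCoeff] using u.charpoly_monic.leadingCoeff
  have a0 : u.charpoly.coeff 0 = 1 := by simpa [hd, show (-1 : k) ^ 4 = 1 by norm_num] using u.det_eq_sign_charpoly_coeff.symm
  rw [eig_iff, eval_eq_sum_range] at *
  simp only [charpoly_natDegree_eq_dim, Fintype.card_fin, Finset.sum_range_succ, Finset.range_zero, Finset.sum_empty,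
    a4, a0] at *
  rw [Cy] at hz
  linear_combination (-z - z ^ 2) * e1 + (-z ^ 2 - z ^ 4) * e2 + (-z - z ^ 4) * e4 +
    ((1 - z + z ^ 4 - z ^ 6 + z ^ 7 - z ^ 9 + z ^ 10) * u.charpoly.coeff 3 +
      (1 - z + z ^ 3 - z ^ 5 + z ^ 6) * u.charpoly.coeff 2 + (1 - z + z ^ 2) * u.charpoly.coeff 1 +
      (2 - 2 * z ^ 3 + 2 * z ^ 4 - z ^ 5 + z ^ 7 - z ^ 10 + z ^ 11 - z ^ 13 + z ^ 14)) * hz

theorem basis [IsAlgClosed k] (h7 : (7 : k) ≠ 0) (u7 : u ^ 7 = 1) (u1 : u ≠ 1) (ud : u.det = 1)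
    (h3 : h ^ 3 = 1) (hd : h.det = 1) (uh : u * h = h * u ^ 2) :
    ∃ (z : k) (B : GL (Fin 4) k), Cy z ∧ (B⁻¹).val * u * B.val = U z ∧ (B⁻¹).val * h * B.val = Hm k := by
  obtain ⟨z, hz, v, v0, hv⟩ := exists_eig u7 u1
  have st : ∀ {t : k} {v}, u *ᵥ v = t • v → u *ᵥ (h *ᵥ v) = t ^ 2 • (h *ᵥ v) := fun {t v} e => by
    rw [mulVec_mulVec, uh, sq, ← mulVec_mulVec, ← mulVec_mulVec, e, mulVec_smul, e, mulVec_smul, mulVec_smul, smul_smul, sq]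
  have hh : h *ᵥ (h *ᵥ (h *ᵥ v)) = v := by rw [mulVec_mulVec, mulVec_mulVec, ← pow_three', h3, one_mulVec]
  have v1 : h *ᵥ v ≠ 0 := fun e => v0 (by rw [← hh, e]; simp)
  have v2 : h *ᵥ (h *ᵥ v) ≠ 0 := fun e => v0 (by rw [← hh, e]; simp)
  have hv2 := st (st hv)
  rw [← pow_mul] at hv2
  obtain ⟨e, e0, he⟩ := eig_one hz ud ⟨v, v0, hv⟩ ⟨_, v1, st hv⟩ ⟨_, v2, hv2⟩
  obtain ⟨n1, n2, n3, n4, n5, n6⟩ := hz.ne h7
  have li := Module.End.eigenvectors_linearIndependent' (toLin' u) ![1, z, z ^ 2, z ^ 4]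
    (fun i j => by fin_cases i <;> fin_cases j <;> simp [n1.symm, *, eq_comm]) ![e, v, h *ᵥ v, h *ᵥ (h *ᵥ v)] fun i => by
      fin_cases i
      exacts [⟨Module.End.mem_eigenspace_iff.2 he, e0⟩, ⟨Module.End.mem_eigenspace_iff.2 hv, v0⟩,
        ⟨Module.End.mem_eigenspace_iff.2 (st hv), v1⟩, ⟨Module.End.mem_eigenspace_iff.2 hv2, v2⟩]
  obtain ⟨B, hB⟩ := (linearIndependent_cols_iff_isUnit (A := (of ![e, v, h *ᵥ v, h *ᵥ (h *ᵥ v)])ᵀ)).1 li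
  have col : ∀ (x : M4 k) i j, (x * B.val) i j = (x *ᵥ ![e, v, h *ᵥ v, h *ᵥ (h *ᵥ v)] j) i := fun x i j => by
    rw [hB]; rfl
  have hu : (B⁻¹).val * u * B.val = U z := by
    rw [mul_assoc, Units.inv_mul_eq_iff_eq_mul]
    ext i j
    rw [col, hB]
    fin_cases j <;> simp [-mulVec_mulVec, he, hv, st hv, hv2, U, mul_apply, Fin.sum_univ_four, mul_comm]
  refine ⟨z, B, hz, hu, ?_⟩
  have c1 : ∀ i j l : Fin 4, h *ᵥ ![e, v, h *ᵥ v, h *ᵥ (h *ᵥ v)] j = ![e, v, h *ᵥ v, h *ᵥ (h *ᵥ v)] l →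
      ((B⁻¹).val * h * B.val) i j = (1 : M4 k) i l := fun i j l e => by
    rw [← B.inv_mul, mul_assoc, mul_apply, mul_apply]
    refine Finset.sum_congr rfl fun m _ => ?_
    rw [col, e, hB]; rfl
  have c2 : U z * ((B⁻¹).val * h * B.val) = (B⁻¹).val * h * B.val * (U z * U z) := by
    rw [← hu]; simp only [mul_assoc, Units.mul_inv_cancel_left]; rw [← mul_assoc u, uh, sq]; simp only [mul_assoc]
  have c3 : ((B⁻¹).val * h * B.val).det = 1 := by rw [det_units_conj', hd]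
  have d1 := fun i => c1 i 1 2 rfl
  have d2 := fun i => c1 i 2 3 rfl
  have d3 := fun i => c1 i 3 1 hh
  have f1 := congrFun (congrFun c2 1) 0
  have f2 := congrFun (congrFun c2 2) 0
  have f3 := congrFun (congrFun c2 3) 0
  generalize (B⁻¹).val * h * B.val = x at *
  simp [U, mul_apply, Fin.sum_univ_four, mul_left_eq_self₀, n1.symm, n2.symm, n3.symm] at f1 f2 f3
  simp [det_succ_row_zero, Fin.sum_univ_succ, Fin.succAbove, d1, d2, d3, f1, f2, f3, one_apply] at c3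
  ext i j
  fin_cases j <;> fin_cases i <;> simp [Hm, d1, d2, d3, f1, f2, f3, c3, one_apply]

theorem recog [IsAlgClosed k] (h2 : (2 : k) ≠ 0) (h7 : (7 : k) ≠ 0) (u7 : u ^ 7 = 1) (u1 : u ≠ 1) (ud : u.det = 1)
    (h3 : h ^ 3 = 1) (hd : h.det = 1) (uh : u * h = h * u ^ 2) {s : k} (r1 : w * u ^ 6 * w = u * w * u)
    (r2 : w * w = s • 1) (r3 : w * h = h * h * w) (irr : ∀ v (a : k), u *ᵥ v = v → w *ᵥ v = a • v → v = 0) :
    ∃ (z : k) (B : GL (Fin 4) k), Cy z ∧ (B⁻¹).val * u * B.val = U z ∧ (B⁻¹).val * h * B.val = Hm k ∧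
      (7 : k) • ((B⁻¹).val * w * B.val) = rr z • W z := by
  obtain ⟨z, B, hz, hu, hh⟩ := basis h7 u7 u1 ud h3 hd uh
  have key : ∀ B : GL (Fin 4) k, (B⁻¹).val * u * B.val = U z → (B⁻¹).val * h * B.val = Hm k →
      ((B⁻¹).val * w * B.val) * U z ^ 6 * ((B⁻¹).val * w * B.val) = U z * ((B⁻¹).val * w * B.val) * U z ∧
      ((B⁻¹).val * w * B.val) * ((B⁻¹).val * w * B.val) = s • 1 ∧
      ((B⁻¹).val * w * B.val) * Hm k = Hm k * Hm k * ((B⁻¹).val * w * B.val) := fun B hu hh => by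
    rw [← hu, ← hh, Units.conj_pow']
    simp only [mul_assoc, Units.mul_inv_cancel_left, Units.mul_right_inj] at r1 r3 ⊢
    refine ⟨?_, ?_, ?_⟩
    · simpa only [mul_assoc] using congrArg (· * B.val) r1
    · rw [← mul_assoc w, r2]; simp
    · simpa only [mul_assoc] using congrArg (· * B.val) r3
  obtain ⟨a, b, c, d, e, f, hw⟩ := pattern (key B hu hh).2.2
  have c0 : c ≠ 0 := by
    rintro rfl
    have k1 : ∀ (x : M4 k) (a : k), ((B⁻¹).val * x * B.val) *ᵥ Pi.single 0 1 = a • Pi.single 0 1 →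
        x *ᵥ (B.val *ᵥ Pi.single 0 1) = a • (B.val *ᵥ Pi.single 0 1) := fun x a e => by
      rw [← mulVec_smul, ← e, mulVec_mulVec, mulVec_mulVec, mul_assoc, Units.mul_inv_cancel_left]
    have := irr _ a ((k1 u 1 (by rw [hu]; ext i; fin_cases i <;> simp [U])).trans (one_smul _ _))
      (k1 w a (by rw [hw]; ext i; fin_cases i <;> simp))
    replace this := congrArg ((B⁻¹).val *ᵥ ·) this
    simp only [mulVec_mulVec, Units.inv_mul, one_mulVec, mulVec_zero] at this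
    simpa using congrFun this 0
  have r0 : rr z ≠ 0 := fun e => h7 (by have := hz.rr; rw [e] at this; linear_combination this)
  let D : GL (Fin 4) k := ⟨diagonal ![rr z / (7 * c), 1, 1, 1], diagonal ![7 * c / rr z, 1, 1, 1],
    by ext i j; fin_cases i <;> fin_cases j <;> simp [h7, c0, r0], by ext i j; fin_cases i <;> fin_cases j <;> simp [h7, c0, r0]⟩
  have hD : ∀ x : M4 k, ∀ i j, (((B * D)⁻¹).val * x * (B * D).val) i j =
      ![7 * c / rr z, 1, 1, 1] i * ((B⁻¹).val * x * B.val) i j * ![rr z / (7 * c), 1, 1, 1] j := fun x i j => by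
    rw [← diagonal_mul, ← mul_diagonal, _root_.mul_inv_rev]
    simp only [Units.val_mul, mul_assoc]
    rfl
  have hu' : ((B * D)⁻¹).val * u * (B * D).val = U z := by
    ext i j; rw [hD, hu]; fin_cases i <;> fin_cases j <;> simp [U, h7, c0, r0]
  have hh' : ((B * D)⁻¹).val * h * (B * D).val = Hm k := by
    ext i j; rw [hD, hh]; fin_cases i <;> fin_cases j <;> simp [Hm, h7, c0, r0]
  obtain ⟨k1, k2, k3⟩ := key _ hu' hh'
  refine ⟨z, B * D, hz, hu', hh', solve hz h2 h7 k1 k2 k3 ?_⟩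
  rw [hD, hw]
  simp
  field_simp

end H28.R4.L7
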