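import Mathlib
import Cfsg.Agent.Base
import Cfsg.Agent.Lib.R4.Base

/-!
# Traces on a double cover with one class of involutions
-/

set_option autoImplicit false

namespace H28.R4.N0x

open Matrix Subgroup Cfsg
open scoped MatrixGroups IsMulCommutative

variable {G k ι : Type*} [Group G] [Field k] [Fintype ι] [DecidableEq ι] {C : Cx G k ι} {p : ℕ}

theorem trace_pow_char [Nonempty ι] [hp : Fact p.Prime] [CharP k p] (M : Matrix ι ι k) :
    (M ^ p).trace = M.trace ^ p := by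
  open Polynomial in
  have h1 : expand k p (M ^ p).charpoly = M.charpoly ^ p := by
    unfold charpoly
    rw [AlgHom.map_det, ← coe_detMonoidHom, ← (detMonoidHom : Matrix ι ι k[X] →* k[X]).map_pow]
    refine congr_arg detMonoidHom ?_
    refine matPolyEquiv.injective ?_
    rw [map_pow, matPolyEquiv_charmatrix, sub_pow_char_of_commute, ← C_pow]
    · exact (id (matPolyEquiv_eq_X_pow_sub_C p M) :)
    · exact (C M).commute_X
  rw [← Polynomial.map_frobenius_expand, Polynomial.map_expand, Polynomial.expand_inj hp.out.pos] at h1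
  rw [trace_eq_neg_charpoly_coeff, trace_eq_neg_charpoly_coeff, h1, Polynomial.coeff_map, ← frobenius_def, map_neg]

/-- the trace -/
def T (u : GL ι k) : k := u.val.trace

theorem T_neg (u : GL ι k) : T (-u) = -T u := by rw [T, Units.val_neg, trace_neg, T]

theorem T_conj (a u : GL ι k) : T (a * u * a⁻¹) = T u := by
  rw [T, Units.val_mul, Units.val_mul, trace_units_conj, T]

variable (C) in
/-- the projection of the perfect core -/
noncomputable def pr : C.P →* G where
  toFun u := (Cx.lift_P u.2).choose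
  map_one' := C.inj (Cx.lift_P (1 : C.P).2).choose_spec C.one
  map_mul' u v := C.inj (Cx.lift_P (u * v).2).choose_spec
    (C.mul (Cx.lift_P u.2).choose_spec (Cx.lift_P v.2).choose_spec)

theorem pr_L (u : C.P) : C.L (pr C u) u.val.val := (Cx.lift_P u.2).choose_spec

theorem pr_surj (H : C.Hy p) : Function.Surjective (pr C) := fun g =>
  (H.exists_P g).elim fun u h => ⟨⟨u, h.1⟩, C.inj (pr_L _) h.2⟩

theorem ker_central {u : C.P} (h : pr C u = 1) (v : C.P) : v * u = u * v := by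
  obtain ⟨c, e⟩ := (Cx.eq_one_iff (pr_L u)).1 h
  exact Subtype.ext (Units.ext (by simp [e]))

/-- the scalars of the perfect core are signs -/
theorem scal (H : C.Hy p) {g : G} (hg : ¬ 4 ∣ (zpowers g).index) {u : C.P} (h : pr C u = 1) :
    u.val = 1 ∨ u.val = -1 := by
  have := H.fin
  have := H.finite_P
  have := C.nonempty
  let A := (zpowers g).comap (pr C)
  have : IsMulCommutative A := MonoidHom.isMulCommutative_of_isCyclic_of_ker_le_center
    (((pr C).comp A.subtype).codRestrict (zpowers g) fun x => x.2) fun x hx =>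
      mem_center_iff.2 fun y => Subtype.ext (ker_central (congrArg Subtype.val hx) _)
  have h1 : commutator C.P = ⊤ := map_injective C.P.subtype_injective (by
    rw [map_subtype_commutator, H.P_perfect, ← MonoidHom.range_eq_map, range_subtype])
  have h2 := MonoidHom.transfer_eq_pow (MonoidHom.id A) u fun n x _ => by
    rw [mul_assoc, ← ker_central (by rw [map_pow, h, one_pow]) x, inv_mul_cancel_left]
  rw [Abelianization.commutator_subset_ker _ (h1 ▸ mem_top u)] at h2
  have h3 : u ^ (zpowers g).index = 1 := by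
    rw [← index_comap_of_surjective _ (pr_surj H)]
    exact (congrArg Subtype.val h2).symm
  obtain ⟨c, e⟩ := (Cx.eq_one_iff (pr_L u)).1 h
  have h4 : c ^ 4 = 1 := by simpa [e, C.card] using Cx.det_P u.2
  have h5 : c ^ (zpowers g).index = 1 := by
    have := congrArg (fun x : C.P => x.val.val) h3
    simp only [SubgroupClass.coe_pow, Units.val_pow_eq_pow_val, e, _root_.smul_pow, one_pow, OneMemClass.coe_one,
      Units.val_one] at this
    exact smul_left_injective k (one_ne_zero (α := Matrix ι ι k)) (this.trans (one_smul _ _).symm)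
  have h6 : c * c = 1 := by
    rw [pow_eq_pow_mod _ h4] at h5
    have : (zpowers g).index % 4 = 1 ∨ (zpowers g).index % 4 = 2 ∨ (zpowers g).index % 4 = 3 := by omega
    rcases this with e | e | e <;> rw [e] at h5 <;> grind
  refine (mul_self_eq_one_iff.1 h6).imp (fun e1 => Units.ext ?_) fun e1 => Units.ext ?_ <;> simp [e, e1]

/-- strongly real elements -/
def SR (g : G) : Prop := ∃ a : G, a * a = 1 ∧ a * g * (a * g) = 1

/-- the elements with rational traces -/
def Ra (g : G) : Prop := SR g ∧ (g ^ 4 = 1 ∨ g ^ 3 = 1 ∨ (g ^ 5 = 1 ∧ IsConj g (g ^ 3)) ∨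
  (g ^ 6 = 1 ∧ ∃ a, a * g = g * a ∧ a * a = 1 ∧ a ≠ 1 ∧ g ^ 3 ≠ 1 ∧ a * g ^ 3 ≠ 1))

/-- real traces in the prime field -/
def Fx (p : ℕ) (u : GL ι k) : Prop := T u⁻¹ = T u ∧ T u ^ p = T u

theorem ord2 {a : G} (h : a * a = 1) (h1 : a ≠ 1) : orderOf a = 2 := orderOf_eq_prime (by rwa [sq]) h1

section frob
variable (H : C.Hy p) {u : GL ι k}
include H

theorem T_pow (u : GL ι k) : T u ^ p = T (u ^ p) := by
  have := C.nonempty
  have := H.char
  have := Fact.mk H.prime
  rw [T, T, Units.val_pow_eq_pow_val, trace_pow_char]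

theorem odd_p : p % 2 = 1 := by
  have := H.char
  refine H.prime.eq_two_or_odd.resolve_left fun e => H.two ?_
  simpa [e] using CharP.cast_eq_zero k p

theorem T_mod {n : ℕ} (h : u ^ n = 1) : T u ^ p = T (u ^ (p % n)) := by rw [T_pow H, ← pow_eq_pow_mod _ h]

theorem unip (h : u ^ (2 * p) = 1) : Fx p u := by
  have := H.char
  have := Fact.mk H.prime
  obtain ⟨m, hm⟩ : ∃ m, p = 2 * m + 1 := ⟨p / 2, by have := odd_p H; omega⟩
  refine ⟨frobenius_inj k p ?_, frobenius_inj k p ?_⟩ <;> simp only [frobenius_def, T_pow H]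
  · rw [inv_pow, inv_eq_of_mul_eq_one_right (by rw [← pow_add, ← two_mul, h])]
  · rw [← pow_mul, show p * p = 2 * p * m + p by rw [hm]; ring, pow_add, pow_mul, h, one_pow, one_mul]

theorem fix4 (hr : T u⁻¹ = T u) (h : u ^ 4 = 1) : T u ^ p = T u := by
  have := odd_p H
  rw [T_mod H h]
  obtain e | e : p % 4 = 1 ∨ p % 4 = 3 := by omega
  · rw [e, pow_one]
  · rw [e, eq_inv_of_mul_eq_one_left ((pow_succ u 3).symm.trans h), hr]

theorem fix6 (hr : T u⁻¹ = T u) (h : u ^ 6 = 1) : T u ^ p = T u := by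
  have := odd_p H
  obtain e | e | e : p % 6 = 1 ∨ p % 3 = 0 ∨ p % 6 = 5 := by omega
  · rw [T_mod H h, e, pow_one]
  · obtain rfl := (Nat.prime_dvd_prime_iff_eq Nat.prime_three H.prime).1 (Nat.dvd_of_mod_eq_zero e)
    exact (unip H h).2
  · rw [T_mod H h, e, eq_inv_of_mul_eq_one_left ((pow_succ u 5).symm.trans h), hr]

theorem fix10 (hr : T u⁻¹ = T u) (h : u ^ 10 = 1) (h3 : ∀ j, T ((u ^ j) ^ 3) = T (u ^ j)) : T u ^ p = T u := by
  have := odd_p H
  have h9 : T (u ^ 9) = T u := by rw [eq_inv_of_mul_eq_one_left ((pow_succ u 9).symm.trans h), hr]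
  obtain e | e | e | e | e : p % 10 = 1 ∨ p % 10 = 3 ∨ p % 5 = 0 ∨ p % 10 = 7 ∨ p % 10 = 9 := by omega
  · rw [T_mod H h, e, pow_one]
  · simpa [T_mod H h, e] using h3 1
  · obtain rfl := (Nat.prime_dvd_prime_iff_eq Nat.prime_five H.prime).1 (Nat.dvd_of_mod_eq_zero e)
    exact (unip H h).2
  · rw [T_mod H h, e, ← h9, ← h3 9, ← pow_mul, pow_eq_pow_mod (9 * 3) h]
  · rw [T_mod H h, e, h9]

theorem fix14 (h : u ^ 14 = 1) (h9 : ∀ j, T ((u ^ j) ^ 9) = T (u ^ j)) :
    (p % 7 = 1 ∨ p % 7 = 2 ∨ p % 7 = 4 → T u ^ p = T u) ∧ (p % 7 = 3 ∨ p % 7 = 5 ∨ p % 7 = 6 → T u ^ p = T u⁻¹) := by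
  have := odd_p H
  have a := h9 1
  have b := h9 9
  have c := h9 13
  have d := h9 5
  rw [← pow_mul, pow_eq_pow_mod (_ * 9) h] at a b c d
  simp only [pow_one, Nat.reduceMul, Nat.reduceMod] at a b c d
  rw [T_mod H h, ← eq_inv_of_mul_eq_one_left ((pow_succ u 13).symm.trans h)]
  constructor <;> intro e
  · obtain e | e | e : p % 14 = 1 ∨ p % 14 = 9 ∨ p % 14 = 11 := by omega
    all_goals simp only [e, pow_one, a, b]
  · obtain e | e | e : p % 14 = 3 ∨ p % 14 = 5 ∨ p % 14 = 13 := by omega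
    all_goals simp only [e, c, d]

end frob

variable (C) in
/-- a double cover with one class of involutions -/
structure Z2 : Prop where
  sc : ∀ u : C.P, pr C u = 1 → u.val = 1 ∨ u.val = -1
  cls : ∀ a b : G, orderOf a = 2 → orderOf b = 2 → IsConj a b
  nr : C.NR

theorem rel (hs : ∀ u : C.P, pr C u = 1 → u.val = 1 ∨ u.val = -1) {u v : C.P} (e : pr C u = pr C v) :
    u.val = v.val ∨ u.val = -v.val :=
  (hs (u * v⁻¹) (by rw [map_mul, map_inv, e, mul_inv_cancel])).imp mul_inv_eq_one.1 fun h => by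
    rw [← neg_one_mul, ← h]; simp

theorem uniq_odd (hs : ∀ u : C.P, pr C u = 1 → u.val = 1 ∨ u.val = -1) {u v : C.P} (e : pr C u = pr C v) {n : ℕ}
    (hn : Odd n) (h : u.val ^ n = v.val ^ n) : u = v := by
  refine Subtype.ext ((rel hs e).elim id fun e1 => ?_)
  rw [e1, hn.neg_pow, ← neg_one_mul, mul_eq_right] at h
  rw [e1, ← neg_one_mul, h, one_mul]

namespace Z2
variable (Z : Z2 C) (H : C.Hy p) {u v : C.P}
include Z

theorem pow_two_mul {n : ℕ} (h : pr C u ^ n = 1) : u.val ^ (2 * n) = 1 := by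
  rw [mul_comm, pow_mul]
  rcases Z.sc (u ^ n) (by rw [map_pow, h]) with e | e <;> rw [SubgroupClass.coe_pow] at e <;> simp [e]

include H

theorem sq_eq (hu : orderOf (pr C u) = 2) (hv : orderOf (pr C v) = 2) : u.val * u.val = v.val * v.val := by
  obtain ⟨c, hc⟩ := isConj_iff.1 (Z.cls _ _ hu hv)
  obtain ⟨w, rfl⟩ := pr_surj H c
  have h1 := ker_central (u := u * u) (by rw [map_mul, ← sq, ← hu, pow_orderOf_eq_one]) w
  have h2 : (w * u * w⁻¹).val * (w * u * w⁻¹).val = u.val * u.val := congrArg Subtype.val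
    (show w * u * w⁻¹ * (w * u * w⁻¹) = u * u by rw [conj_mul, h1, mul_inv_cancel_right])
  rcases rel Z.sc (u := w * u * w⁻¹) (v := v) (by simpa using hc) with e | e <;> rw [← h2, e]
  rw [neg_mul_neg]

theorem T_two (hu : orderOf (pr C u) = 2) : T u.val = 0 := by
  obtain ⟨S, h1, h2⟩ := H.invol_bi Z.nr hu
  obtain ⟨c, -, e⟩ := C.uniq h1 (pr_L u)
  rw [T, e, trace_smul, h2.2, smul_zero]

theorem real (h : SR (pr C u)) : T u.val⁻¹ = T u.val := by
  obtain ⟨a, h1, h2⟩ := h
  have key : pr C u * pr C u = 1 → T u.val⁻¹ = T u.val := fun e => by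
    by_cases e1 : pr C u = 1
    · rcases Z.sc u e1 with e | e <;> simp [e]
    · have := ord2 e e1
      rw [Z.T_two H this, ← coe_inv, Z.T_two H (by rwa [map_inv, orderOf_inv])]
  by_cases a1 : a = 1
  · exact key (by simpa [a1] using h2)
  by_cases a2 : a * pr C u = 1
  · exact key (by rw [eq_inv_of_mul_eq_one_right a2, ← _root_.mul_inv_rev, h1, inv_one])
  obtain ⟨v, rfl⟩ := pr_surj H a
  have := Z.sq_eq H (u := v * u) (v := v) (ord2 (by rwa [map_mul]) (by rwa [map_mul])) (ord2 h1 a1)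
  rw [coe_mul, mul_assoc, mul_right_inj] at this
  rw [← T_conj v.val u.val, eq_inv_of_mul_eq_one_right (a := u.val) (b := v.val * u.val * v.val⁻¹)
    (by rw [← mul_assoc, this, mul_inv_cancel])]

theorem conj_odd {n j : ℕ} (hn : Odd n) (hj : Odd j) (h1 : pr C u ^ n = 1) (h2 : IsConj (pr C u) (pr C u ^ j))
    (i : ℕ) : T ((u.val ^ i) ^ j) = T (u.val ^ i) := by
  obtain ⟨c, hc⟩ := isConj_iff.1 h2
  obtain ⟨w, rfl⟩ := pr_surj H c
  have h3 := ker_central (u := u ^ n) (by rw [map_pow, h1]) w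
  have := uniq_odd Z.sc (u := w * u * w⁻¹) (v := u ^ j) (by simpa using hc) hn (by
    obtain ⟨m, rfl⟩ := hj
    rw [← SubgroupClass.coe_pow, conj_pow, h3, mul_inv_cancel_right, SubgroupClass.coe_pow, SubgroupClass.coe_pow,
      ← pow_mul, show (2 * m + 1) * n = 2 * n * m + n by ring, pow_add, pow_mul, Z.pow_two_mul h1, one_pow, one_mul])
  rw [pow_right_comm, ← SubgroupClass.coe_pow, ← this, coe_mul, coe_mul, coe_inv, conj_pow, T_conj]

theorem fx (h : Ra (pr C u)) : Fx p u.val := by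
  have hr := Z.real H h.1
  have h0 : T u.val = 0 → T u.val ^ p = T u.val := fun e => by rw [e, zero_pow H.prime.ne_zero]
  refine ⟨hr, ?_⟩
  rcases h.2 with e | e | ⟨e, e1⟩ | ⟨e, a, a1, a2, a3, a4, a5⟩
  · rcases Z.sc (u ^ 4) (by rw [map_pow, e]) with e | e
    · exact fix4 H hr e
    · exact h0 (H.trace_four Z.nr (pr_L u) (Cx.det_P u.2) (congrArg Units.val e))
  · exact fix6 H hr (Z.pow_two_mul e)
  · exact fix10 H hr (Z.pow_two_mul e) (Z.conj_odd H (by decide) (by decide) e e1)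
  rcases Z.sc (u ^ 6) (by rw [map_pow, e]) with e1 | e1
  · exact fix6 H hr e1
  obtain ⟨v, rfl⟩ := pr_surj H a
  have c3 : Commute (pr C v) (pr C u ^ 3) := Commute.pow_right a1 3
  have h1 := Z.sq_eq H (u := v * u ^ 3) (v := v) (ord2 (by
    rw [map_mul, map_pow, c3.symm.mul_mul_mul_comm, a2, ← pow_add, e, one_mul]) (by rwa [map_mul, map_pow]))
    (ord2 a2 a3)
  rw [coe_mul, mul_assoc, mul_right_inj, SubgroupClass.coe_pow] at h1
  have h2 : (v.val * u.val * v.val⁻¹) ^ 3 = -u.val ^ 3 := by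
    rw [conj_pow, ← mul_right_inj (u.val ^ 3), ← mul_assoc, h1, mul_inv_cancel, mul_neg, ← pow_add]
    exact (neg_eq_iff_eq_neg.2 e1).symm
  have h3 : T u.val = -T u.val := by
    rcases rel Z.sc (u := v * u * v⁻¹) (v := u) (by simp [a1]) with e2 | e2
    · rw [show v.val * u.val * v.val⁻¹ = u.val from e2, ← neg_one_mul, eq_comm, mul_eq_right] at h2
      rw [← T_neg, ← neg_one_mul, h2, one_mul]
    · rw [← T_neg, ← e2, coe_mul, coe_mul, coe_inv, T_conj]
  exact h0 ((mul_eq_zero.1 (show 2 * T u.val = 0 by linear_combination h3)).resolve_left H.two)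

theorem real_of (h : ∀ g : G, g ^ p = 1 ∨ SR g) : C.Real := fun u hu =>
  (h (pr C ⟨u, hu⟩)).elim (fun e => (unip H (Z.pow_two_mul e)).1) (Z.real H)

theorem pat (h7 : p ≠ 7) (h : ∀ g : G, (g ^ 7 = 1 ∧ IsConj g (g ^ 9)) ∨ Ra g) : C.Pat7 p := by
  have h0 : p % 7 ≠ 0 := fun e =>
    h7 ((Nat.prime_dvd_prime_iff_eq (by norm_num) H.prime).1 (Nat.dvd_of_mod_eq_zero e)).symm
  have key := fun u : C.P => (h (pr C u)).imp
    (fun e => fix14 H (Z.pow_two_mul e.1) (Z.conj_odd H (by decide) (by decide) e.1 e.2)) (Z.fx H)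
  by_cases e : p % 7 = 1 ∨ p % 7 = 2 ∨ p % 7 = 4
  · exact .inl ⟨e, fun u hu => (key ⟨u, hu⟩).elim (·.1 e) (·.2)⟩
  · have e1 : p % 7 = 3 ∨ p % 7 = 5 ∨ p % 7 = 6 := by omega
    exact .inr ⟨e1, fun u hu => (key ⟨u, hu⟩).elim (·.2 e1) fun f => f.2.trans f.1.symm⟩

end Z2

end H28.R4.N0x
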