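import Mathlib
import Cfsg.Agent.Base
import Cfsg.Agent.Lib.R4.N0aA

/-!
# The classes of `A₇`
-/

set_option autoImplicit false

namespace H28.R4.N0x

open Subgroup Equiv Equiv.Perm

variable {G G' : Type*} [Group G] [Group G'] {g : G}

theorem SR.map (e : G ≃* G') (h : SR g) : SR (e g) :=
  h.elim fun a k => ⟨e a, by simpa using congrArg e k.1, by simpa using congrArg e k.2⟩

theorem isConj_map (e : G ≃* G') {n : ℕ} (h : IsConj g (g ^ n)) : IsConj (e g) (e g ^ n) := by
  simpa using e.toMonoidHom.map_isConj h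

theorem pow_map (e : G ≃* G') {n : ℕ} (h : g ^ n = 1) : e g ^ n = 1 := by rw [← map_pow, h, map_one]

theorem Ra.map (e : G ≃* G') (h : Ra g) : Ra (e g) :=
  ⟨h.1.map e, h.2.imp (pow_map e) <| Or.imp (pow_map e) <| Or.imp (And.imp (pow_map e) (isConj_map e)) <|
    And.imp (pow_map e) fun ⟨a, h1, h2, h3, h4, h5⟩ => ⟨e a, by simpa using congrArg e h1,
      by simpa using congrArg e h2, by simpa using h3, by simpa [← map_pow] using h4,
      by simpa [← map_pow, ← map_mul] using h5⟩⟩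

/-- the classes of `L₂(7)` and `A₇` -/
def Q7 (g : G) : Prop := (g ^ 7 = 1 ∧ IsConj g (g ^ 9)) ∨ Ra g

theorem Q7.map (e : G ≃* G') (h : Q7 g) : Q7 (e g) := h.imp (And.imp (pow_map e) (isConj_map e)) (Ra.map e)

theorem ct (m : Multiset ℕ) (h1 : m.sum ≤ 7) (h2 : ∀ n ∈ m, 2 ≤ n) (h3 : (m.sum + m.card) % 2 = 0) :
    m ∈ [0, {2, 2}, {3}, {3, 3}, {4, 2}, {5}, {3, 2, 2}, {7}] := by
  have := Multiset.card_nsmul_le_sum h2
  obtain e | e | e | e : m.card = 0 ∨ m.card = 1 ∨ m.card = 2 ∨ m.card = 3 := by rw [smul_eq_mul] at this; omega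
  · simp [Multiset.card_eq_zero.1 e]
  · obtain ⟨a, rfl⟩ := Multiset.card_eq_one.1 e
    have := h2 a (by simp)
    have : a ≤ 7 := by simpa using h1
    interval_cases a <;> revert h3 <;> decide
  · obtain ⟨a, b, rfl⟩ := Multiset.card_eq_two.1 e
    have := h2 a (by simp)
    have := h2 b (by simp)
    have : a + b ≤ 7 := by simpa using h1
    have : a ≤ 5 := by omega
    have : b ≤ 5 := by omega
    interval_cases a <;> interval_cases b <;> revert h1 h3 <;> decide
  · obtain ⟨a, b, c, rfl⟩ := Multiset.card_eq_three.1 e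
    have := h2 a (by simp)
    have := h2 b (by simp)
    have := h2 c (by simp)
    have : a + (b + c) ≤ 7 := by simpa using h1
    have : a ≤ 3 := by omega
    have : b ≤ 3 := by omega
    have : c ≤ 3 := by omega
    interval_cases a <;> interval_cases b <;> interval_cases c <;> revert h1 h3 <;> decide

/-- an even permutation -/
def al (σ : Perm (Fin 7)) (h : sign σ = 1 := by decide +kernel) : alternatingGroup (Fin 7) := ⟨σ, h⟩

theorem a7_rep (g : alternatingGroup (Fin 7)) : ∃ r ∈ [1, al (c[0, 1] * c[2, 3]), al c[0, 1, 2],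
    al (c[0, 1, 2] * c[3, 4, 5]), al (c[0, 1, 2, 3] * c[4, 5]), al c[0, 1, 2, 3, 4], al (c[0, 1, 2] * c[3, 4] * c[5, 6]),
    al c[0, 1, 2, 3, 4, 5, 6]], ∃ σ : Perm (Fin 7), MulAut.conjNormal σ r = g := by
  have := ct g.1.cycleType (by simpa using g.1.sum_cycleType_le) (fun _ => two_le_of_mem_cycleType) (by
    have := (sign_of_cycleType g.1).symm.trans (mem_alternatingGroup.1 g.2)
    exact Nat.even_iff.1 ((neg_one_pow_eq_one_iff_even (by decide)).1 this))
  generalize e : g.1.cycleType = m at this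
  suffices h : ∃ r ∈ _, (r : alternatingGroup (Fin 7)).1.cycleType = m from h.imp fun r k =>
    ⟨k.1, (isConj_iff.1 (isConj_iff_cycleType_eq.2 (k.2.trans e.symm))).imp fun _ => Subtype.ext⟩
  clear e
  revert m
  decide +kernel

theorem a7_Q (g : alternatingGroup (Fin 7)) : Q7 g := by
  obtain ⟨r, hr, σ, rfl⟩ := a7_rep g
  refine Q7.map _ ?_
  simp only [List.mem_cons, List.not_mem_nil, or_false] at hr
  rcases hr with rfl | rfl | rfl | rfl | rfl | rfl | rfl | rfl
  · exact .inr ⟨⟨1, by simp⟩, .inl (one_pow _)⟩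
  · exact .inr ⟨⟨1, by decide +kernel⟩, .inl (by decide +kernel)⟩
  · exact .inr ⟨⟨al (c[0, 1] * c[3, 4]), by decide +kernel⟩, .inr (.inl (by decide +kernel))⟩
  · exact .inr ⟨⟨al (c[0, 1] * c[3, 4]), by decide +kernel⟩, .inr (.inl (by decide +kernel))⟩
  · exact .inr ⟨⟨al (c[0, 2] * c[4, 5]), by decide +kernel⟩, .inl (by decide +kernel)⟩
  · exact .inr ⟨⟨al (c[1, 4] * c[2, 3]), by decide +kernel⟩, .inr (.inr (.inl ⟨by decide +kernel,
      isConj_iff.2 ⟨al (c[1, 3, 4, 2] * c[5, 6]), by decide +kernel⟩⟩))⟩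
  · exact .inr ⟨⟨al (c[0, 1] * c[3, 4]), by decide +kernel⟩, .inr (.inr (.inr ⟨by decide +kernel,
      al (c[3, 5] * c[4, 6]), by decide +kernel⟩))⟩
  · exact .inl ⟨by decide +kernel, isConj_iff.2 ⟨al (c[1, 2, 4] * c[3, 6, 5]), by decide +kernel⟩⟩

theorem a7_cls (a : alternatingGroup (Fin 7)) (ha : orderOf a = 2) : IsConj (al (c[0, 1] * c[2, 3])) a := by
  obtain ⟨r, hr, σ, rfl⟩ := a7_rep a
  rw [MulEquiv.orderOf_eq, orderOf_eq_prime_iff] at ha
  obtain rfl : r = al (c[0, 1] * c[2, 3]) := by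
    simp only [List.mem_cons, List.not_mem_nil, or_false] at hr
    rcases hr with rfl | rfl | rfl | rfl | rfl | rfl | rfl | rfl <;> revert ha <;> decide +kernel
  rcases Int.units_eq_one_or (sign σ) with e | e
  · exact isConj_iff.2 ⟨⟨σ, e⟩, rfl⟩
  · refine isConj_iff.2 ⟨⟨σ * swap 4 5, by simp [e]⟩, Subtype.ext ?_⟩
    have : swap 4 5 * (al (c[0, 1] * c[2, 3])).1 * (swap 4 5)⁻¹ = (al (c[0, 1] * c[2, 3])).1 := by decide +kernel
    rw [MulAut.conjNormal_apply, ← this]
    simp [mul_assoc]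

theorem a7_index : (zpowers (al (c[0, 1, 2, 3] * c[4, 5]))).index = 630 := by
  have hc : Nat.card (alternatingGroup (Fin 7)) = 2520 := by
    have := two_mul_nat_card_alternatingGroup (α := Fin 7)
    rw [Nat.card_perm, Nat.card_fin] at this
    simp [Nat.factorial] at this ⊢
    omega
  have := (zpowers (al (c[0, 1, 2, 3] * c[4, 5]))).card_mul_index
  rw [Nat.card_zpowers, orderOf_eq_prime_pow (p := 2) (n := 1) (by decide +kernel) (by decide +kernel), hc] at this
  omega

end H28.R4.N0x
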