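import Mathlib
import Cfsg.Agent.Base
import Cfsg.Agent.Lib.R4.BaseB
import Cfsg.Agent.Lib.TE.Basic

/-! # No element interchanges the two elementary abelian subgroups of order sixteen -/

set_option autoImplicit false

namespace H28.R4.Nb

open Matrix Subgroup Cfsg H55.Two
open scoped MatrixGroups

variable {G k ι : Type*} [Group G] [Field k] [Fintype ι] [DecidableEq ι] {C : Cx G k ι} {p : ℕ}
  {g h t x : G} {M T T' X : Matrix ι ι k} {A B : Subgroup G}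

/-- `del` as a function on the group -/
noncomputable def D (C : Cx G k ι) (T : Matrix ι ι k) (g : G) : k := del T (C.ex g).choose

theorem D_neg : D C (-T) g = (D C T g)⁻¹ := del_neg

theorem D_eq (h2 : (2 : k) ≠ 0) (hT : Bi T) (hg : C.L g M) (e : g ∈ C.St T) : D C T g = del T M := by
  obtain ⟨c, c0, hc⟩ := C.uniq hg (C.ex g).choose_spec
  rw [D, hc, del_smul C.card h2 hT (e M hg) c0]

theorem D_mul (h2 : (2 : k) ≠ 0) (hT : Bi T) (a : g ∈ C.St T) (b : h ∈ C.St T) :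
    D C T (g * h) = D C T g * D C T h := by
  obtain ⟨M, hM⟩ := C.ex g
  obtain ⟨N, hN⟩ := C.ex h
  rw [D_eq h2 hT (C.mul hM hN) (mul_mem a b), D_eq h2 hT hM a, D_eq h2 hT hN b,
    del_mul C.card h2 hT (a M hM) (b N hN)]

theorem D_ne (h2 : (2 : k) ≠ 0) (hT : Bi T) (a : g ∈ C.St T) : D C T g ≠ 0 := by
  obtain ⟨M, hM⟩ := C.ex g
  rw [D_eq h2 hT hM a]
  exact del_ne C.card h2 hT (a M hM) (Cx.det_ne hM)

theorem D_inv2 (H : C.Hy p) (hR : C.NR) (hT : Bi T) (a : g ∈ C.St T) (e : g * g = 1) : D C T g = 1 := by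
  by_cases g1 : g = 1
  · have := D_mul H.two hT a a
    rw [e, ← g1] at this
    exact (mul_left_cancel₀ (D_ne H.two hT a) (by rw [← this, mul_one])).symm
  · have : Fact (Nat.Prime 2) := ⟨Nat.prime_two⟩
    obtain ⟨S, hS, hB⟩ := H.invol_bi hR (orderOf_eq_prime (by rw [pow_two, e]) g1)
    rw [D_eq H.two hT hS a, del_bi C.card H.two hT (a S hS) hB]

theorem D_cj (h2 : (2 : k) ≠ 0) (hT : Bi T) (hT' : Bi T') (hx : C.L x X) (e : X * T = T' * X)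
    (a : g ∈ C.St T) : x * g * x⁻¹ ∈ C.St T' ∧ D C T' (x * g * x⁻¹) = D C T g := by
  obtain ⟨M, hM⟩ := C.ex g
  have e1 : T' = X * T * X⁻¹ := by rw [e, mul_assoc, Cx.mul_inv hx, mul_one]
  have m : x * g * x⁻¹ ∈ C.St T' := by
    rw [Cx.mem_St (Cx.conj hx hM), e1, ← Bx.cj_mul (Cx.inv_mul hx), ← Bx.cj_mul (Cx.inv_mul hx), a M hM]
  refine ⟨m, ?_⟩
  rw [D_eq h2 hT' (Cx.conj hx hM) m, D_eq h2 hT hM a, e1, del_cj (Cx.mul_inv hx) (Cx.inv_mul hx)]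

theorem anti_of (h2 : (2 : k) ≠ 0) (ht : C.L t T) (hT : Bi T) (hg : C.L g M) (c : g * t = t * g)
    (n : g ∉ C.St T) : M * T = -(T * M) :=
  (Cx.comm_cases h2 ht hT.1 hg c).resolve_left fun e => n ((Cx.mem_St hg).2 e)

theorem mul_St (h2 : (2 : k) ≠ 0) (ht : C.L t T) (hT : Bi T) (c : g * t = t * g) (c' : h * t = t * h)
    (n : g ∉ C.St T) (n' : h ∉ C.St T) : g * h ∈ C.St T := by
  obtain ⟨M, hM⟩ := C.ex g
  obtain ⟨N, hN⟩ := C.ex h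
  exact Cx.mul_mem_St hM hN (anti_of h2 ht hT hM c n) (anti_of h2 ht hT hN c' n')

theorem not_St (h2 : (2 : k) ≠ 0) (hT : Bi T) (hg : C.L g M) (e : M * T = -(T * M)) : g ∉ C.St T := fun a => by
  have e1 : (2 : k) • (T * M) = 0 := by rw [two_smul]; nth_rewrite 1 [← a M hg]; rw [e, neg_add_cancel]
  have e2 := (smul_eq_zero.1 e1).resolve_left h2
  exact Cx.ne_zero hg (by rw [← one_mul M, ← hT.1, mul_assoc, e2, mul_zero])

/-- a central involution of `A B` with its biaxial lift -/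
structure Iv (C : Cx G k ι) (A B : Subgroup G) (t : G) (T : Matrix ι ι k) : Prop where
  L : C.L t T
  bi : Bi T
  mem : t ∈ A ⊓ B
  ex : ∃ s ∈ A, ∃ s' ∈ B, s ∉ C.St T ∧ s' ∉ C.St T ∧ D C T (s * s') = -1

section
variable (H : C.Hy p) (hR : C.NR) (te : TE A B)
include H hR te

theorem K1 (v : Iv C A B t T) {a a' : G} (ha : a ∈ A) (ha' : a' ∈ B) (m : a * a' ∈ C.St T) :
    (a ∈ C.St T ∧ D C T (a * a') = 1) ∨ (a ∉ C.St T ∧ D C T (a * a') = -1) := by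
  by_cases c : a ∈ C.St T
  · have c' : a' ∈ C.St T := (mul_mem_cancel_left c).1 m
    refine Or.inl ⟨c, ?_⟩
    rw [D_mul H.two v.bi c c', D_inv2 H hR v.bi c (te.sqA a ha), D_inv2 H hR v.bi c' (te.sqB a' ha'), mul_one]
  · have c' : a' ∉ C.St T := fun c' => c ((mul_mem_cancel_right c').1 m)
    obtain ⟨s, hs, s', hs', n, n', e⟩ := v.ex
    have cA : ∀ a ∈ A, a * t = t * a := fun a ha => te.cen v.mem (mem_sup_left ha)
    have cB : ∀ a ∈ B, a * t = t * a := fun a ha => te.cen v.mem (mem_sup_right ha)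
    have m1 := mul_St H.two v.L v.bi (cA a ha) (cA s hs) c n
    have m2 := mul_St H.two v.L v.bi (cA s hs) (cB s' hs') n n'
    have m3 := mul_St H.two v.L v.bi (cB s' hs') (cB a' ha') n' c'
    refine Or.inr ⟨c, ?_⟩
    rw [show a * a' = a * s * (s * s') * (s' * a') by
      rw [show a * s * (s * s') * (s' * a') = a * (s * s) * (s' * s') * a' by group, te.sqA s hs, te.sqB s' hs']
      group, D_mul H.two v.bi (mul_mem m1 m2) m3, D_mul H.two v.bi m1 m2, e,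
      D_inv2 H hR v.bi m1 (te.sqA _ (mul_mem ha hs)), D_inv2 H hR v.bi m3 (te.sqB _ (mul_mem hs' ha'))]
    ring

theorem K2 (v : Iv C A B t T) (hg : ∀ a ∈ A, g * a * g⁻¹ ∈ B) (m : g ∈ C.St T) : D C T (g * g) = -1 := by
  obtain ⟨s, hs, -, -, n, -⟩ := v.ex
  obtain ⟨S, hS⟩ := C.ex s
  have cs := te.cen v.mem (mem_sup_left hs)
  have n' : g * s * g⁻¹ ∉ C.St T := fun c =>
    n ((mul_mem_cancel_left m).1 ((mul_mem_cancel_right (inv_mem m)).1 c))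
  have m1 := mul_St H.two v.L v.bi cs (te.cen v.mem (mem_sup_right (hg s hs))) n n'
  have e1 := ((K1 H hR te v hs (hg s hs) m1).resolve_left fun c => n c.1).2
  have e2 := (D_cj H.two v.bi v.bi.neg hS (by rw [anti_of H.two v.L v.bi hS cs n, neg_mul]) m).2
  have e3 : s * g * s⁻¹ = s * (g * s * g⁻¹) * g := by rw [te.inv hs]; group
  rw [D_neg, e3, D_mul H.two v.bi m1 m, e1, inv_eq_iff_eq_inv] at e2
  have := D_ne H.two v.bi m
  rw [D_mul H.two v.bi m m]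
  field_simp at e2
  linear_combination -e2

variable {t₁ t₂ t₃ : G} {T₁ T₂ T₃ : Matrix ι ι k}

omit hR te in
theorem sg3 (v₁ : Iv C A B t₁ T₁) (v₂ : Iv C A B t₂ T₂) (v₃ : Iv C A B t₃ T₃) (e : T₂ * T₃ = T₁)
    (c₂ : g * t₂ = t₂ * g) (c₃ : g * t₃ = t₃ * g) : g ∈ C.St T₁ ↔ (g ∈ C.St T₂ ↔ g ∈ C.St T₃) := by
  obtain ⟨M, hM⟩ := C.ex g
  by_cases a : g ∈ C.St T₂ <;> by_cases b : g ∈ C.St T₃
  · refine iff_of_true ((Cx.mem_St hM).2 ?_) (iff_of_true a b)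
    rw [← e, ← mul_assoc, a M hM, mul_assoc, b M hM, mul_assoc]
  · refine iff_of_false (not_St H.two v₁.bi hM ?_) (by tauto)
    rw [← e, ← mul_assoc, a M hM, mul_assoc, anti_of H.two v₃.L v₃.bi hM c₃ b, mul_neg, mul_assoc]
  · refine iff_of_false (not_St H.two v₁.bi hM ?_) (by tauto)
    rw [← e, ← mul_assoc, anti_of H.two v₂.L v₂.bi hM c₂ a, neg_mul, mul_assoc, b M hM, mul_assoc]
  · refine iff_of_true ((Cx.mem_St hM).2 ?_) (iff_of_false a b)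
    rw [← e, ← mul_assoc, anti_of H.two v₂.L v₂.bi hM c₂ a, neg_mul, mul_assoc,
      anti_of H.two v₃.L v₃.bi hM c₃ b, mul_neg, neg_neg, mul_assoc]

theorem K3 (v₁ : Iv C A B t₁ T₁) (v₂ : Iv C A B t₂ T₂) (v₃ : Iv C A B t₃ T₃) (e : T₂ * T₃ = T₁)
    (hh : h ∈ A ⊔ B) (m₁ : h ∈ C.St T₁) (m₂ : h ∈ C.St T₂) (m₃ : h ∈ C.St T₃) :
    D C T₁ h * D C T₂ h * D C T₃ h = 1 ∧ D C T₂ h * D C T₂ h = 1 := by
  obtain ⟨a, ha, a', ha', rfl⟩ := te.dec hh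
  have := sg3 H v₁ v₂ v₃ e (te.cen v₂.mem (mem_sup_left ha)) (te.cen v₃.mem (mem_sup_left ha))
  rcases K1 H hR te v₁ ha ha' m₁ with ⟨a1, e1⟩ | ⟨a1, e1⟩ <;>
    rcases K1 H hR te v₂ ha ha' m₂ with ⟨a2, e2⟩ | ⟨a2, e2⟩ <;>
    rcases K1 H hR te v₃ ha ha' m₃ with ⟨a3, e3⟩ | ⟨a3, e3⟩ <;>
    first
      | (rw [e1, e2, e3]; constructor <;> ring1)
      | (exfalso; tauto)

theorem core (v₁ : Iv C A B t₁ T₁) (v₂ : Iv C A B t₂ T₂) (v₃ : Iv C A B t₃ T₃) (e : T₂ * T₃ = T₁)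
    (e' : T₃ * T₂ = T₁) (hg : ∀ a ∈ A, g * a * g⁻¹ ∈ B) (h2 : g * g ∈ A ⊔ B) (m : g ∈ C.St T₁)
    (c : (g * t₂ * g⁻¹ = t₂ ∧ g * t₃ * g⁻¹ = t₃) ∨ (g * t₂ * g⁻¹ = t₃ ∧ g * t₃ * g⁻¹ = t₂)) : False := by
  obtain ⟨M, hM⟩ := C.ex g
  have d1 := K2 H hR te v₁ hg m
  have ne : (-1 : k) ≠ 1 := Bx.neg_one_ne H.two
  rcases c with ⟨c₂, c₃⟩ | ⟨c₂, c₃⟩
  · rw [mul_inv_eq_iff_eq_mul] at c₂ c₃
    have := (sg3 H v₁ v₂ v₃ e c₂ c₃).1 m
    by_cases a : g ∈ C.St T₂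
    · have b := this.1 a
      have := (K3 H hR te v₁ v₂ v₃ e h2 (mul_mem m m) (mul_mem a a) (mul_mem b b)).1
      rw [d1, K2 H hR te v₂ hg a, K2 H hR te v₃ hg b] at this
      exact ne (by linear_combination this)
    · have b : g ∉ C.St T₃ := fun b => a (this.2 b)
      have a2 := mul_St H.two v₂.L v₂.bi c₂ c₂ a a
      have b2 := mul_St H.two v₃.L v₃.bi c₃ c₃ b b
      have := (K3 H hR te v₁ v₂ v₃ e h2 (mul_mem m m) a2 b2).1
      rw [d1, D_eq H.two v₂.bi (C.mul hM hM) a2, D_eq H.two v₃.bi (C.mul hM hM) b2,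
        del_sq_anti C.card H.two v₂.bi (anti_of H.two v₂.L v₂.bi hM c₂ a) (Cx.det_ne hM),
        del_sq_anti C.card H.two v₃.bi (anti_of H.two v₃.L v₃.bi hM c₃ b) (Cx.det_ne hM)] at this
      exact ne (by linear_combination this)
  · rw [mul_inv_eq_iff_eq_mul] at c₂ c₃
    obtain ⟨x, x0, hx⟩ := C.uniq (C.mul v₃.L hM) (c₂ ▸ C.mul hM v₂.L)
    obtain ⟨y, y0, hy⟩ := C.uniq (C.mul v₂.L hM) (c₃ ▸ C.mul hM v₃.L)
    have sc : ∀ {c : k} {N : Matrix ι ι k}, C.L g N → c • N = N → c = 1 := fun {c N} hN e => by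
      by_contra hc
      have : (c - 1) • N = 0 := by rw [sub_smul, e, one_smul, sub_self]
      exact Cx.ne_zero hN ((smul_eq_zero.1 this).resolve_left (sub_ne_zero.2 hc))
    have xy : x * y = 1 := by
      refine sc hM ?_
      have e1 : M * T₁ = (x * y) • (T₁ * M) := by
        nth_rewrite 1 [← e]
        rw [← mul_assoc, hx, smul_mul_assoc, mul_assoc, hy, mul_smul_comm, smul_smul, ← mul_assoc, e']
      rw [m M hM] at e1
      rw [← one_mul M, ← v₁.bi.1, mul_assoc, ← mul_smul_comm, ← e1]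
    have xx : x * x = 1 := by
      refine sc hM ?_
      calc (x * x) • M = (x * x) • (T₃ * T₃ * M) := by rw [v₃.bi.1, one_mul]
        _ = M * T₂ * T₂ := by
          rw [hx, smul_mul_assoc, mul_assoc T₃ M, hx, mul_smul_comm, smul_smul, mul_assoc]
        _ = M := by rw [mul_assoc, v₂.bi.1, mul_one]
    have a2 : g * g ∈ C.St T₂ := (Cx.mem_St (C.mul hM hM)).2 (by
      rw [mul_assoc, hx, mul_smul_comm, ← mul_assoc, hy, smul_mul_assoc, smul_smul, xy, one_smul, mul_assoc])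
    have b2 : g * g ∈ C.St T₃ := (Cx.mem_St (C.mul hM hM)).2 (by
      rw [mul_assoc, hy, mul_smul_comm, ← mul_assoc, hx, smul_mul_assoc, smul_smul, mul_comm y, xy, one_smul,
        mul_assoc])
    obtain ⟨k1, k2⟩ := K3 H hR te v₁ v₂ v₃ e h2 (mul_mem m m) a2 b2
    have gg : g * (g * g) * g⁻¹ = g * g := by group
    have d3 : D C T₃ (g * g) = D C T₂ (g * g) := by
      rcases mul_self_eq_one_iff.1 xx with rfl | rfl
      · rw [← (D_cj H.two v₂.bi v₃.bi hM (by rw [hx, one_smul]) a2).2, gg]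
      · have := (D_cj H.two v₂.bi v₃.bi.neg hM (by rw [hx]; simp) a2).2
        rw [gg, D_neg, inv_eq_iff_eq_inv] at this
        rw [this]
        exact inv_eq_of_mul_eq_one_right k2
    rw [d1, d3, mul_assoc, k2] at k1
    exact ne (by linear_combination k1)

theorem core' (v₁ : Iv C A B t₁ T₁) (v₂ : Iv C A B t₂ T₂) (v₃ : Iv C A B t₃ T₃) (e : T₂ * T₃ = T₁)
    (e' : T₃ * T₂ = T₁) (hg : ∀ a ∈ A, g * a * g⁻¹ ∈ B) (h2 : g * g ∈ A ⊔ B) (m : g * t₁ * g⁻¹ = t₁)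
    (c : (g * t₂ * g⁻¹ = t₂ ∧ g * t₃ * g⁻¹ = t₃) ∨ (g * t₂ * g⁻¹ = t₃ ∧ g * t₃ * g⁻¹ = t₂)) : False := by
  by_cases a : g ∈ C.St T₁
  · exact core H hR te v₁ v₂ v₃ e e' hg h2 a c
  obtain ⟨s, hs, -, -, n, -⟩ := v₁.ex
  have cj : ∀ a ∈ A, g * s * a * (g * s)⁻¹ = g * a * g⁻¹ := fun a ha => by
    rw [mul_assoc g, te.comm hs ha]; group
  refine core H hR te v₁ v₂ v₃ e e' (g := g * s) (fun a ha => by rw [cj a ha]; exact hg a ha) ?_
    (mul_St H.two v₁.L v₁.bi (mul_inv_eq_iff_eq_mul.1 m) (te.cen v₁.mem (mem_sup_left hs)) a n) ?_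
  · rw [show g * s * (g * s) = g * s * g⁻¹ * (g * g) * s by group]
    exact mul_mem (mul_mem (mem_sup_right (hg s hs)) h2) (mem_sup_left hs)
  · rwa [cj _ v₂.mem.1, cj _ v₃.mem.1]

theorem no_swap (v₁ : Iv C A B t₁ T₁) (v₂ : Iv C A B t₂ T₂) (v₃ : Iv C A B t₃ T₃) (e : T₂ * T₃ = T₁)
    (e' : T₃ * T₂ = T₁) (all : ∀ z ∈ A ⊓ B, z = 1 ∨ z = t₁ ∨ z = t₂ ∨ z = t₃)
    (hg : ∀ a ∈ A, g * a * g⁻¹ ∈ B) (hg' : ∀ a ∈ B, g * a * g⁻¹ ∈ A) (h2 : g * g ∈ A ⊔ B) : False := by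
  have e13 : T₁ * T₃ = T₂ := by rw [← e, mul_assoc, v₃.bi.1, mul_one]
  have e31 : T₃ * T₁ = T₂ := by rw [← e', ← mul_assoc, v₃.bi.1, one_mul]
  have e12 : T₁ * T₂ = T₃ := by rw [← e', mul_assoc, v₂.bi.1, mul_one]
  have e21 : T₂ * T₁ = T₃ := by rw [← e, ← mul_assoc, v₂.bi.1, one_mul]
  have mul3 : ∀ {a b c : G} {X Y Z : Matrix ι ι k}, Iv C A B a X → Iv C A B b Y → Iv C A B c Z → X * Y = Z →
      a * b = c := fun a b c e => C.inj (C.mul a.L b.L) (e ▸ c.L)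
  have ne1 : ∀ {a : G} {X : Matrix ι ι k}, Iv C A B a X → g * a * g⁻¹ ≠ 1 := fun {a X} v e => by
    obtain ⟨s, -, -, -, n, -⟩ := v.ex
    obtain ⟨c, hc⟩ := (Cx.eq_one_iff v.L).1 (by simpa [mul_inv_eq_one] using e)
    exact n fun M _ => by rw [hc]; simp
  have mem : ∀ {a : G} {X : Matrix ι ι k}, Iv C A B a X → g * a * g⁻¹ ∈ A ⊓ B := fun v =>
    ⟨hg' _ v.mem.2, hg _ v.mem.1⟩
  have sw : ∀ {a c : G} {X : Matrix ι ι k}, Iv C A B a X → g * a * g⁻¹ = c → g * c * g⁻¹ = a := fun {a c X} v e => by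
    rw [← e, show g * (g * a * g⁻¹) * g⁻¹ = g * g * a * (g * g)⁻¹ by group, te.cen v.mem h2]
    group
  have pr : ∀ {a b c a' b' : G}, a * b = c → g * a * g⁻¹ = a' → g * b * g⁻¹ = b' → g * c * g⁻¹ = a' * b' := by
    rintro a b c a' b' rfl rfl rfl; group
  rcases all _ (mem v₁) with c | c | c | c
  · exact ne1 v₁ c
  · refine core' H hR te v₁ v₂ v₃ e e' hg h2 c ?_
    rcases all _ (mem v₂) with d | d | d | d
    · exact (ne1 v₂ d).elim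
    · have := pr (mul3 v₁ v₂ v₃ e12) c d
      rw [te.sqA _ v₁.mem.1] at this
      exact (ne1 v₃ this).elim
    · exact Or.inl ⟨d, (pr (mul3 v₁ v₂ v₃ e12) c d).trans (mul3 v₁ v₂ v₃ e12)⟩
    · exact Or.inr ⟨d, sw v₂ d⟩
  · exact core' H hR te v₃ v₁ v₂ e12 e21 hg h2
      ((pr (mul3 v₁ v₂ v₃ e12) c (sw v₁ c)).trans (mul3 v₂ v₁ v₃ e21)) (Or.inr ⟨c, sw v₁ c⟩)
  · exact core' H hR te v₂ v₁ v₃ e13 e31 hg h2
      ((pr (mul3 v₁ v₃ v₂ e13) c (sw v₁ c)).trans (mul3 v₃ v₁ v₂ e31)) (Or.inr ⟨c, sw v₁ c⟩)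

end

theorem force_eqA : True := by
  have := @D.eq_1.{0, 0, 0}
  trivial

end H28.R4.Nb
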