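import Mathlib
import Cfsg.Agent.Base
import Cfsg.Agent.Lib.R4.FrB
import Cfsg.Agent.Lib.R4.N1bA

/-! # The second frame -/

set_option autoImplicit false

namespace H28.R4.Nb

open Matrix Subgroup Cfsg H55.Two H69
open Equiv (swap Perm)
open scoped MatrixGroups

variable {G k ι : Type*} [Group G] [Field k] [Fintype ι] [DecidableEq ι] {C : Cx G k ι} {p : ℕ}
  {γ γ' : Fin 6 → Fin 6 → Matrix ι ι k} {b b' : Fin 6 → Fin 6 → G} {A B : Subgroup G}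

theorem del_one [IsAlgClosed k] (h4 : Fintype.card ι = 4) (h2 : (2 : k) ≠ 0) {T M : Matrix ι ι k} (hT : Bi T)
    (c : M * T = T * M) {d : k} (d0 : d ≠ 0) (e : M * M = d • 1) (t : M.trace = 0) : del T M = 1 := by
  obtain ⟨r, hr⟩ := IsAlgClosed.exists_eq_mul_self d⁻¹
  have r0 : r ≠ 0 := by rintro rfl; exact inv_ne_zero d0 (by simpa using hr)
  rw [← del_smul h4 h2 hT c r0]
  refine del_bi h4 h2 hT (by rw [smul_mul_assoc, mul_smul_comm, c]) ⟨?_, by rw [trace_smul, t, smul_zero]⟩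
  rw [smul_mul_smul_comm, e, smul_smul, ← hr, inv_mul_cancel₀ d0, one_smul]

theorem iv0 (H : C.Hy p) (h : C.FG γ b) (m1 : b 0 4 ∈ A) (m2 : b 4 5 ∈ A ⊓ B) {x : G} (m3 : x ∈ B)
    (hx : C.L x (γ 4 0 - γ 4 1 - γ 5 0 + γ 5 1)) : Iv C A B (b 4 5) (-(γ 0 1 * γ 2 3)) := by
  have := H.closed
  have F := h.toFr
  have h2 := H.two
  have hB : Bi (-(γ 0 1 * γ 2 3)) := (F.bi C.card h2 (by decide)).neg
  obtain ⟨c, hc, e⟩ := F.triple C.card h2 (i := 0) (j := 1) (l := 2) (m := 3) (n := 4) (o := 5) (by decide)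
  have e45 : γ 4 5 = c • -(γ 0 1 * γ 2 3) := by rw [e, smul_neg, smul_smul, hc]; simp
  have cm : ∀ {i j : Fin 6}, Fx.ov i j 0 1 = true → Fx.ov i j 2 3 = true →
      γ i j * -(γ 0 1 * γ 2 3) = -(γ 0 1 * γ 2 3) * γ i j := fun a b => by
    rw [mul_neg, ← mul_assoc, F.cm1 a, neg_mul, mul_assoc, F.cm1 b, mul_neg, neg_neg, neg_mul, mul_assoc]
  have e1 : γ 0 4 * (γ 4 0 - γ 4 1 - γ 5 0 + γ 5 1) = (1 - γ 0 1) * (1 - γ 4 5) := by
    have a1 : γ 0 4 * γ 5 0 = γ 4 5 := by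
      rw [F.anti 4 0 (by decide), F.anti 0 5 (by decide), neg_mul_neg, F.mul]
    have a2 : γ 0 4 * γ 5 1 = γ 0 1 * γ 4 5 := by
      rw [F.exch 0 1 (i := 4) (m := 5) (by decide), ← F.mul 0 1 5, F.anti 5 1 (by decide), F.anti 1 4 (by decide),
        mul_assoc, neg_mul_neg, F.mul, F.anti 4 5 (by decide), mul_neg, neg_neg]
    rw [mul_add, mul_sub, mul_sub, F.mul, F.mul, F.self, a1, a2]
    noncomm_ring
  have e2 : 1 - γ 0 1 = γ 0 2 * (γ 2 0 - γ 2 1) := by rw [mul_sub, F.mul, F.mul, F.self]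
  have c1 := cm (i := 0) (j := 2) (by decide) (by decide)
  have c2 : (γ 2 0 - γ 2 1) * -(γ 0 1 * γ 2 3) = -(γ 0 1 * γ 2 3) * (γ 2 0 - γ 2 1) := by
    rw [sub_mul, mul_sub, cm (by decide) (by decide), cm (by decide) (by decide)]
  have c3 : (1 - γ 0 1) * -(γ 0 1 * γ 2 3) = -(γ 0 1 * γ 2 3) * (1 - γ 0 1) := by
    rw [e2, mul_assoc, c2, ← mul_assoc, c1, mul_assoc]
  have c4 : (1 - γ 4 5) * -(γ 0 1 * γ 2 3) = -(γ 0 1 * γ 2 3) * (1 - γ 4 5) := by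
    rw [e45, sub_mul, mul_sub, smul_mul_assoc, mul_smul_comm, one_mul, mul_one]
  have hL := C.mul (h.lift 0 4) hx
  rw [e1] at hL
  have m : b 0 4 * x ∈ C.St (-(γ 0 1 * γ 2 3)) :=
    (Cx.mem_St hL).2 (by rw [mul_assoc, c4, ← mul_assoc, c3, mul_assoc])
  have n : b 0 4 ∉ C.St (-(γ 0 1 * γ 2 3)) := not_St h2 hB (h.lift 0 4) (by
    rw [mul_neg, ← mul_assoc, F.cm1 (by decide), neg_mul, mul_assoc, F.cm0 (i := 0) (j := 4) (by decide), neg_mul,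
      mul_assoc])
  have c0 : c ≠ 0 := by rintro rfl; simp at hc
  refine ⟨?_, hB, m2, b 0 4, m1, x, m3, n, fun a => n ((mul_mem_cancel_right a).1 m), ?_⟩
  · have := C.smul (h.lift 4 5) (inv_ne_zero c0)
    rwa [e45, smul_smul, inv_mul_cancel₀ c0, one_smul] at this
  · have n1 : 1 - -c ≠ 0 := fun e => h2 (by linear_combination (1 - c) * e + hc)
    rw [D_eq h2 hB hL m, del_mul C.card h2 hB c3 c4, e2, del_mul C.card h2 hB c1 c2,
      del_one C.card h2 hB c1 (d := -1) (by norm_num) (by rw [F.sq (by decide)]; simp) (F.trace C.card h2 (by decide)),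
      del_one C.card h2 hB c2 (d := -2) (neg_ne_zero.2 h2) ?_ ?_,
      show 1 - γ 4 5 = (1 : k) • 1 + (-c) • -(γ 0 1 * γ 2 3) by rw [e45]; module, del_lin C.card h2 hB n1]
    · field_simp
      linear_combination 2 * hc
    · rw [sub_mul, mul_sub, mul_sub, F.sq (by decide), F.sq (by decide), F.anti' (i := 2) (j := 0) (l := 1) (by decide)]
      module
    · rw [trace_sub, F.trace C.card h2 (by decide), F.trace C.card h2 (by decide), sub_zero]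

theorem iv (H : C.Hy p) (h : C.FG γ b) {i j l m n o : Fin 6} (e : [i, j, l, m, n, o].Nodup) (m1 : b i n ∈ A)
    (m2 : b n o ∈ A ⊓ B) {x : G} (m3 : x ∈ B) (hx : C.L x (γ n i - γ n j - γ o i + γ o j)) :
    Iv C A B (b n o) (-(γ i j * γ l m)) := by
  obtain ⟨σ, rfl, rfl, rfl, rfl, rfl, rfl⟩ := Fx.exists_perm6 e
  exact iv0 H (h.perm σ) m1 m2 m3 hx

/-- the vectors of the second frame -/
def fv (k : Type*) [Field k] : Fin 6 → Fin 6 → k :=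
  ![![1, 1, 0, 0, 0, 0], ![1, -1, 0, 0, 0, 0], ![0, 0, 1, 1, 0, 0], ![0, 0, 1, -1, 0, 0], ![0, 0, 0, 0, 1, 1],
    ![0, 0, 0, 0, 1, -1]]

/-- the second frame -/
def sec (γ : Fin 6 → Fin 6 → Matrix ι ι k) (i j : Fin 6) : Matrix ι ι k := (2 : k)⁻¹ • gm γ (fv k i) (fv k j)

/-- the permutations induced by the second frame -/
def tau : Fin 6 → Perm (Fin 6) :=
  ![1, 1, swap 0 1 * swap 2 3, swap 0 1 * swap 2 3, swap 0 1 * swap 4 5, swap 0 1 * swap 4 5]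

/-- the partner of a point -/
def pr : Fin 6 → Fin 6 := ![1, 0, 3, 2, 5, 4]

theorem sec_fr (h : Fr γ) (h2 : (2 : k) ≠ 0) : Fr (sec γ) := h.of_orth h2 h2 fun i j => by
  fin_cases i <;> fin_cases j <;> simp [fv, dotProduct, Fin.sum_univ_succ] <;> norm_num

omit [Fintype ι] [DecidableEq ι] in
theorem sec_odd (h2 : (2 : k) ≠ 0) :
    (2 : k) • sec γ 1 3 = γ 0 2 - γ 0 3 - γ 1 2 + γ 1 3 ∧ (2 : k) • sec γ 1 5 = γ 0 4 - γ 0 5 - γ 1 4 + γ 1 5 ∧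
      (2 : k) • sec γ 3 1 = γ 2 0 - γ 2 1 - γ 3 0 + γ 3 1 ∧ (2 : k) • sec γ 5 1 = γ 4 0 - γ 4 1 - γ 5 0 + γ 5 1 := by
  refine ⟨?_, ?_, ?_, ?_⟩ <;> rw [sec, smul_smul, mul_inv_cancel₀ h2, one_smul] <;>
    simp [fv, gm, Fin.sum_univ_succ] <;> abel

theorem sec_pr (h : Fr γ) (h2 : (2 : k) ≠ 0) :
    sec γ 1 0 = γ 0 1 ∧ sec γ 3 2 = γ 2 3 ∧ sec γ 5 4 = γ 4 5 := by
  refine ⟨?_, ?_, ?_⟩ <;> rw [sec, inv_smul_eq_iff₀ h2, two_smul]
  · simp [fv, gm, Fin.sum_univ_succ, h.self, h.anti 0 1 (by decide)]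
    abel
  · simp [fv, gm, Fin.sum_univ_succ, h.self, h.anti 2 3 (by decide)]
    abel
  · simp [fv, gm, Fin.sum_univ_succ, h.self, h.anti 4 5 (by decide)]
    abel

theorem ind_b (h : C.FG γ b) (h2 : (2 : k) ≠ 0) (i j : Fin 6) : Cx.Ind b (b i j) 1 :=
  (h.ind_one h2).2 ((h.mem_fA h2).2 ⟨i, j, rfl⟩)

theorem second (h : C.FG γ b) (h2 : (2 : k) ≠ 0) (v1 : swap 0 1 * swap 2 3 ∈ Cx.fB b)
    (v2 : swap 0 1 * swap 4 5 ∈ Cx.fB b) :
    ∃ b', C.FG (sec γ) b' ∧ ∀ i j, Cx.Ind b (b' i j) ((tau i)⁻¹ * tau j) := by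
  have F := sec_fr h.toFr h2
  obtain ⟨s13, s15, -, -⟩ := sec_odd (γ := γ) h2
  obtain ⟨s10, s32, s54⟩ := sec_pr h.toFr h2
  have un : ∀ i j, IsUnit (sec γ i j) := fun i j => ⟨⟨_, _, F.inv i j, F.inv j i⟩, rfl⟩
  obtain ⟨x, hx, ix⟩ := h.of_matrix h2 v1 (un 1 3) fun n o => ⟨1, smul_right_injective _ h2 (by
    show (2 : k) • _ = (2 : k) • _
    rw [one_smul, ← smul_mul_assoc, ← mul_smul_comm, s13, (h.dbl h2 (by decide)).2])⟩
  obtain ⟨y, hy, iy⟩ := h.of_matrix h2 v2 (un 1 5) fun n o => ⟨1, smul_right_injective _ h2 (by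
    show (2 : k) • _ = (2 : k) • _
    rw [one_smul, ← smul_mul_assoc, ← mul_smul_comm, s15, (h.dbl h2 (by decide)).2])⟩
  have key : ∀ j, ∃ c, C.L c (sec γ 1 j) ∧ Cx.Ind b c (tau j) := fun j => by
    fin_cases j
    · exact ⟨b 0 1, s10 ▸ h.lift 0 1, ind_b h h2 0 1⟩
    · exact ⟨1, (F.self 1).symm ▸ C.one, ind_b h h2 0 0 |> fun a => h.self' h2 0 ▸ a⟩
    · exact ⟨x * b 2 3, F.mul 1 3 2 ▸ C.mul hx (s32 ▸ h.lift 2 3), ix.mul (ind_b h h2 2 3)⟩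
    · exact ⟨x, hx, ix⟩
    · exact ⟨y * b 4 5, F.mul 1 5 4 ▸ C.mul hy (s54 ▸ h.lift 4 5), iy.mul (ind_b h h2 4 5)⟩
    · exact ⟨y, hy, iy⟩
  choose c hc ic using key
  exact ⟨fun i j => (c i)⁻¹ * c j, ⟨F, fun i j => F.mul i 1 j ▸ C.mul (Cx.inv_of_mul (hc i) (F.inv 1 i)) (hc j)⟩,
    fun i j => (ic i).inv.mul (ic j)⟩

theorem tau_pt : ∀ l m i : Fin 6, ((tau l)⁻¹ * tau m) i = i ∨ ((tau l)⁻¹ * tau m) i = pr i := by decide

theorem tau_one : ∀ l m : Fin 6, (tau l)⁻¹ * tau m = 1 → m = l ∨ m = pr l := by decide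

theorem tau_cases : ∀ l m : Fin 6, (tau l)⁻¹ * tau m = 1 ∨ (tau l)⁻¹ * tau m = swap 0 1 * swap 2 3 ∨
    (tau l)⁻¹ * tau m = swap 0 1 * swap 4 5 ∨ (tau l)⁻¹ * tau m = swap 2 3 * swap 4 5 := by decide

theorem tau_fix (l m i j : Fin 6) (e : i ≠ j)
    (h : (i = ((tau l)⁻¹ * tau m) i ∧ j = ((tau l)⁻¹ * tau m) j) ∨
      (i = ((tau l)⁻¹ * tau m) j ∧ j = ((tau l)⁻¹ * tau m) i)) : j = pr i ∨ (tau l)⁻¹ * tau m = 1 := by
  rcases tau_cases l m with c | c | c | c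
  · exact Or.inr c
  all_goals
    left
    rw [c] at h
    revert i j
    decide

section
variable (h : C.FG γ b) (h' : C.FG (sec γ) b') (h2 : (2 : k) ≠ 0)
  (ind : ∀ i j, Cx.Ind b (b' i j) ((tau i)⁻¹ * tau j))
include h h' h2

theorem b_pr (i : Fin 6) : b' i (pr i) = b i (pr i) := by
  obtain ⟨s10, s32, s54⟩ := sec_pr h.toFr h2
  have e1 : b' 1 0 = b 0 1 := C.inj (h'.lift 1 0) (s10 ▸ h.lift 0 1)
  have e2 : b' 3 2 = b 2 3 := C.inj (h'.lift 3 2) (s32 ▸ h.lift 2 3)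
  have e3 : b' 5 4 = b 4 5 := C.inj (h'.lift 5 4) (s54 ▸ h.lift 4 5)
  fin_cases i
  · exact (h'.symm h2 1 0).trans e1
  · exact e1.trans (h.symm h2 1 0)
  · exact (h'.symm h2 3 2).trans e2
  · exact e2.trans (h.symm h2 3 2)
  · exact (h'.symm h2 5 4).trans e3
  · exact e3.trans (h.symm h2 5 4)

theorem mem_pr (i : Fin 6) : b i (pr i) ∈ Cx.fA b ⊓ Cx.fA b' :=
  ⟨(h.mem_fA h2).2 ⟨_, _, rfl⟩, (h'.mem_fA h2).2 ⟨_, _, (b_pr h h' h2 i).symm⟩⟩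

include ind

theorem inter {z : G} (hz : z ∈ Cx.fA b ⊓ Cx.fA b') : z = 1 ∨ z = b 0 1 ∨ z = b 2 3 ∨ z = b 4 5 := by
  obtain ⟨l, m, rfl⟩ := (h'.mem_fA h2).1 hz.2
  rcases tau_one l m (h.ind_unique h2 (ind l m) ((h.ind_one h2).2 hz.1)) with rfl | rfl
  · exact Or.inl (h'.self' h2 _)
  · rw [b_pr h h' h2]
    fin_cases l
    · exact Or.inr (Or.inl rfl)
    · exact Or.inr (Or.inl (h.symm h2 0 1))
    · exact Or.inr (Or.inr (Or.inl rfl))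
    · exact Or.inr (Or.inr (Or.inl (h.symm h2 2 3)))
    · exact Or.inr (Or.inr (Or.inr rfl))
    · exact Or.inr (Or.inr (Or.inr (h.symm h2 4 5)))

theorem card_inter : Nat.card (Cx.fA b ⊓ Cx.fA b' : Subgroup G) = 4 := by
  have e : ((Cx.fA b ⊓ Cx.fA b' : Subgroup G) : Set G) = {1, b 0 1, b 2 3, b 4 5} := Set.ext fun z =>
    ⟨fun hz => inter h h' h2 ind hz, by
      rintro (rfl | rfl | rfl | rfl)
      exacts [one_mem _, mem_pr h h' h2 0, mem_pr h h' h2 2, mem_pr h h' h2 4]⟩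
  have n1 := (h.ne_one h2 (i := 0) (j := 1) (by decide)).symm
  have n2 := (h.ne_one h2 (i := 2) (j := 3) (by decide)).symm
  have n3 := (h.ne_one h2 (i := 4) (j := 5) (by decide)).symm
  have n4 : b 0 1 ≠ b 2 3 := by rw [Ne, h.eq_iff h2 (by decide)]; decide
  have n5 : b 0 1 ≠ b 4 5 := by rw [Ne, h.eq_iff h2 (by decide)]; decide
  have n6 : b 2 3 ≠ b 4 5 := by rw [Ne, h.eq_iff h2 (by decide)]; decide
  rw [← SetLike.coe_sort_coe, e, Nat.card_coe_set_eq, Set.ncard_insert_of_notMem (by simp [n1, n2, n3]),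
    Set.ncard_insert_of_notMem (by simp [n4, n5]), Set.ncard_pair n6]

theorem te : TE (Cx.fA b) (Cx.fA b') where
  sqA a ha := by obtain ⟨i, j, rfl⟩ := (h.mem_fA h2).1 ha; exact h.mul_self h2 i j
  sqB a ha := by obtain ⟨i, j, rfl⟩ := (h'.mem_fA h2).1 ha; exact h'.mul_self h2 i j
  nA a ha := by obtain ⟨i, j, rfl⟩ := (h'.mem_fA h2).1 ha; exact (h.mem_norm h2).2 ⟨_, ind i j⟩
  nB := le_normalizer_of_cj_le fun a ha z hz => by
    obtain ⟨a', ha', rfl⟩ := mem_cj'.1 hz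
    obtain ⟨i, j, rfl⟩ := (h.mem_fA h2).1 ha
    obtain ⟨l, m, rfl⟩ := (h'.mem_fA h2).1 ha'
    have u : ∀ i, b i (((tau l)⁻¹ * tau m) i) ∈ Cx.fA b' := fun i => by
      rcases tau_pt l m i with c | c <;> rw [c]
      · rw [h.self' h2]; exact one_mem _
      · exact (mem_pr h h' h2 i).2
    have e : b i j * b' l m * (b i j)⁻¹ = b i j * (b' l m * b i j * (b' l m)⁻¹) * b' l m := by
      rw [inv_of_sq (h.mul_self h2 i j)]; group
    rw [e, ind l m, ← h.mul' h2 i (((tau l)⁻¹ * tau m) i) j, mul_assoc (b i _),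
      h.symm h2 j (((tau l)⁻¹ * tau m) i), h.mul' h2]
    exact mul_mem (mul_mem (u i) (u j)) ha'
  nc a ha a' ha' e := by
    obtain ⟨i, j, rfl⟩ := (h.mem_fA h2).1 ha
    obtain ⟨l, m, rfl⟩ := (h'.mem_fA h2).1 ha'
    by_cases ij : i = j
    · left; rw [ij, h.self' h2]; exact one_mem _
    have e1 := ind l m i j
    rw [← e, mul_inv_cancel_right, h.eq_iff h2 ij] at e1
    rcases tau_fix l m i j ij e1 with rfl | c
    · exact Or.inl (mem_pr h h' h2 i).2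
    · exact Or.inr ((h.ind_one h2).1 (c ▸ ind l m))
  neA e := by
    have m : b 0 2 ∈ Cx.fA b := (h.mem_fA h2).2 ⟨_, _, rfl⟩
    rcases inter h h' h2 ind ⟨m, e m⟩ with c | c | c | c
    · exact h.ne_one h2 (by decide) c
    all_goals
      rw [h.eq_iff h2 (by decide)] at c
      revert c
      decide
  neB e := by
    have := h.ind_unique h2 (ind 1 3) ((h.ind_one h2).2 (e ((h'.mem_fA h2).2 ⟨_, _, rfl⟩)))
    revert this
    decide

theorem no_swap' (H : C.Hy p) (hR : C.NR) {g : G} (hg : ∀ a ∈ Cx.fA b, g * a * g⁻¹ ∈ Cx.fA b')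
    (hg' : ∀ a ∈ Cx.fA b', g * a * g⁻¹ ∈ Cx.fA b) (g2 : g * g ∈ Cx.fA b ⊔ Cx.fA b') : False := by
  obtain ⟨s13, -, s31, s51⟩ := sec_odd (γ := γ) h2
  have F := h.toFr
  have mA : ∀ i j, b i j ∈ Cx.fA b := fun i j => (h.mem_fA h2).2 ⟨_, _, rfl⟩
  have mB : ∀ i j, b' i j ∈ Cx.fA b' := fun i j => (h'.mem_fA h2).2 ⟨_, _, rfl⟩
  refine no_swap H hR (te h h' h2 ind)
    (iv H h (i := 2) (j := 3) (l := 4) (m := 5) (n := 0) (o := 1) (by decide) (mA _ _) (mem_pr h h' h2 0)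
      (mB 1 3) (s13 ▸ C.smul (h'.lift 1 3) h2))
    (iv H h (i := 0) (j := 1) (l := 4) (m := 5) (n := 2) (o := 3) (by decide) (mA _ _) (mem_pr h h' h2 2)
      (mB 3 1) (s31 ▸ C.smul (h'.lift 3 1) h2))
    (iv H h (i := 0) (j := 1) (l := 2) (m := 3) (n := 4) (o := 5) (by decide) (mA _ _) (mem_pr h h' h2 4)
      (mB 5 1) (s51 ▸ C.smul (h'.lift 5 1) h2)) ?_ ?_ (fun z hz => inter h h' h2 ind hz) hg hg' g2
  · rw [neg_mul_neg, F.comm (i := 0) (j := 1) (l := 4) (by decide), mul_assoc, ← mul_assoc (γ 0 1), F.sq (by decide),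
      F.comm (i := 2) (j := 3) (by decide)]
    simp
  · rw [neg_mul_neg, F.comm (i := 0) (j := 1) (l := 2) (by decide), mul_assoc, ← mul_assoc (γ 0 1), F.sq (by decide)]
    simp

end

theorem force_eqB : True := by
  have := @fv.eq_1.{0}
  have := @sec.eq_1.{0, 0}
  have := @tau.eq_1
  have := @pr.eq_1
  trivial

end H28.R4.Nb
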