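import Mathlib
import Cfsg.Agent.Base
import Cfsg.Agent.Lib.R4.FrB

/-! # The unitary structure of a frame in characteristic three -/

set_option autoImplicit false

namespace H28.R4.Nb

open Matrix Subgroup Cfsg
open scoped MatrixGroups commutatorElement

variable {G k ι : Type*} [Group G] [Field k] [Fintype ι] [DecidableEq ι] {C : Cx G k ι} {p : ℕ}
  {γ γ' : Fin 6 → Fin 6 → Matrix ι ι k} {b : Fin 6 → Fin 6 → G}

theorem step {I : Type*} {c d : I → Matrix ι ι k} {x y z Y : Matrix ι ι k} (hY : Y ≠ 0)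
    (h : ∀ i, c i * Y = Y * d i) (hx : x * x = -1) (hy : y * y = -1) (hz : z * z = -1)
    (cx : ∀ i, c i * x = -(x * c i)) (dy : ∀ i, d i * y = -(y * d i)) (cz : ∀ i, c i * z = z * c i)
    (xz : x * z = -(z * x)) : ∃ Y', Y' ≠ 0 ∧ (∀ i, c i * Y' = Y' * d i) ∧ x * Y' = Y' * y := by
  by_cases e : Y - x * Y * y = 0
  · refine ⟨z * Y, fun e' => hY ?_, fun i => ?_, ?_⟩
    · rw [← neg_neg Y, ← neg_one_mul Y, ← hz, mul_assoc, e', mul_zero, neg_zero]
    · rw [← mul_assoc, cz, mul_assoc, h, mul_assoc]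
    · have e1 : x * Y = -(Y * y) := by
        nth_rewrite 1 [sub_eq_zero.1 e]
        rw [← mul_assoc, ← mul_assoc, hx]; simp
      rw [← mul_assoc, xz, neg_mul, mul_assoc, e1, mul_neg, neg_neg, mul_assoc]
  · refine ⟨_, e, fun i => ?_, ?_⟩
    · have e1 : y * d i = -(d i * y) := by rw [dy, neg_neg]
      rw [mul_sub, sub_mul, h, ← mul_assoc, ← mul_assoc, cx, mul_assoc (x * Y), e1, neg_mul, neg_mul, mul_neg,
        mul_assoc x (c i), h, mul_assoc x, mul_assoc x, mul_assoc Y]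
    · rw [mul_sub, sub_mul, ← mul_assoc, ← mul_assoc, hx, mul_assoc _ y y, hy]
      simp [add_comm]

/-- two frames of the same orientation are conjugate -/
theorem exists_J (h : Fr γ) (h' : Fr γ') (h4 : Fintype.card ι = 4) (h2 : (2 : k) ≠ 0) {c : k} (c0 : c ≠ 0)
    (e : γ 1 2 * γ 3 4 = c • γ 0 5) (e' : γ' 1 2 * γ' 3 4 = c • γ' 0 5) :
    ∃ J : Matrix ι ι k, IsUnit J.det ∧ ∀ i j, γ i j * J = J * γ' i j := by
  have : Nonempty ι := Fintype.card_pos_iff.1 (by omega)
  have an : ∀ {γ : Fin 6 → Fin 6 → Matrix ι ι k}, Fr γ → ∀ i j l : Fin 6, [i, j, l].Nodup →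
      γ i j * γ j l = -(γ j l * γ i j) := fun {γ} h i j l hn => by
    have h1 : i ≠ j := by rintro rfl; simp at hn
    have := h.anti' (i := j) (j := i) (l := l) (by revert hn; simp; tauto)
    rw [h.anti i j h1, neg_mul, mul_neg, neg_neg] at this
    rw [← this, neg_neg]
  obtain ⟨Y1, n1, -, a1⟩ := step (I := Empty) (c := fun _ => 1) (d := fun _ => 1) (x := γ 0 1) (y := γ' 0 1)
    (z := γ 1 2) (Y := 1) one_ne_zero (fun i => i.elim) (h.sq (by decide)) (h'.sq (by decide)) (h.sq (by decide))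
    (fun i => i.elim) (fun i => i.elim) (fun i => i.elim) (an h 0 1 2 (by decide))
  obtain ⟨Y2, n2, a2, b2⟩ := step (I := Unit) (c := fun _ => γ 0 1) (d := fun _ => γ' 0 1) (x := γ 0 2)
    (y := γ' 0 2) (z := γ 2 3) n1 (fun _ => a1) (h.sq (by decide)) (h'.sq (by decide)) (h.sq (by decide))
    (fun _ => h.anti' (by decide)) (fun _ => h'.anti' (by decide)) (fun _ => h.comm (by decide))
    (an h 0 2 3 (by decide))
  obtain ⟨Y3, n3, a3, b3⟩ := step (I := Fin 2) (c := ![γ 0 1, γ 0 2]) (d := ![γ' 0 1, γ' 0 2]) (x := γ 0 3)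
    (y := γ' 0 3) (z := γ 3 4) n2 (Fin.forall_fin_two.2 ⟨a2 (), b2⟩) (h.sq (by decide)) (h'.sq (by decide))
    (h.sq (by decide)) (Fin.forall_fin_two.2 ⟨h.anti' (by decide), h.anti' (by decide)⟩)
    (Fin.forall_fin_two.2 ⟨h'.anti' (by decide), h'.anti' (by decide)⟩)
    (Fin.forall_fin_two.2 ⟨h.comm (by decide), h.comm (by decide)⟩) (an h 0 3 4 (by decide))
  have f3 : ∀ {P : Fin 3 → Prop}, P 0 → P 1 → P 2 → ∀ i, P i := fun a b c i => by fin_cases i <;> assumption
  obtain ⟨J, n4, a4, b4⟩ := step (I := Fin 3) (c := ![γ 0 1, γ 0 2, γ 0 3]) (d := ![γ' 0 1, γ' 0 2, γ' 0 3])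
    (x := γ 0 4) (y := γ' 0 4) (z := γ 4 5) n3 (f3 (a3 0) (a3 1) b3) (h.sq (by decide)) (h'.sq (by decide))
    (h.sq (by decide)) (f3 (h.anti' (by decide)) (h.anti' (by decide)) (h.anti' (by decide)))
    (f3 (h'.anti' (by decide)) (h'.anti' (by decide)) (h'.anti' (by decide)))
    (f3 (h.comm (by decide)) (h.comm (by decide)) (h.comm (by decide))) (an h 0 4 5 (by decide))
  have ext : ∀ i j, γ 0 i * J = J * γ' 0 i → γ 0 j * J = J * γ' 0 j → γ i j * J = J * γ' i j := by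
    intro i j hi hj
    have hi' : γ i 0 * J = J * γ' i 0 := by
      calc γ i 0 * J = γ i 0 * J * (γ' 0 i * γ' i 0) := by rw [h'.mul, h'.self, mul_one]
        _ = γ i 0 * (γ 0 i * J) * γ' i 0 := by rw [hi]; simp only [mul_assoc]
        _ = J * γ' i 0 := by rw [← mul_assoc, h.mul, h.self, one_mul]
    rw [← h.mul i 0 j, ← h'.mul i 0 j, mul_assoc, hj, ← mul_assoc, hi', mul_assoc]
  have b1 : γ 0 1 * J = J * γ' 0 1 := a4 0
  have b2 : γ 0 2 * J = J * γ' 0 2 := a4 1
  have b3 : γ 0 3 * J = J * γ' 0 3 := a4 2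
  have b5 : γ 0 5 * J = J * γ' 0 5 := by
    refine smul_right_injective _ c0 ?_
    show c • _ = c • _
    rw [← smul_mul_assoc, ← mul_smul_comm, ← e, ← e', mul_assoc, ext 3 4 b3 b4, ← mul_assoc, ext 1 2 b1 b2, mul_assoc]
  have all : ∀ i, γ 0 i * J = J * γ' 0 i := fun i => by
    fin_cases i
    · simp [h.self, h'.self]
    all_goals assumption
  have all2 : ∀ i j, γ i j * J = J * γ' i j := fun i j => ext i j (all i) (all j)
  refine ⟨J, Ne.isUnit fun hd => n4 ?_, all2⟩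
  obtain ⟨v, v0, hv⟩ := exists_mulVec_eq_zero_iff.2 hd
  have key : ∀ M : Matrix ι ι k, J *ᵥ (M *ᵥ v) = 0 := fun M => by
    obtain ⟨c, x, rfl⟩ := h'.span h4 h2 M
    rw [mulVec_mulVec]
    simp only [mul_add, Finset.mul_sum, mul_smul_comm, mul_one, ← all2, add_mulVec, smul_mulVec, sum_mulVec,
      ← mulVec_mulVec, hv, mulVec_zero, smul_zero, Finset.sum_const_zero, add_zero]
  obtain ⟨i, hi⟩ := Function.ne_iff.1 v0
  ext r s
  have := congrFun (key (single s i (v i)⁻¹)) r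
  rw [single_mulVec, inv_mul_cancel₀ hi] at this
  simpa [mulVec, dotProduct, Function.update_apply] using this

/-- a Frobenius-semilinear anti-automorphism -/
structure Star (s : Matrix ι ι k →+ Matrix ι ι k) : Prop where
  mul : ∀ X Y, s (X * Y) = s Y * s X
  smul : ∀ (c : k) X, s (c • X) = c ^ 3 • s X
  one : s 1 = 1
  trace : ∀ X, (s X).trace = X.trace ^ 3

theorem exists_star [CharP k 3] (h : Fr γ) (h4 : Fintype.card ι = 4) :
    ∃ s : Matrix ι ι k →+ Matrix ι ι k, Star s ∧ ∀ i j, s (γ i j) = γ j i := by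
  have : Fact (Nat.Prime 3) := ⟨Nat.prime_three⟩
  have h2 : (2 : k) ≠ 0 := fun e => by
    have := (CharP.cast_eq_zero_iff k 3 2).1 (by simpa using e)
    omega
  let f : Matrix ι ι k →+ Matrix ι ι k :=
    { toFun := fun X => ((frobenius k 3).mapMatrix X)ᵀ
      map_zero' := by simp
      map_add' := fun X Y => by simp only [map_add, transpose_add] }
  have fm : ∀ X Y, f (X * Y) = f Y * f X := fun X Y => by
    show (_ : Matrix ι ι k)ᵀ = _ᵀ * _ᵀ
    rw [map_mul, transpose_mul]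
  have fs : ∀ (c : k) X, f (c • X) = c ^ 3 • f X := fun c X => by
    ext i j
    simp [f, frobenius_def, mul_pow]
  have f1 : f 1 = 1 := by
    show (_ : Matrix ι ι k)ᵀ = _
    rw [map_one, transpose_one]
  have ft : ∀ X, (f X).trace = X.trace ^ 3 := fun X => by
    show (_ : Matrix ι ι k)ᵀ.trace = _
    rw [trace_transpose, ← frobenius_def, RingHom.mapMatrix_apply, ← AddMonoidHom.map_trace]
  have h' : Fr fun i j => f (γ j i) :=
    ⟨fun i j l => by rw [← fm, h.mul], fun i => by rw [h.self, f1], fun i j e => by rw [h.anti j i e.symm, map_neg]⟩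
  obtain ⟨c, hc, e⟩ := h.triple h4 h2 (i := 1) (j := 2) (l := 3) (m := 4) (n := 0) (o := 5) (by decide)
  have c0 : c ≠ 0 := by rintro rfl; simp at hc
  obtain ⟨J, hJ, hj⟩ := exists_J h h' h4 h2 c0 e (by
    rw [← fm, h.anti 3 4 (by decide), h.anti 1 2 (by decide), h.anti 0 5 (by decide), neg_mul_neg,
      ← h.comm (by decide), e, fs, map_neg, show c ^ 3 = -c by linear_combination c * hc]
    simp)
  have i1 := mul_nonsing_inv J hJ
  have i2 := nonsing_inv_mul J hJ
  refine ⟨((AddMonoidHom.mulRight J⁻¹).comp (AddMonoidHom.mulLeft J)).comp f, ⟨fun X Y => ?_, fun c X => ?_, ?_,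
    fun X => ?_⟩, fun i j => ?_⟩
  · show J * f (X * Y) * J⁻¹ = J * f Y * J⁻¹ * (J * f X * J⁻¹)
    rw [fm, show J * f Y * J⁻¹ * (J * f X * J⁻¹) = J * (f Y * (J⁻¹ * J) * f X) * J⁻¹ by simp only [mul_assoc], i2,
      mul_one]
  · show J * f (c • X) * J⁻¹ = c ^ 3 • (J * f X * J⁻¹)
    rw [fs, mul_smul_comm, smul_mul_assoc]
  · show J * f 1 * J⁻¹ = 1
    rw [f1, mul_one, i1]
  · show (J * f X * J⁻¹).trace = _
    rw [trace_mul_comm, ← mul_assoc, i2, one_mul, ft]
  · show J * f (γ i j) * J⁻¹ = _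
    rw [← hj j i, mul_assoc, i1, mul_one]

variable {s : Matrix ι ι k →+ Matrix ι ι k}

/-- the elements with a unitary lift -/
def Un (C : Cx G k ι) (hs : Star s) : Subgroup G where
  carrier := {g | ∀ M, C.L g M → ∃ c : k, s M * M = c • 1}
  mul_mem' := fun {g h} a b M hM => by
    obtain ⟨A, hA⟩ := C.ex g
    obtain ⟨B, hB⟩ := C.ex h
    obtain ⟨c, -, rfl⟩ := C.uniq (C.mul hA hB) hM
    obtain ⟨x, hx⟩ := a A hA
    obtain ⟨y, hy⟩ := b B hB
    refine ⟨c ^ 3 * c * (x * y), ?_⟩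
    rw [hs.smul, hs.mul, smul_mul_smul_comm, mul_assoc (s B), ← mul_assoc (s A), hx, smul_mul_assoc, one_mul,
      mul_smul_comm, hy, smul_smul, smul_smul, mul_assoc (c ^ 3 * c)]
  one_mem' := fun M hM => by
    obtain ⟨c, rfl⟩ := (Cx.eq_one_iff hM).1 rfl
    exact ⟨c ^ 3 * c, by rw [hs.smul, hs.one, smul_mul_smul_comm, mul_one]⟩
  inv_mem' := fun {g} a M hM => by
    obtain ⟨N, hN, h1, h2⟩ := Cx.exists_inv hM
    obtain ⟨x, hx⟩ := a N (by simpa using hN)
    have e : (1 : Matrix ι ι k) = x • (s M * M) := by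
      calc (1 : Matrix ι ι k) = s (N * M) * (N * M) := by rw [h2, hs.one, mul_one]
        _ = s M * (s N * N) * M := by rw [hs.mul]; simp only [mul_assoc]
        _ = _ := by rw [hx]; simp
    by_cases x0 : x = 0
    · exact ⟨0, by rw [← mul_one M, e, x0]; simp⟩
    · exact ⟨x⁻¹, by rw [eq_inv_smul_iff₀ x0, ← e]⟩

theorem norm_le_Un (hs : Star s) (h : C.FG γ b) (h2 : (2 : k) ≠ 0) (e : ∀ i j, s (γ i j) = γ j i) :
    normalizer (Cx.fA b : Set G) ≤ Un C hs := fun g hg M hM => by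
  obtain ⟨σ, hσ⟩ := (h.mem_norm h2).1 hg
  obtain ⟨ε, h1, hε⟩ := h.ind_sign h2 hσ hM
  refine h.toFr.scalar C.card h2 fun i j => ?_
  have := congrArg s (hε j i)
  rw [hs.mul, hs.smul, hs.mul, e, e] at this
  rw [mul_assoc, hε, ← mul_assoc, this, mul_smul_comm, smul_mul_assoc, mul_assoc]
  congr 1
  rcases h1 i with a | a <;> rcases h1 j with c | c <;> rw [a, c] <;> norm_num

theorem uni_of (hs : Star s) (h : Un C hs = ⊤) : C.Uni 3 := by
  let S : Subgroup (GL ι k) :=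
    { carrier := {u | s u.val * u.val = 1}
      mul_mem' := fun {u v} a b => by
        show s (u.val * v.val) * (u.val * v.val) = 1
        rw [hs.mul, mul_assoc, ← mul_assoc (s u.val), a, one_mul, b]
      one_mem' := by
        show s 1 * 1 = 1
        rw [hs.one, one_mul]
      inv_mem' := fun {u} a => by
        show s (u⁻¹).val * (u⁻¹).val = 1
        have a' : s u.val * u.val = 1 := a
        calc s (u⁻¹).val * (u⁻¹).val = s (u⁻¹).val * (s u.val * u.val) * (u⁻¹).val := by rw [a', mul_one]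
          _ = s (u.val * (u⁻¹).val) * (u.val * (u⁻¹).val) := by rw [hs.mul]; simp only [mul_assoc]
          _ = 1 := by rw [u.mul_inv, hs.one, mul_one] }
  have key : ∀ u ∈ C.Gam, ∃ c : k, s u.val * u.val = c • 1 ∧ c • (s (u⁻¹).val * (u⁻¹).val) = 1 := by
    rintro u ⟨g, hg⟩
    obtain ⟨c, hc⟩ := (h ▸ mem_top g : g ∈ Un C hs) _ hg
    refine ⟨c, hc, ?_⟩
    calc c • (s (u⁻¹).val * (u⁻¹).val) = s (u⁻¹).val * (s u.val * u.val) * (u⁻¹).val := by rw [hc]; simp
      _ = s (u.val * (u⁻¹).val) * (u.val * (u⁻¹).val) := by rw [hs.mul]; simp only [mul_assoc]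
      _ = 1 := by rw [u.mul_inv, hs.one, mul_one]
  have hP : C.P ≤ S := commutator_le.2 fun x hx y hy => by
    obtain ⟨c, c1, c2⟩ := key x hx
    obtain ⟨d, d1, d2⟩ := key y hy
    show s (x.val * y.val * (x⁻¹).val * (y⁻¹).val) * (x.val * y.val * (x⁻¹).val * (y⁻¹).val) = 1
    generalize (x⁻¹).val = X at c2 ⊢
    generalize (y⁻¹).val = Y at d2 ⊢
    calc _ = s Y * (s X * (s y.val * (s x.val * x.val) * y.val) * X) * Y := by
          rw [hs.mul, hs.mul, hs.mul]; simp only [mul_assoc]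
      _ = d • (s Y * (c • (s X * X)) * Y) := by
          rw [c1, mul_smul_comm, mul_one, smul_mul_assoc, d1]
          simp only [mul_smul_comm, smul_mul_assoc, mul_one, smul_smul, mul_comm]
      _ = 1 := by rw [c2, mul_one, d2]
  intro u hu
  have a : s u.val * u.val = 1 := hP hu
  rw [← hs.trace]
  congr 1
  rw [← mul_one (s u.val), ← u.mul_inv, ← mul_assoc, a, one_mul]

theorem force_eqU : True := by
  have := @Un.eq_1.{0, 0, 0}
  trivial

end H28.R4.Nb
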