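import Mathlib
import Cfsg.Agent.Base
import Cfsg.Agent.Lib.R4.Base
import Cfsg.Agent.Lib.TwoFusion.ZStarIso

/-!
# No copy of `SL₂(5)` acts on one eigenspace of a biaxial involution and fixes the other one
-/

set_option autoImplicit false

namespace H28.R4

open Matrix Subgroup Cfsg

variable {G k ι : Type*} [Group G] [Field k] [Fintype ι] [DecidableEq ι] {C : Cx G k ι} {p : ℕ}
  {g q t t' : G} {M N Q S T T' X : Matrix ι ι k}

namespace N2x

theorem ass {A : Type*} [Ring A] {a b c : A} (h : a * b = c) (y : A) : a * (b * y) = c * y := by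
  rw [← mul_assoc, h]

/-- expand products of matrices -/
syntax "ncx" "[" Lean.Parser.Tactic.simpLemma,* "]" (Lean.Parser.Tactic.location)? : tactic
macro_rules
  | `(tactic| ncx [$ts,*] $[$l]?) => `(tactic| simp only [mul_add, add_mul, mul_sub, sub_mul, neg_mul, mul_neg,
      smul_mul_assoc, mul_smul_comm, mul_assoc, mul_one, one_mul, mul_zero, zero_mul, smul_zero, neg_neg, $ts,*] $[$l]?)

theorem exists_com [Finite G] [IsSimpleGroup G] (hG : ¬ IsMulCommutative G) (hz : orderOf t = 2) :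
    ∃ g, t * (g * t * g⁻¹) = g * t * g⁻¹ * t ∧ g * t * g⁻¹ ≠ t := by
  by_contra! n
  obtain ⟨N, hN, o, h⟩ := H41.Isolated.zstar_exists ⟨hz, n⟩
  rcases hN.eq_bot_or_eq_top with rfl | rfl
  · rcases (inferInstance : (center G).Normal).eq_bot_or_eq_top with r | r
    · have : t ∈ center G := mem_center_iff.2 fun g => by
        have := h g
        rw [mem_bot, mul_inv_eq_one, mul_inv_eq_iff_eq_mul] at this
        exact this.symm
      rw [r, mem_bot] at this
      simp [this] at hz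
    · exact hG ⟨⟨fun a b => mem_center_iff.1 (r ▸ mem_top b) a⟩⟩
  · exact o.not_two_dvd_nat (by rw [card_top, ← hz]; exact orderOf_dvd_natCard t)

theorem a5_four (z : alternatingGroup (Fin 5)) (h : z ^ 4 = 1) : z ^ 2 = 1 :=
  Subtype.ext ((by decide +kernel : ∀ z : Equiv.Perm (Fin 5), Equiv.Perm.sign z = 1 → z ^ 4 = 1 → z ^ 2 = 1) z.1
    z.2 (congrArg Subtype.val h))

theorem a5_five : ∃ x y : alternatingGroup (Fin 5), (x * y * x⁻¹ * y⁻¹) ^ 5 = 1 ∧ x * y * x⁻¹ * y⁻¹ ≠ 1 :=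
  ⟨⟨.swap 0 1 * .swap 0 2, Equiv.Perm.mem_alternatingGroup.2 (by decide)⟩,
    ⟨.swap 0 3 * .swap 1 4, Equiv.Perm.mem_alternatingGroup.2 (by decide)⟩, by decide +kernel, by decide +kernel⟩

/-- `X` on the fixed space of `T`, the identity on the other eigenspace -/
def pl (T X : Matrix ι ι k) : Matrix ι ι k := (2 : k)⁻¹ • (X * (1 + T) + (1 - T))

theorem pl_mul (h2 : (2 : k) ≠ 0) (hT : T * T = 1) (h : N * T = T * N) : pl T M * pl T N = pl T (M * N) := by
  ncx [pl, hT, ass hT, ← h, ass h.symm]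
  match_scalars <;> field_simp <;> ring

theorem pl_smul (h2 : (2 : k) ≠ 0) (a : k) : pl T (a • 1) = ((a + 1) / 2) • 1 + ((a - 1) / 2) • T := by
  ncx [pl]
  match_scalars <;> field_simp
  ring

theorem pl_pow (h2 : (2 : k) ≠ 0) (hT : T * T = 1) (h : M * T = T * M) (n : ℕ) : pl T M ^ n = pl T (M ^ n) := by
  induction n with
  | zero => simpa [h2, ← two_mul, one_add_one_eq_two] using (pl_smul (T := T) h2 1).symm
  | succ n ih => rw [pow_succ, ih, pl_mul h2 hT h, pow_succ]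

theorem pl_comm (h1 : M * X = X * M) (h : T * X = X * T) : pl T M * X = X * pl T M := by
  ncx [pl, h, ass h1, h1]

theorem pl_neg (hT : T * T = 1) (h : M * T = T * M) : -(T * pl T M) = pl T (-M) := by
  ncx [pl, hT, ← h, ass h.symm]
  module

theorem ext_pm (h2 : (2 : k) ≠ 0) (e1 : M * (1 + T) = N * (1 + T)) (e2 : M * (1 - T) = N * (1 - T)) : M = N :=
  smul_right_injective _ h2 (by
    simp only [mul_add, mul_sub, mul_one] at e1 e2
    linear_combination (norm := module) e1 + e2)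

/-- lifts which are trivial on the negative eigenspace -/
def KL (C : Cx G k ι) (T : Matrix ι ι k) (q : G) (Q : Matrix ι ι k) : Prop :=
  C.L q Q ∧ Q * T = T * Q ∧ Q * (1 - T) = 1 - T

theorem KL.mul {q' : G} (a : KL C T q Q) (b : KL C T q' M) : KL C T (q * q') (Q * M) :=
  ⟨C.mul a.1 b.1, by rw [mul_assoc, b.2.1, ass a.2.1, mul_assoc], by rw [mul_assoc, b.2.2, a.2.2]⟩

theorem KL.inv (a : KL C T q Q) : KL C T q⁻¹ Q⁻¹ :=
  ⟨Cx.inv a.1, (inv_mem ((Cx.mem_St a.1).2 a.2.1) : q⁻¹ ∈ C.St T) _ (Cx.inv a.1), by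
    conv_lhs => rw [← a.2.2, ass (Cx.inv_mul a.1), one_mul]⟩

theorem KL.neg (hT : T * T = 1) (ht : C.L t T) (a : KL C T q Q) : KL C T (t * q) (-(T * Q)) :=
  ⟨Cx.neg (C.mul ht a.1), by ncx [a.2.1], by rw [neg_mul, mul_assoc, a.2.2]; ncx [hT]; abel⟩

theorem KL.eq (h2 : (2 : k) ≠ 0) (a : KL C T q Q) (e : Q * (1 + T) = M * (1 + T)) : Q = pl T M := by
  rw [pl, ← e, ← a.2.2, eq_inv_smul_iff₀ h2]
  ncx []
  module

/-- the elements which are trivial on the negative eigenspace induce everything on the fixed space -/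
def Kon (C : Cx G k ι) (T : Matrix ι ι k) : Prop :=
  ∀ g M, C.L g M → M * T = T * M → ∃ q Q, ∃ c : k, KL C T q Q ∧ Q * (1 + T) = c • M * (1 + T)

theorem Kon.conj (a : Kon C T) (hg : C.L g N) : Kon C (N * T * N⁻¹) := fun x M hx e => by
  have i1 := Cx.mul_inv hg
  have i2 := Cx.inv_mul hg
  obtain ⟨q, Q, c, ⟨a1, a2, a3⟩, a4⟩ := a _ _ (C.mul (C.mul (Cx.inv hg) hx) hg) (by
    have := congrArg (fun X => N⁻¹ * X * N) e
    simpa only [mul_assoc, i2, ass i2, one_mul, mul_one] using this)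
  refine ⟨_, _, c, ⟨Cx.conj hg a1, by ncx [ass i2, ass a2], ?_⟩, ?_⟩
  · have := congrArg (fun X => N * X * N⁻¹) a3
    ncx [i1, ass i2] at this ⊢
    exact this
  · have := congrArg (fun X => N * X * N⁻¹) a4
    ncx [i1, ass i2, ass i1] at this ⊢
    exact this

theorem four_ne (h2 : (2 : k) ≠ 0) : (4 : k) ≠ 0 := by
  rw [show (4 : k) = 2 * 2 by norm_num]; exact mul_ne_zero h2 h2

theorem add_ne (H : C.Hy p) (hS : Bi S) : 1 + S ≠ 0 := fun e => four_ne H.two (by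
  have := congrArg trace e
  rwa [trace_add, C.trace_one, hS.2, add_zero, trace_zero] at this)

theorem tr0 (H : C.Hy p) (hR : C.NR) (hg : C.L g M) (e : M * M = 1) (g1 : g ≠ 1) : M.trace = 0 := by
  obtain ⟨S, h1, h2⟩ := H.invol_bi hR (orderOf_eq_prime (by rw [pow_two]; exact C.inj (C.mul hg hg) (e ▸ C.one)) g1)
  obtain ⟨c, -, rfl⟩ := C.uniq h1 hg
  rw [trace_smul, h2.2, smul_zero]

theorem nsc (H : C.Hy p) (hS : Bi S) (hX : IsUnit X) (hT : IsUnit T) (a : X * T = -(T * X)) (b : T * S = S * T)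
    (c : k) : X * (1 + S) ≠ c • (1 + S) := fun e => by
  have e1 : (2 * c) • (T * (1 + S)) = 0 := by
    have e1 := congrArg (T * ·) e
    have e2 := congrArg (· * T) e
    ncx [← b, ass a, a] at e1 e2 ⊢
    linear_combination (norm := module) -e1 - e2
  rcases smul_eq_zero.1 e1 with h | h
  · rw [(mul_eq_zero.1 h).resolve_left H.two, zero_smul] at e
    exact add_ne H hS (hX.mul_right_eq_zero.1 e)
  · exact add_ne H hS (hT.mul_right_eq_zero.1 h)

theorem case1 (H : C.Hy p) (hR : C.NR) (ht : C.L t T) (hT : Bi T) (h4 : ∀ y : C.Y T, y ^ 4 = 1 → y ^ 2 = 1)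
    (ht' : C.L t' T') (hT' : Bi T') (K : Kon C T') (e : T * T' = T' * T) (ne : t' ≠ t) : False := by
  have h2 := H.two
  obtain ⟨q, Q, c, a, b⟩ := K _ _ ht e
  have eQ := a.eq h2 b
  have QQ : Q * Q = ((c * c + 1) / 2) • 1 + ((c * c - 1) / 2) • T' := by
    rw [eQ, pl_mul h2 hT'.1 (by ncx [e]), ← pl_smul h2]; ncx [hT.1, smul_smul]
  have tt : (T * T').trace = 0 := tr0 H hR (C.mul ht ht') (by ncx [ass e.symm, hT'.1, hT.1]) fun h =>
    ne (C.inj ht' (by simpa [h, ass hT.1] using C.mul ht (C.mul ht ht')))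
  rcases H.biax ht' hT' (QQ ▸ C.mul a.1 a.1) with h | h
  · have cc : c * c = -1 := by field_simp at h; linear_combination h
    have hq : q ∈ C.St T := (Cx.mem_St a.1).2 (eQ ▸ pl_comm (by ncx []) e.symm)
    replace QQ : Q ^ 2 = -T' := by rw [pow_two, QQ, cc]; match_scalars <;> field_simp <;> ring
    obtain ⟨d, hd⟩ := (Cx.chi_eq_one (x := ⟨q, hq⟩ ^ 2) (Cx.pow a.1 2)).1 (by
      rw [map_pow]
      refine h4 _ ?_
      rw [← map_pow, show (⟨q, hq⟩ : C.St T) ^ 4 = 1 from Subtype.ext (C.inj (Cx.pow a.1 4) (by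
        rw [show 4 = 2 * 2 from rfl, pow_mul, QQ, pow_two, neg_mul_neg, hT'.1]; exact C.one)), map_one])
    have := congrArg trace hd
    rw [QQ] at hd this
    simp only [neg_mul, mul_add, mul_one, ← e, trace_add, trace_neg, trace_smul, tt, hT.2, hT'.2, C.trace_one] at this
    rw [show d = 0 from mul_right_cancel₀ (four_ne h2) (by simpa using this.symm), zero_smul] at hd
    exact add_ne H hT ((Cx.unit ht').neg.mul_right_eq_zero.1 hd)
  · have cc : c * c = 1 := by field_simp at h; linear_combination h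
    have tr : Q.trace = 2 := by
      rw [eQ]
      simp only [pl, smul_mul_assoc, mul_add, mul_one, trace_smul, trace_add, trace_sub, tt, hT.2, hT'.2, C.trace_one]
      simp only [smul_eq_mul]; field_simp; norm_num
    by_cases q1 : q = 1
    · obtain ⟨d, rfl⟩ := (Cx.eq_one_iff a.1).1 q1
      have : d = 1 := smul_left_injective k (add_ne H hT'.neg) (by simpa [← sub_eq_add_neg] using a.2.2)
      rw [this, one_smul, C.trace_one] at tr
      exact h2 (by linear_combination tr)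
    · exact h2 (tr ▸ tr0 H hR a.1 (by rw [QQ, cc]; simp [h2, one_add_one_eq_two]) q1)

theorem ord10 (H : C.Hy p) (ht : C.L t T) (hT : T * T = 1) (c : T * S = S * T)
    (hn : ∀ c : k, T * (1 + S) ≠ c • (1 + S)) (hq : C.L q (pl T X)) (c1 : X * T = T * X) (c2 : X * S = S * X) {μ : k}
    (e : X * (1 + S) = μ • (1 + S)) (h5 : μ ^ 5 = -1) (h1 : μ ≠ -1) :
    ∃ y : C.Y S, orderOf y = 2 * 5 ∧ y ^ 5 = C.chi S ⟨t, (Cx.mem_St ht).2 c⟩ := by
  have h2 := H.two
  have hq' : q ∈ C.St S := (Cx.mem_St hq).2 (pl_comm c2 c)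
  have pw : ∀ n, pl T X ^ n * (1 + S) = ((μ ^ n + 1) / 2) • (1 + S) + ((μ ^ n - 1) / 2) • (T * (1 + S)) := fun n => by
    have : X ^ n * (1 + S) = μ ^ n • (1 + S) := by
      induction n with
      | zero => simp
      | succ n ih => rw [pow_succ, mul_assoc, e, mul_smul_comm, ih, smul_smul, pow_succ']
    have c3 : X ^ n * T = T * X ^ n := Commute.pow_left c1 n
    rw [pl_pow h2 hT c1, pl, smul_mul_assoc, add_mul, mul_add (X ^ n), mul_one, c3, add_mul, mul_assoc, this]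
    ncx []
    match_scalars <;> field_simp <;> ring
  refine ⟨C.chi S ⟨q, hq'⟩, (orderOf_eq_orderOf_iff.2 fun n => ?_).trans (?_ : orderOf μ = _), ?_⟩
  · rw [← map_pow, Cx.chi_eq_one (x := ⟨q, hq'⟩ ^ n) (Cx.pow hq n), pw]
    refine ⟨fun ⟨d, hd⟩ => by_contra fun m => hn ((d - (μ ^ n + 1) / 2) / ((μ ^ n - 1) / 2)) ?_, 
      fun m => ⟨1, by simp [m, h2, one_add_one_eq_two]⟩⟩
    have := div_ne_zero (sub_ne_zero.2 m) h2
    rw [div_eq_inv_mul, mul_smul, eq_inv_smul_iff₀ this, sub_smul, ← hd, add_sub_cancel_left]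
  · refine orderOf_eq_of_pow_and_pow_div_prime (by norm_num) (by rw [pow_mul', h5]; simp) fun r hr hd => ?_
    have : r = 2 ∨ r = 5 := by
      rcases (Nat.Prime.dvd_mul hr).1 hd with h | h <;> simp [(Nat.prime_dvd_prime_iff_eq hr (by norm_num)).1 h]
    rcases this with rfl | rfl
    · exact fun m => h2 (by linear_combination h5 - m)
    · exact fun m => h1 (by linear_combination h5 - (μ ^ 3 + μ) * m)
  · rw [← map_pow, Cx.chi_eq (x := ⟨q, hq'⟩ ^ 5) (Cx.pow hq 5) ht, pw, h5]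
    exact ⟨-1, by match_scalars <;> field_simp <;> ring⟩

theorem cayley (h4 : Fintype.card ι = 4) (h2 : (2 : k) ≠ 0) (hT : Bi T) (c : M * T = T * M) (e : M * (1 - T) = 1 - T)
    (hd : M.det = 1) : ∃ τ : k, (M * (1 + T)).trace = 2 * τ ∧ M * (M * (1 + T)) = τ • (M * (1 + T)) - (1 + T) := by
  obtain ⟨B, B', h1, h1', hS⟩ := hT.exists_diag h4 h2
  have r : ∀ X : Matrix ι ι k, X = B' * (B * X * B') * B := fun X => by
    simp only [Matrix.mul_assoc, h1', Matrix.mul_one]; rw [← Matrix.mul_assoc, h1', Matrix.one_mul]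
  have m : ∀ X Y : Matrix ι ι k, B * (X * Y) * B' = B * X * B' * (B * Y * B') := fun X Y => by
    simp only [Matrix.mul_assoc]; rw [← Matrix.mul_assoc B', h1', Matrix.one_mul]
  obtain ⟨a, d, hM⟩ := (comm_S0 h2 (M := B * M * B')).1 (by rw [← hS, ← m, ← m, c])
  have e1 : B * (1 + T) * B' = fromBlocks ((2 : k) • 1) 0 0 0 := by
    rw [Matrix.mul_add, Matrix.add_mul, hS, Matrix.mul_one, h1, ← fromBlocks_one, fromBlocks_add]; simp [two_smul]
  have e2 : B * (1 - T) * B' = fromBlocks 0 0 0 ((2 : k) • 1) := by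
    rw [Matrix.mul_sub, Matrix.sub_mul, hS, Matrix.mul_one, h1, ← fromBlocks_one, sub_eq_add_neg, fromBlocks_neg,
      fromBlocks_add]; simp [two_smul]
  have d1 : d = 1 := by
    have := congrArg (fun X => B * X * B') e
    simp only [m, hM, e2, fromBlocks_multiply, fromBlocks_inj] at this
    simpa using smul_right_injective _ h2 (by simpa using this.2.2.2 : (2 : k) • d = (2 : k) • 1)
  have da : a.det = 1 := by
    simpa [hM, d1, hd] using det_conj_of_mul_eq_one h1 h1' (N := M)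
  refine ⟨a.trace, ?_, ?_⟩
  · rw [r (M * _), trace_mul_comm, ← Matrix.mul_assoc, h1, Matrix.one_mul, m, hM, e1]
    simp [fromBlocks_multiply, trace, Fintype.sum_sum_type, mul_add]
  · rw [r (M * _), r (_ - _), Matrix.mul_sub, Matrix.sub_mul, Matrix.mul_smul, Matrix.smul_mul, m, m, hM, e1]
    congr 2
    rw [det_fin_two] at da
    ext (i | i) (j | j) <;> fin_cases i <;> fin_cases j <;> simp [fromBlocks_multiply, trace, mul_apply] <;> grind

theorem exists_ten (H : C.Hy p) (ht : C.L t T) (hT : Bi T) (φ : C.Y T ≃* alternatingGroup (Fin 5)) (K : Kon C T) :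
    ∃ q Q, ∃ τ : k, KL C T q Q ∧ (Q * (1 + T)).trace = 2 * τ ∧ Q * (Q * (1 + T)) = τ • (Q * (1 + T)) - (1 + T) ∧
      τ * τ = τ + 1 ∧ τ * τ ≠ 4 := by
  have h2 := H.two
  have on : ∀ y : alternatingGroup (Fin 5), ∃ (x : C.St T) (Q : _), KL C T x Q ∧ φ (C.chi T x) = y := fun y => by
    obtain ⟨x, hx⟩ := Cx.chi_surj (φ.symm y)
    obtain ⟨M, hM⟩ := C.ex x
    obtain ⟨q, Q, c, a, b⟩ := K _ _ hM (x.2 M hM)
    exact ⟨⟨q, (Cx.mem_St a.1).2 a.2.1⟩, Q, a, by
      rw [(Cx.chi_eq (x := ⟨q, _⟩) a.1 hM).2 ⟨c, by rw [b, smul_mul_assoc]⟩, hx, φ.apply_symm_apply]⟩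
  obtain ⟨x, y, h5, h1⟩ := a5_five
  obtain ⟨x, X, a, rfl⟩ := on x
  obtain ⟨y, Y, b, rfl⟩ := on y
  have ab := ((a.mul b).mul a.inv).mul b.inv
  simp only [← map_inv, ← map_mul, ← map_pow, ne_eq, map_eq_one_iff _ φ.injective] at h5 h1
  obtain ⟨τ, tr, ch⟩ := cayley C.card h2 hT ab.2.1 ab.2.2 (by
    simp only [det_mul, det_nonsing_inv, Ring.inverse_eq_inv]
    field_simp [Cx.det_ne a.1, Cx.det_ne b.1])
  rw [Cx.chi_eq_one (Cx.pow ab.1 5)] at h5
  rw [Cx.chi_eq_one ab.1, not_exists] at h1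
  generalize X * Y * X⁻¹ * Y⁻¹ = Q at *
  generalize x.1 * y * x⁻¹ * y⁻¹ = q at *
  obtain ⟨c, h5⟩ := h5
  have t4 : (τ * τ - τ - 1) * (τ * τ + τ - 1) = 0 := by_contra fun n => h1 _ ((eq_inv_smul_iff₀ n).2 (by
    simp only [pow_succ, pow_zero, one_mul, mul_assoc, ch, mul_sub, mul_smul_comm, smul_sub] at h5
    linear_combination (norm := module) h5 : _ = (c + τ ^ 3 - 2 * τ) • (1 + T)) |>.trans (smul_smul _ _ _))
  have ng : ∀ {q Q}, KL C T q Q → -(T * Q) * (1 + T) = -(Q * (1 + T)) ∧ T * (Q * (Q * (1 + T))) = Q * (Q * (1 + T)) :=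
    fun a => ⟨by ncx [← a.2.1, hT.1]; abel, by ncx [← a.2.1, ass a.2.1.symm, hT.1]; abel⟩
  have key : ∀ q Q (τ : k), KL C T q Q → Q * (Q * (1 + T)) = τ • (Q * (1 + T)) - (1 + T) → τ * τ = τ + 1 →
      (∀ c : k, Q * (1 + T) ≠ c • (1 + T)) → τ * τ ≠ 4 := fun q Q τ a ch t2 h1 t4 => by
    have t5 : τ = -2 := by linear_combination (1 - 3 - τ) * (t4 - t2) + t4
    have e1 : (-(T * Q) - 1) * (1 - T) = 0 := by rw [sub_mul, (a.neg hT.1 ht).2.2, one_mul, sub_self]
    have e2 : (-(T * Q) - 1) * (1 + T) = -(Q * (1 + T)) - (1 + T) := by rw [sub_mul, (ng a).1, one_mul]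
    rcases H.q5 _ (-(T * Q) - 1) (by simpa using (a.neg hT.1 ht).1) (ext_pm (T := T) h2 (by
      rw [mul_assoc, e2, mul_sub, e2, mul_neg, sub_mul, neg_mul, mul_assoc, (ng a).2, ch, t5, one_mul, zero_mul]
      module) (by rw [mul_assoc, e1, mul_zero, zero_mul])) with h | h
    · exact h1 (-1) (by rw [h, zero_mul] at e2; linear_combination (norm := module) e2)
    · exact h2 (by linear_combination t5 - (t4 - t2) - h)
  rcases mul_eq_zero.1 t4 with h | h
  · exact ⟨q, Q, τ, ab, tr, ch, by linear_combination h, key q Q τ ab ch (by linear_combination h) h1⟩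
  · have ch' : -(T * Q) * (-(T * Q) * (1 + T)) = -τ • (-(T * Q) * (1 + T)) - (1 + T) := by
      rw [(ng ab).1, neg_mul_neg, mul_assoc, (ng ab).2, ch, neg_smul_neg]
    exact ⟨_, _, -τ, ab.neg hT.1 ht, by rw [(ng ab).1, trace_neg, tr, mul_neg], ch', by linear_combination h,
      key _ _ _ (ab.neg hT.1 ht) ch' (by linear_combination h) fun c hc =>
        h1 (-c) (by rw [neg_smul, ← hc, (ng ab).1, neg_neg])⟩

theorem case2 (H : C.Hy p) (ht : C.L t T) (hT : Bi T) (ht' : C.L t' T') (hT' : Bi T') (K : Kon C T')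
    (e : T * T' = -(T' * T)) {τ : k} (a : KL C T q Q) (tr : (Q * (1 + T)).trace = 2 * τ)
    (ch : Q * (Q * (1 + T)) = τ • (Q * (1 + T)) - (1 + T)) (t2 : τ * τ = τ + 1) (t4 : τ * τ ≠ 4) : False := by
  have h2 := H.two
  have := H.closed
  have := H.fin
  have e' : T' * T = -(T * T') := by rw [e, neg_neg]
  have s1 : T' * (1 + T) = (1 - T) * T' := by ncx [e']; abel
  have s2 : T' * (1 - T) = (1 + T) * T' := by ncx [e']; abel
  have c1 : Q * (1 + T) = (1 + T) * Q := by ncx [a.2.1]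
  obtain ⟨D, hD⟩ : ∃ D, D = Q * (T' * (Q * T')) := ⟨_, rfl⟩
  have lD : C.L (q * (t' * (q * t'))) D := hD ▸ C.mul a.1 (C.mul ht' (C.mul a.1 ht'))
  have d1 : D * (1 + T) = Q * (1 + T) := by
    simp only [hD, mul_assoc, s1, ass a.2.2, ass s2, hT'.1, mul_one]
  have d2 : D * (1 - T) = T' * (Q * (1 + T) * T') := by
    simp only [hD, mul_assoc, s2, ass c1, ass s1, ass a.2.2]
  have dT : D * T = T * D := by ncx [hD, e', ass e', ass a.2.1]
  have dT' : D * T' = T' * D := ext_pm (T := T) h2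
    (by rw [mul_assoc, s1, ← mul_assoc, d2, mul_assoc T' D, d1]; ncx [hT'.1])
    (by rw [mul_assoc, s2, ← mul_assoc, d1, mul_assoc T' D, d2, ass hT'.1, one_mul])
  have dQ : D * D = τ • D - 1 := by
    have k1 : D * D * (1 + T) = (τ • D - 1) * (1 + T) := by
      rw [mul_assoc, d1, c1, ass d1, mul_assoc, ← c1, ch, sub_mul, smul_mul_assoc, d1, one_mul]
    refine ext_pm (T := T) h2 k1 ((Cx.unit ht').mul_left_injective ?_)
    have := congrArg (T' * ·) k1
    ncx [← dT', ass dT'.symm, e'] at this ⊢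
    linear_combination (norm := module) this
  have trD : D.trace = 2 * τ := mul_left_cancel₀ h2 (by
    have : (D * (1 - T)).trace = 2 * τ := by rw [d2, trace_mul_comm, mul_assoc, hT'.1, mul_one, tr]
    rw [← d1] at tr
    simp only [mul_add, mul_sub, mul_one, trace_add, trace_sub] at this tr
    linear_combination this + tr)
  have d5 : D ^ 5 = -1 := by
    ncx [pow_succ, pow_zero, dQ, ass dQ]
    match_scalars <;> grind
  obtain ⟨q', c, l', c5⟩ : ∃ q', ∃ c : k, C.L q' (pl T' (c • D)) ∧ c ^ 5 = 1 := by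
    obtain ⟨q', Q', c, a', b⟩ := K _ _ lD dT'
    have l' := a'.eq h2 b ▸ a'.1
    have cc : c • D * T' = T' * c • D := by ncx [dT']
    have := Cx.pow l' 5
    rw [pl_pow h2 hT'.1 cc, smul_pow, d5, smul_neg, ← neg_smul, pl_smul h2] at this
    rcases H.biax ht' hT' this with h | h
    · exact ⟨_, c, l', by field_simp at h; linear_combination -h⟩
    · exact ⟨_, -c, by rw [neg_smul, ← pl_neg hT'.1 cc]; exact Cx.neg (C.mul ht' l'),
        by field_simp at h; linear_combination h⟩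
  obtain ⟨ζ, ξ, z1, z2, z3⟩ : ∃ ζ ξ : k, ζ + ξ = τ ∧ ζ * ξ = 1 ∧ c * ζ ≠ -1 := by
    obtain ⟨r, hr⟩ := IsAlgClosed.exists_eq_mul_self (τ * τ - 4)
    have z1 : (τ + r) / 2 + (τ - r) / 2 = τ := by field_simp; ring
    have z2 : (τ + r) / 2 * ((τ - r) / 2) = 1 := by field_simp; linear_combination hr
    by_cases h : c * ((τ + r) / 2) = -1
    · exact ⟨_, _, (add_comm _ _).trans z1, (mul_comm _ _).trans z2, fun h' => t4 (by grind)⟩
    · exact ⟨_, _, z1, z2, h⟩
  have z0 : ζ - ξ ≠ 0 := fun h => t4 (by grind)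
  obtain ⟨S, hS⟩ : ∃ S, S = (ζ - ξ)⁻¹ • ((2 : k) • D - τ • 1) := ⟨_, rfl⟩
  have bS : Bi S := ⟨by ncx [hS, dQ]; match_scalars <;> field_simp <;> grind, by
    simp only [hS, trace_smul, trace_sub, trD, C.trace_one, smul_eq_mul]; ring⟩
  have cS : ∀ X, D * X = X * D → X * S = S * X := fun X h => by ncx [hS, h]
  have dS : D * (1 + S) = ζ • (1 + S) := by ncx [hS, dQ]; match_scalars <;> field_simp <;> grind
  have z5 : ζ ^ 5 = -1 := by grind
  obtain ⟨y, y1, y2⟩ := ord10 H ht hT.1 (cS _ dT) (nsc H bS (Cx.unit ht) (Cx.unit ht') e (cS _ dT'))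
    (a.eq h2 d1.symm ▸ a.1) dT (cS _ rfl) dS z5 fun h => z0 (by grind)
  obtain ⟨y', y1', y2'⟩ := ord10 H ht' hT'.1 (cS _ dT') (nsc H bS (Cx.unit ht') (Cx.unit ht) e' (cS _ dT)) l'
    (by ncx [dT']) (by ncx [cS _ rfl]) (μ := c * ζ) (by rw [smul_mul_assoc, dS, smul_smul])
    (by rw [mul_pow, c5, z5, one_mul]) z3
  obtain ⟨d, hd⟩ := (Cx.chi_eq ht ht').1 (y2 ▸ y2' ▸ (H.tame bS).l6 (by norm_num) (by norm_num) y1 y1')
  exact nsc H bS ((Cx.unit ht').mul (Cx.unit ht)) (Cx.unit ht) (by ncx [ass e, hT.1]) (cS _ dT) d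
    (by rw [mul_assoc, hd, mul_smul_comm, ass hT'.1, one_mul])

end N2x

open N2x in
/-- **(N2a)** -/
theorem Cx.Hy.n2a (H : C.Hy p) (hR : C.NR) (ht : C.L t T) (hT : Bi T)
    (hY : Nonempty (C.Y T ≃* alternatingGroup (Fin 5))) (h1 : g ∈ C.St (-T)) (e : C.chi (-T) ⟨g, h1⟩ = 1) :
    g = 1 ∨ g = t := by
  obtain ⟨φ⟩ := hY
  have := H.fin
  have := H.simple
  have := φ.isSimpleGroup
  let ψ := (C.chi (-T)).comp (inclusion Cx.St_neg.ge)
  rcases ((MonoidHom.normal_ker ψ).map _ Cx.chi_surj).eq_bot_or_eq_top with h | h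
  · exact H.chi_both ht hT (Cx.St_neg.le h1) h1 (h.le ⟨⟨g, _⟩, e, rfl⟩) e
  have K : Kon C T := fun x M hM c => by
    obtain ⟨y, hy, e⟩ := h.ge (mem_top (C.chi T ⟨x, (Cx.mem_St hM).2 c⟩))
    obtain ⟨N, hN⟩ := C.ex y
    obtain ⟨d, hd⟩ := (Cx.chi_eq_one (x := inclusion Cx.St_neg.ge y) hN).1 hy
    obtain ⟨c, hc⟩ := (Cx.chi_eq hN hM).1 e
    have d0 : d ≠ 0 := by
      rintro rfl
      exact add_ne H hT.neg ((Cx.unit hN).mul_right_eq_zero.1 (by rw [hd, zero_smul]))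
    exact ⟨y, d⁻¹ • N, d⁻¹ * c, ⟨C.smul hN (inv_ne_zero d0), by ncx [y.2 N hN], by
      rw [smul_mul_assoc, sub_eq_add_neg, hd, inv_smul_smul₀ d0]⟩, by
      rw [smul_mul_assoc, hc, smul_smul, smul_mul_assoc]⟩
  have t2 : orderOf t = 2 := orderOf_eq_prime (by rw [pow_two]; exact C.inj (C.mul ht ht) (hT.1 ▸ C.one)) fun h => by
    obtain ⟨c, rfl⟩ := (Cx.eq_one_iff ht).1 h
    have := hT.2
    rw [trace_smul, C.trace_one, smul_eq_mul, mul_eq_zero] at this
    exact Cx.ne_zero ht (by rw [this.resolve_right (four_ne H.two), zero_smul])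
  obtain ⟨x, c, ne⟩ := exists_com H.nab t2
  obtain ⟨N, hN⟩ := C.ex x
  have ht' := Cx.conj hN ht
  have hT' : Bi (N * T * N⁻¹) := ⟨by ncx [ass (Cx.inv_mul hN), ass hT.1, Cx.mul_inv hN], by
    rw [trace_mul_cycle, Cx.inv_mul hN, one_mul, hT.2]⟩
  rcases Cx.comm_cases H.two ht' hT'.1 ht c with c | c
  · exact (case1 H hR ht hT (fun y hy => φ.injective (by
      rw [map_pow, map_one]; exact a5_four _ (by rw [← map_pow, hy, map_one]))) ht' hT' (K.conj hN) c ne).elim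
  · obtain ⟨q, Q, τ, a, tr, ch, t2, t4⟩ := exists_ten H ht hT φ K
    exact (case2 H ht hT ht' hT' (K.conj hN) c a tr ch t2 t4).elim

end H28.R4
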