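import Mathlib
import Cfsg.Agent.Lib.R4.N2a

/-!
# The kernel of the action on an eigenspace of a biaxial involution is solvable
-/

set_option autoImplicit false

namespace H28.R4

open Matrix Subgroup Cfsg

variable {G k ι : Type*} [Group G] [Field k] [Fintype ι] [DecidableEq ι] {C : Cx G k ι} {p : ℕ}
  {t : G} {T : Matrix ι ι k}

theorem Cx.Hy.kp_solvable (H : C.Hy p) (hR : C.NR) (ht : C.L t T) (hT : Bi T) : Group.IsSolvable (C.Kp T) := by
  have := H.fin
  have ab : ∀ K : Subgroup (C.Kp T), (∀ x ∈ K, x.1.1 = 1 ∨ x.1.1 = t) → Group.IsSolvable K := fun K h =>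
    Group.isSolvable_of_comm fun a b => Subtype.ext (Subtype.ext (Subtype.ext (by
      change a.1.1.1 * b.1.1.1 = b.1.1.1 * a.1.1.1
      rcases h _ a.2 with e | e <;> rcases h _ b.2 with e' | e' <;> simp [e, e'])))
  by_cases hs : Group.IsSolvable (C.Y (-T))
  · let ψ := ((C.chi (-T)).comp (inclusion Cx.St_neg.ge)).comp (C.Kp T).subtype
    have := ab ψ.ker fun x hx =>
      H.chi_both ht hT x.1.2 (Cx.St_neg.ge x.1.2) ((QuotientGroup.eq_one_iff _).2 x.2) hx
    exact Group.isSolvable_of_ker_le_range ψ.ker.subtype ψ (by simp)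
  · have := ab ⊤ fun x _ => H.n2a hR (Cx.neg ht) hT.neg ((H.tame hT.neg).a5 hs)
      (by rw [neg_neg]; exact x.1.2) ((QuotientGroup.eq_one_iff _).2 fun M hM => by rw [neg_neg]; exact x.2 M hM)
    exact Group.isSolvable_of_surjective (f := (⊤ : Subgroup (C.Kp T)).subtype) fun x => ⟨⟨x, trivial⟩, rfl⟩

end H28.R4
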