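import Mathlib
import Cfsg.Agent.Base
import Cfsg.Agent.Lib.R4.Base

/-! The number of conjugates of a reflection is `4` modulo `8`. -/

set_option autoImplicit false

namespace H28.R4.Rx

open Matrix Subgroup Cfsg
open scoped commutatorElement

variable {G k ι : Type*} [Group G] [Field k] [Fintype ι] [DecidableEq ι] {C : Cx G k ι} {p : ℕ}
  {g h : G} {M N R R' : Matrix ι ι k}

theorem four_ne (h2 : (2 : k) ≠ 0) : (2 : k) ≠ -2 := fun e =>
  mul_ne_zero h2 h2 (by linear_combination e)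

theorem rf_uniq (h2 : (2 : k) ≠ 0) (hg : C.L g R) (hg' : C.L g R') (a : Rf R) (b : Rf R') : R = R' := by
  obtain ⟨c, -, rfl⟩ := C.uniq hg hg'
  have := b.2.1
  rw [trace_smul, a.2.1, smul_eq_mul] at this
  rw [mul_right_cancel₀ h2 (this.trans (one_mul 2).symm), one_smul]

theorem rf_conj (hM : C.L g M) (a : Rf R) : Rf (M * R * M⁻¹) :=
  ⟨by rw [show M * R * M⁻¹ * (M * R * M⁻¹) = M * (R * (M⁻¹ * M) * R) * M⁻¹ by simp only [mul_assoc],
      Cx.inv_mul hM, mul_one, a.1, mul_one, Cx.mul_inv hM],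
    by rw [trace_mul_cycle, Cx.inv_mul hM, one_mul, a.2.1],
    by rw [det_mul, det_mul, mul_right_comm, ← det_mul, Cx.mul_inv hM, det_one, one_mul, a.2.2]⟩

theorem rf_equiv (h2 : (2 : k) ≠ 0) {r : G} (hM : C.L g M) (hr : C.L r R) (a : Rf R)
    (hr' : C.L (g * r * g⁻¹) R') (b : Rf R') : M * R = R' * M := by
  rw [← rf_uniq h2 (Cx.conj hM hr) hr' (rf_conj hM a) b, mul_assoc, Cx.inv_mul hM, mul_one]

theorem rf_of_conj {r : G} (hr : C.L r R) (a : Rf R) (e : IsConj r h) : ∃ R', C.L h R' ∧ Rf R' := by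
  obtain ⟨g, rfl⟩ := isConj_iff.1 e
  obtain ⟨M, hM⟩ := C.ex g
  exact ⟨_, Cx.conj hM hr, rf_conj hM a⟩

theorem rf_sq {r : G} (hr : C.L r R) (a : Rf R) : r * r = 1 := C.inj (a.1 ▸ C.mul hr hr) C.one

omit [DecidableEq ι] in
theorem vmv_mul (v φ w ψ : ι → k) : vecMulVec v φ * vecMulVec w ψ = (φ ⬝ᵥ w) • vecMulVec v ψ := by
  rw [vecMulVec_mul_vecMulVec, vecMulVec_smul]

theorem orth (h2 : (2 : k) ≠ 0) {v φ w ψ : ι → k} (a : φ ⬝ᵥ v = 2) (b : ψ ⬝ᵥ w = 2)
    (hc : (1 - vecMulVec v φ) * (1 - vecMulVec w ψ) = (1 - vecMulVec w ψ) * (1 - vecMulVec v φ))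
    (hn : vecMulVec v φ ≠ vecMulVec w ψ) : φ ⬝ᵥ w = 0 := by
  by_contra h0
  have h1 : (φ ⬝ᵥ w) • vecMulVec v ψ = (ψ ⬝ᵥ v) • vecMulVec w φ := by
    rw [← vmv_mul, ← vmv_mul]
    simp only [mul_sub, sub_mul, mul_one, one_mul] at hc
    linear_combination (norm := abel) hc
  have h3 := congrArg (· * vecMulVec w ψ) h1
  have h4 := congrArg (· * vecMulVec v φ) h1
  simp only [smul_mul_assoc, vmv_mul, a, b] at h3 h4
  have h6 : ψ ⬝ᵥ v ≠ 0 := fun e => by
    have := congrArg (fun X => φ ⬝ᵥ X *ᵥ w) h1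
    simp only [e, zero_smul, smul_mulVec, vecMulVec_mulVec, dotProduct_smul, a, b, zero_mulVec,
      dotProduct_zero, smul_eq_mul, op_smul_eq_smul] at this
    exact mul_ne_zero h0 (mul_ne_zero h2 h2) this
  refine hn (Matrix.ext fun i j => mul_left_cancel₀ (mul_ne_zero h0 h6) ?_)
  have h7 := congrFun (congrFun h1 i) j
  have h8 := congrFun (congrFun h3 i) j
  have h9 := congrFun (congrFun h4 i) j
  simp only [Matrix.smul_apply, smul_eq_mul] at h7 h8 h9
  linear_combination h9 + h8 - 2 * h7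

theorem rf_comm (h2 : (2 : k) ≠ 0) {r s : G} (hr : C.L r R) (hs : C.L s R') (b : Rf R')
    (e : r * s = s * r) : R * R' = R' * R :=
  rf_equiv h2 hr hs b (by rwa [e, mul_inv_cancel_right]) b

/-- the group element lifted by a matrix -/
noncomputable def pr (C : Cx G k ι) : C.Gam →* G where
  toFun u := u.2.choose
  map_one' := C.inj (1 : C.Gam).2.choose_spec C.one
  map_mul' u v := C.inj (u * v).2.choose_spec (C.mul u.2.choose_spec v.2.choose_spec)

theorem pr_spec (u : C.Gam) : C.L (pr C u) (u : GL ι k).val := u.2.choose_spec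

theorem index_mod (H : C.Hy p) {r : G} (hr : C.L r R) (a : Rf R) :
    (centralizer ({r} : Set G)).index % 8 = 4 := by
  classical
  have := H.fin
  have h2 := H.two
  let Ω := MulAction.orbit (ConjAct G) r
  let _ : Fintype Ω := Fintype.ofFinite _
  have hΩ : (centralizer ({r} : Set G)).index = Fintype.card Ω := by
    rw [← Nat.card_eq_fintype_card, Nat.card_coe_set_eq, ← MulAction.index_stabilizer,
      ConjAct.stabilizer_eq_centralizer]
    rfl
  have h1 : ∀ ω : Ω, ∃ v φ : ι → k, φ ⬝ᵥ v = 2 ∧ C.L ω (1 - vecMulVec v φ) ∧ Rf (1 - vecMulVec v φ) :=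
    fun ω => by
    obtain ⟨R', b, c⟩ := rf_of_conj hr a (ConjAct.mem_orbit_conjAct.1 ω.2).symm
    obtain ⟨v, φ, d, rfl⟩ := c.exists_vec C.card h2
    exact ⟨v, φ, d, b, c⟩
  choose v φ h3 h4 h5 using h1
  let s : G → Equiv.Perm Ω := fun g => MulAction.toPerm (ConjAct.toConjAct g)
  let c : Matrix ι ι k → G → Ω → k := fun M g ω => 2⁻¹ * φ (s g ω) ⬝ᵥ M *ᵥ v ω
  have h6 : ∀ {g M}, C.L g M → ∀ ω, M *ᵥ v ω = c M g ω • v (s g ω) := fun {g M} hM ω => by
    have := congrArg (· *ᵥ v ω) (rf_equiv h2 hM (h4 ω) (h5 ω) (h4 (s g ω)) (h5 _))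
    simp only [mul_sub, sub_mul, mul_one, one_mul, sub_mulVec, sub_right_inj, ← mulVec_mulVec,
      vecMulVec_mulVec, h3, op_smul_eq_smul, mulVec_smul] at this
    rw [mul_smul, ← this, inv_smul_smul₀ h2]
  have h7 : ∀ {g M ω} {x : k}, M *ᵥ v ω = x • v (s g ω) → c M g ω = x := fun {g M ω x} e => by
    simp only [c, e, dotProduct_smul, h3, smul_eq_mul]
    field_simp
  let V : C.Gam →* k :=
    { toFun := fun u => ∏ ω, c (u : GL ι k).val (pr C u) ω
      map_one' := Finset.prod_eq_one fun ω _ => h7 (by simp [s])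
      map_mul' := fun u w => by
        rw [← Equiv.prod_comp (s (pr C w)) fun ω => c (u : GL ι k).val (pr C u) ω,
          ← Finset.prod_mul_distrib]
        refine Finset.prod_congr rfl fun ω _ => h7 ?_
        rw [Subgroup.coe_mul, Units.val_mul, ← mulVec_mulVec, h6 (pr_spec w), mulVec_smul,
          h6 (pr_spec u), smul_smul, mul_comm]
        simp [s, mul_smul] }
  obtain ⟨u, hu, hu'⟩ := H.exists_P r
  have h8 : C.P ≤ V.toHomUnits.ker.map C.Gam.subtype := commutator_le.2 fun x hx y hy =>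
    ⟨⁅(⟨x, hx⟩ : C.Gam), ⟨y, hy⟩⁆, by
      rw [SetLike.mem_coe, MonoidHom.mem_ker, map_commutatorElement]
      exact commutatorElement_eq_one_iff_mul_comm.2 (mul_comm _ _), rfl⟩
  obtain ⟨u, h9, rfl⟩ := h8 hu
  obtain ⟨ζ, -, hζ⟩ := C.uniq hr hu'
  have k1 : ζ ^ 4 = -1 := by
    have := Cx.det_P hu
    rw [hζ, C.det_smul', a.2.2] at this
    linear_combination -this
  have k2 : pr C u = r := C.inj (pr_spec u) hu'
  let ω0 : Ω := ⟨r, MulAction.mem_orbit_self r⟩
  have k3 : R = 1 - vecMulVec (v ω0) (φ ω0) := rf_uniq h2 hr (h4 ω0) a (h5 ω0)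
  have k4 : s r ω0 = ω0 := Subtype.ext (mul_inv_cancel_right r r)
  have k5 : ∀ ω, s r (s r ω) = ω := fun ω => by
    simp only [s, MulAction.toPerm_apply, smul_smul, ← map_mul, rf_sq hr a, map_one, one_smul]
  have k6 : ∏ ω, c R r ω = -1 := by
    rw [← Finset.mul_prod_erase _ _ (Finset.mem_univ ω0), Finset.prod_involution
      (fun ω _ => s r ω) (fun ω _ => ?_) (fun ω hω h1 e => h1 (h7 ?_)) (fun ω hω => ?_)
      fun ω _ => k5 ω, mul_one]
    · refine h7 ?_
      rw [k4, k3, sub_mulVec, vecMulVec_mulVec, h3, one_mulVec, op_smul_eq_smul]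
      module
    · have := h6 hr (s r ω)
      rw [k5] at this
      have e := congrArg (fun x => φ ω ⬝ᵥ R *ᵥ x) (h6 hr ω)
      simp only [mulVec_mulVec, a.1, one_mulVec, mulVec_smul, this, dotProduct_smul, h3,
        smul_eq_mul] at e
      exact mul_right_cancel₀ h2 (by linear_combination -e)
    · rw [e, k3, sub_mulVec, vecMulVec_mulVec, orth h2 (h3 ω0) (h3 ω) (rf_comm h2 (h4 _) (h4 _)
        (h5 _) (mul_inv_eq_iff_eq_mul.1 (congrArg Subtype.val e))) fun e' =>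
          (Finset.mem_erase.1 hω).1 (Subtype.ext (C.inj (h4 ω) (e' ▸ h4 ω0)))]
      simp
    · exact Finset.mem_erase.2 ⟨fun e => (Finset.mem_erase.1 hω).1
        ((s r).injective (e.trans k4.symm)), Finset.mem_univ _⟩
  have k7 : V u = 1 := congrArg Units.val (MonoidHom.mem_ker.1 h9)
  have k8 : V u = ζ ^ Fintype.card Ω * -1 := by
    rw [← k6, ← Finset.card_univ, ← Finset.prod_const, ← Finset.prod_mul_distrib]
    refine Finset.prod_congr rfl fun ω _ => h7 ?_
    rw [k2, show ((u : GL ι k) : Matrix ι ι k) = ζ • R from hζ, smul_mulVec, h6 hr, smul_smul]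
  have k9 : orderOf ζ = 2 ^ 3 := orderOf_eq_prime_pow (fun e => h2 (by
    linear_combination k1 - e)) (by linear_combination (ζ ^ 4 - 1) * k1)
  have := (orderOf_pos_iff.1 (by rw [k9]; norm_num)).pow_eq_pow_iff_modEq.1
    (by linear_combination k8 - k7 - k1 : ζ ^ Fintype.card Ω = ζ ^ 4)
  rwa [k9, ← hΩ] at this

end H28.R4.Rx
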