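import Mathlib
import Cfsg.Agent.Base
import Cfsg.Agent.Lib.R4.ReflA

/-! Four conjugate reflections permuted by a Sylow `2`-subgroup. -/

set_option autoImplicit false

namespace H28.R4.Rx

open Matrix Subgroup Cfsg

variable {G k ι : Type*} [Group G] [Field k] [Fintype ι] [DecidableEq ι] {p : ℕ}

theorem mul_mem_iff {A B : Subgroup G} (h : A.relIndex B = 2) {a b : G} (ha : a ∈ B) (hb : b ∈ B) :
    a * b ∈ A ↔ (a ∈ A ↔ b ∈ A) :=
  mul_mem_iff_of_index_two (H := A.subgroupOf B) h (a := ⟨a, ha⟩) (b := ⟨b, hb⟩)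

theorem exists_notMem {A B : Subgroup G} (h : A.relIndex B = 2) : ∃ a ∈ B, a ∉ A := by
  by_contra! h1
  rw [relIndex_eq_one.2 h1] at h
  omega

theorem exists_chain [Finite G] {r : G} (hr : r * r = 1) {Z : Subgroup G} (hZ : r ∈ Z)
    (h : Z.index % 8 = 4) : ∃ T K : Subgroup G, Odd T.index ∧ IsPGroup 2 T ∧ K ≤ T ∧
      K.relIndex T = 2 ∧ Z.relIndex K = 2 ∧ r ∈ K ∧ Z ⊓ T ≤ K := by
  obtain ⟨S, hS⟩ := (IsPGroup.of_card_dvd_pow (G := zpowers (⟨r, hZ⟩ : Z)) (p := 2) (n := 1) (by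
    rw [Nat.card_zpowers]
    exact orderOf_dvd_of_pow_eq_one (Subtype.ext (by simpa [sq] using hr)))).exists_le_sylow
  obtain ⟨T, hT⟩ := (S.isPGroup'.map Z.subtype).exists_le_sylow
  have h1 : (T : Subgroup G).subgroupOf Z = S :=
    S.is_maximal' (T.isPGroup'.comap_of_injective _ Z.subtype_injective) (map_le_iff_le_comap.1 hT)
  have h2 : ¬ 2 ∣ (T : Subgroup G).relIndex Z := by rw [relIndex, h1]; exact S.not_dvd_index
  have h3 := T.not_dvd_index
  obtain ⟨j, hj⟩ := T.isPGroup'.index (Z.subgroupOf T)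
  have h4 : 2 ^ j * (T : Subgroup G).index = (T : Subgroup G).relIndex Z * Z.index := by
    rw [← hj, ← inf_relIndex_right (T : Subgroup G), relIndex_mul_index inf_le_right, inf_comm,
      ← relIndex_mul_index (inf_le_right (a := Z)), inf_relIndex_right]
    rfl
  obtain rfl : j = 2 := by
    obtain h5 | h5 | h5 := lt_trichotomy j 2
    · have : 4 ∣ 2 ^ j * (T : Subgroup G).index := h4 ▸ Dvd.dvd.mul_left (by omega) _
      interval_cases j <;> omega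
    · exact h5
    · have := (((Nat.Prime.coprime_iff_not_dvd Nat.prime_two).2 h2).pow_left 3).dvd_of_dvd_mul_left
        (h4 ▸ (pow_dvd_pow 2 h5).mul_right _)
      omega
  obtain ⟨n, hn⟩ := (T.isPGroup'.to_subgroup (Z.subgroupOf T)).exists_card_eq
  have h5 := (Z.subgroupOf T).card_mul_index
  obtain ⟨K, k1, k2⟩ := Sylow.exists_subgroup_card_pow_succ (by
    rw [← h5, hn, hj, ← pow_add]; exact pow_dvd_pow 2 (by omega)) hn
  have h6 := K.card_mul_index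
  have h7 : (K.map (T : Subgroup G).subtype).relIndex T = 2 := by
    rw [relIndex, subgroupOf, comap_map_eq_self_of_injective (subtype_injective _)]
    rw [← h5, hn, hj, k1] at h6
    exact Nat.eq_of_mul_eq_mul_left (by positivity) (h6.trans (by ring))
  have h8 : Z ⊓ T ≤ K.map (T : Subgroup G).subtype := fun x hx => ⟨⟨x, hx.2⟩, k2 hx.1, rfl⟩
  have h9 := relIndex_mul_relIndex _ _ _ h8 (map_subtype_le K)
  rw [h7, inf_relIndex_right, show Z.relIndex T = _ from hj, ← inf_relIndex_right, inf_assoc,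
    inf_eq_right.2 (map_subtype_le K), inf_relIndex_right] at h9
  exact ⟨T, _, Nat.odd_iff.2 (by omega), T.isPGroup', map_subtype_le K, h7, by omega,
    h8 ⟨hZ, hT ⟨_, hS (mem_zpowers _), rfl⟩⟩, h8⟩

/-- `g` fixes or interchanges `a` and `b` -/
def Pr (g a b : G) : Prop := (g * a * g⁻¹ = a ∧ g * b * g⁻¹ = b) ∨ (g * a * g⁻¹ = b ∧ g * b * g⁻¹ = a)

/-- four conjugates permuted imprimitively by a Sylow subgroup -/
structure Four (T K : Subgroup G) (s : G) (ρ : Fin 4 → G) : Prop where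
  odd : Odd T.index
  pg : IsPGroup 2 T
  le : K ≤ T
  ind : K.relIndex T = 2
  sT : s ∈ T
  sK : s ∉ K
  inj : Function.Injective ρ
  cj : ∀ i, IsConj (ρ 0) (ρ i)
  mem : ∀ i, ρ i ∈ K
  s0 : s * ρ 0 * s⁻¹ = ρ 2
  s1 : s * ρ 1 * s⁻¹ = ρ 3
  pr : ∀ g ∈ K, Pr g (ρ 0) (ρ 1)

theorem exists_four [Finite G] {r : G} (hr : r * r = 1) (h : (centralizer ({r} : Set G)).index % 8 = 4) :
    ∃ T K s ρ, Four T K s ρ ∧ ρ 0 = r := by
  obtain ⟨T, K, h1, h2, h3, h4, h5, h6, h7⟩ := exists_chain hr (mem_centralizer_singleton_iff.2 rfl) h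
  obtain ⟨s, s1, s2⟩ := exists_notMem h4
  obtain ⟨a, a1, a2⟩ := exists_notMem h5
  have hZ : ∀ {x y : G}, x * r * x⁻¹ = y * r * y⁻¹ ↔ y⁻¹ * x ∈ centralizer ({r} : Set G) := by
    intro x y
    rw [mem_centralizer_singleton_iff, mul_inv_eq_iff_eq_mul, mul_assoc y⁻¹, inv_mul_eq_iff_eq_mul]
    simp only [mul_assoc]
  have hK : ∀ g ∈ T, ∀ x ∈ K, g * x * g⁻¹ ∈ K := fun g hg x hx => by
    rw [mul_mem_iff h4 (mul_mem hg (h3 hx)) (inv_mem hg), mul_mem_iff h4 hg (h3 hx), inv_mem_iff]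
    tauto
  have h8 : ∀ x ∈ K, ∀ y ∈ K, x * r * x⁻¹ ≠ s * y * r * (s * y)⁻¹ := fun x hx y hy e => s2 (by
    have := h7 ⟨hZ.1 e, T.mul_mem (T.inv_mem (T.mul_mem s1 (h3 hy))) (h3 hx)⟩
    rwa [K.mul_mem_cancel_right hx, inv_mem_iff, K.mul_mem_cancel_right hy] at this)
  have h9 : 1 * r * 1⁻¹ ≠ a * r * a⁻¹ := fun e => a2 (by simpa using hZ.1 e)
  have h10 : s * 1 * r * (s * 1)⁻¹ ≠ s * a * r * (s * a)⁻¹ := fun e => a2 (by simpa using hZ.1 e)
  let w : Fin 4 → G := ![1, a, s * 1, s * a]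
  refine ⟨T, K, s, fun i => w i * r * (w i)⁻¹, ⟨h1, h2, h3, h4, s1, s2, fun i j e => ?_,
    fun i => isConj_iff.2 ⟨w i, by simp [w]⟩, fun i => hK _ ?_ _ h6, by simp [w],
    by simp [w, mul_assoc], fun g hg => ?_⟩, by simp [w]⟩
  · have := h8 1 K.one_mem 1 K.one_mem
    have := h8 1 K.one_mem a a1
    have := h8 a a1 1 K.one_mem
    have := h8 a a1 a a1
    fin_cases i <;> fin_cases j <;>
      first | rfl | exact absurd e (by assumption) | exact absurd e.symm (by assumption)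
  · fin_cases i <;> simp [w, T.one_mem, h3 a1, s1, mul_mem]
  · have e : ∀ x : G, g * (x * r * x⁻¹) * g⁻¹ = g * x * r * (g * x)⁻¹ := fun x => by group
    simp only [Pr, e, hZ]
    simp only [w, cons_val_zero, cons_val_one, inv_one, one_mul, mul_one]
    rw [mul_mem_iff h5 (inv_mem a1) (mul_mem hg a1), mul_mem_iff h5 hg a1,
      mul_mem_iff h5 (inv_mem a1) hg, inv_mem_iff]
    tauto

namespace Four

variable {T K : Subgroup G} {s g : G} {ρ : Fin 4 → G} (F : Four T K s ρ)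
include F

theorem inv_mul (hg : g ∈ T) (h : g ∉ K) : s⁻¹ * g ∈ K := by
  rw [mul_mem_iff F.ind (inv_mem F.sT) hg, inv_mem_iff]
  exact iff_of_false F.sK h

theorem conj_mem (hg : g ∈ T) {x : G} (hx : x ∈ K) : g * x * g⁻¹ ∈ K := by
  rw [mul_mem_iff F.ind (mul_mem hg (F.le hx)) (inv_mem hg), mul_mem_iff F.ind hg (F.le hx), inv_mem_iff]
  tauto

theorem pr' (hg : g ∈ K) : Pr g (ρ 2) (ρ 3) := by
  have e : ∀ x : G, g * (s * x * s⁻¹) * g⁻¹ = s * (s⁻¹ * g * s⁻¹⁻¹ * x * (s⁻¹ * g * s⁻¹⁻¹)⁻¹) * s⁻¹ :=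
    fun x => by group
  rw [Pr, ← F.s0, ← F.s1, e, e]
  exact (F.pr _ (F.conj_mem (inv_mem F.sT) hg)).imp (fun h => by rw [h.1, h.2]; exact ⟨rfl, rfl⟩)
    fun h => by rw [h.1, h.2]; exact ⟨rfl, rfl⟩

end Four

end H28.R4.Rx
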