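import Mathlib
import Cfsg.Agent.Base
import Cfsg.Agent.Lib.R4.ReflB

/-! Four commuting reflections: the diagonal `2`-elements. -/

set_option autoImplicit false

namespace H28.R4.Rx

open Matrix Subgroup Cfsg

variable {G k : Type*} [Group G] [Field k] {p : ℕ}

theorem Four.out {T K : Subgroup G} {s g : G} {ρ : Fin 4 → G} (F : Four T K s ρ) (hg : g ∈ T)
    (h : g ∉ K) : ((g * ρ 0 * g⁻¹ = ρ 2 ∧ g * ρ 1 * g⁻¹ = ρ 3) ∨
      (g * ρ 0 * g⁻¹ = ρ 3 ∧ g * ρ 1 * g⁻¹ = ρ 2)) ∧ ((g * ρ 2 * g⁻¹ = ρ 0 ∧ g * ρ 3 * g⁻¹ = ρ 1) ∨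
      (g * ρ 2 * g⁻¹ = ρ 1 ∧ g * ρ 3 * g⁻¹ = ρ 0)) := by
  have e : ∀ x : G, g * x * g⁻¹ = s * (s⁻¹ * g * x * (s⁻¹ * g)⁻¹) * s⁻¹ := fun x => by group
  have e' : ∀ x : G, g * (s * x * s⁻¹) * g⁻¹ = g * s * x * (g * s)⁻¹ := fun x => by group
  refine ⟨?_, ?_⟩
  · rw [e, e (ρ 1), ← F.s0, ← F.s1]
    exact (F.pr _ (F.inv_mul hg h)).imp (fun h => by rw [h.1, h.2]; exact ⟨rfl, rfl⟩)
      fun h => by rw [h.1, h.2]; exact ⟨rfl, rfl⟩
  · rw [← F.s0, ← F.s1, e', e']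
    exact F.pr _ ((mul_mem_iff F.ind hg F.sT).2 (iff_of_false h F.sK))

/-- the coordinate reflections -/
def Dg (k : Type*) [Field k] (i : Fin 4) : Matrix (Fin 4) (Fin 4) k :=
  diagonal fun j => if j = i then -1 else 1

theorem rf_Dg (i : Fin 4) : Rf (Dg k i) := by
  refine ⟨?_, ?_, ?_⟩
  · rw [Dg, diagonal_mul_diagonal, ← diagonal_one]
    congr 1
    funext j
    split_ifs <;> simp
  · fin_cases i <;> simp [Dg, Fin.sum_univ_four] <;> norm_num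
  · simp [Dg]

theorem Dg_comm (i j : Fin 4) : Dg k i * Dg k j = Dg k j * Dg k i := by
  simp only [Dg, diagonal_mul_diagonal, mul_comm]

theorem bi_Dg {i j : Fin 4} (e : i ≠ j) : Bi (Dg k i * Dg k j) := by
  refine ⟨?_, ?_⟩
  · rw [mul_assoc, ← mul_assoc (Dg k j), Dg_comm j i, mul_assoc, (rf_Dg j).1, mul_one, (rf_Dg i).1]
  · fin_cases i <;> fin_cases j <;> simp [Dg, Fin.sum_univ_four] at e ⊢

variable {C : Cx G k (Fin 4)} (H : C.Hy p) {ρ : Fin 4 → G} (hL : ∀ i, C.L (ρ i) (Dg k i))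
  {g : G} {M : Matrix (Fin 4) (Fin 4) k} {d : Fin 4 → k}
include H hL

theorem eqv (hM : C.L g M) {i j : Fin 4} (e : g * ρ i * g⁻¹ = ρ j) : M * Dg k i = Dg k j * M :=
  rf_equiv H.two hM (hL i) (rf_Dg i) (e ▸ hL j) (rf_Dg j)

theorem mono (hM : C.L g M) {i j : Fin 4} (e : g * ρ i * g⁻¹ = ρ j) {l : Fin 4} (hl : l ≠ j) :
    M l i = 0 := by
  have := congrFun (congrFun (eqv H hL hM e) l) i
  simp only [Dg, mul_diagonal, diagonal_mul, if_neg hl, if_true] at this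
  exact mul_left_cancel₀ H.two (by linear_combination -this)

theorem diag (hM : C.L g M) (e : ∀ i, g * ρ i * g⁻¹ = ρ i) : ∃ d, M = diagonal d :=
  ⟨M.diag, (IsDiag.diagonal_diag fun _ _ hl => mono H hL hM (e _) hl).symm⟩

theorem conj_diag (hM : C.L g M) {i j : Fin 4} (e : g * ρ i * g⁻¹ = ρ j) {d' : Fin 4 → k}
    (h : M * diagonal d = diagonal d' * M) : d' j = d i := by
  have := congrFun (congrFun h j) i
  rw [mul_diagonal, diagonal_mul, mul_comm] at this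
  refine (mul_right_cancel₀ (fun h0 => Cx.det_ne hM (det_eq_zero_of_column_eq_zero i fun l => ?_))
    this).symm
  by_cases hl : l = j
  · rwa [hl]
  · exact mono H hL hM e hl

omit H in
theorem upd (hg : C.L g (diagonal d)) {x : k} {b : Fin 4} (e : x ^ 2 = d b ^ 2) :
    ∃ g, C.L g (diagonal (Function.update d b x)) := by
  obtain rfl | rfl := sq_eq_sq_iff_eq_or_eq_neg.1 e
  · exact ⟨g, by rwa [Function.update_eq_self]⟩
  · refine ⟨_, (congrArg (C.L _) ?_).mp (C.mul hg (hL b))⟩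
    rw [Dg, diagonal_mul_diagonal]
    congr 1
    funext j
    by_cases h : j = b <;> simp [h]

theorem wt2 (hg : C.L g (diagonal d)) {a b c e : Fin 4} (hn : [a, b, c, e].Nodup)
    (hu : ∀ j, j = a ∨ j = b ∨ j = c ∨ j = e) (h1 : d a ^ 2 = d b ^ 2) (h2 : d c ^ 2 = d e ^ 2) :
    d a ^ 2 = d c ^ 2 := by
  simp only [List.nodup_cons, List.mem_cons, List.not_mem_nil, or_false, not_or] at hn
  obtain ⟨⟨n1, n2, n3⟩, ⟨n4, n5⟩, n6, -⟩ := hn
  obtain ⟨g1, k1⟩ := upd hL hg h1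
  obtain ⟨g2, k2⟩ := upd hL k1 (b := e) (h2.trans (by rw [Function.update_of_ne (Ne.symm n5)]))
  have h3 := H.two
  have := H.biax (C.mul (hL a) (hL b)) (bi_Dg n1) (x := (d c + d a) / 2) (y := (d c - d a) / 2)
    ((congrArg (C.L g2) (by
      rw [Dg, Dg, diagonal_mul_diagonal, ← diagonal_one, ← diagonal_smul, ← diagonal_smul, diagonal_add]
      congr 1
      funext j
      rcases hu j with rfl | rfl | rfl | rfl <;>
        simp [n1, n3, n5, n6, Ne.symm n1, Ne.symm n2, Ne.symm n3, Ne.symm n4, Ne.symm n5] <;>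
        field_simp <;> ring)).mp k2)
  simp only [div_eq_zero_iff, h3, or_false] at this
  linear_combination -mul_eq_zero.2 this

theorem alt (hg : C.L g (diagonal d)) (h : ∀ i, d i ^ 4 = d 0 ^ 4) :
    (∀ i, d i ^ 2 = d 0 ^ 2) ∨ (d 0 * d 1 * d 2 * d 3) ^ 2 = -d 0 ^ 8 := by
  have h0 : ∀ i, d i ^ 2 = d 0 ^ 2 ∨ d i ^ 2 = -d 0 ^ 2 := fun i =>
    sq_eq_sq_iff_eq_or_eq_neg.1 (by linear_combination h i)
  have h4 : ∀ {i j}, d i ^ 2 = d 0 ^ 2 → d j ^ 2 = d 0 ^ 2 → ∀ {l}, d l ^ 2 = d 0 ^ 2 →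
      (∀ m, m = 0 ∨ m = i ∨ m = j ∨ m = l) → ∀ m, d m ^ 2 = d 0 ^ 2 := fun a b _ c e m => by
    rcases e m with rfl | rfl | rfl | rfl <;> simp only [a, b, c]
  rcases h0 1 with h1 | h1 <;> rcases h0 2 with h2 | h2 <;> rcases h0 3 with h3 | h3
  · exact Or.inl (h4 h1 h2 h3 (by decide))
  · exact Or.inr (by rw [mul_pow, mul_pow, mul_pow, h1, h2, h3]; ring)
  · exact Or.inr (by rw [mul_pow, mul_pow, mul_pow, h1, h2, h3]; ring)
  · have := (wt2 H hL hg (by decide) (by decide) h1.symm (h2.trans h3.symm)).symm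
    exact Or.inl (h4 h1 this (h3.trans (h2.symm.trans this)) (by decide))
  · exact Or.inr (by rw [mul_pow, mul_pow, mul_pow, h1, h2, h3]; ring)
  · have := (wt2 H hL hg (by decide) (by decide) h2.symm (h1.trans h3.symm)).symm
    exact Or.inl (h4 h2 this (h3.trans (h1.symm.trans this)) (by decide))
  · have := (wt2 H hL hg (by decide) (by decide) h3.symm (h1.trans h2.symm)).symm
    exact Or.inl (h4 h3 this (h2.trans (h1.symm.trans this)) (by decide))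
  · exact Or.inr (by rw [mul_pow, mul_pow, mul_pow, h1, h2, h3]; ring)

variable {T K : Subgroup G} {s : G} (F : Four T K s ρ)
include F

theorem sq_of_pow (n : ℕ) : ∀ g : G, (∀ i, g * ρ i * g⁻¹ = ρ i) → g ^ 2 ^ n = 1 →
    ∃ d : Fin 4 → k, C.L g (diagonal d) ∧ ∀ i, d i ^ 2 = d 0 ^ 2 := by
  induction n with
  | zero => exact fun g _ h => ⟨1, by rw [pow_zero, pow_one] at h; exact h ▸ C.one, fun _ => rfl⟩
  | succ n ih =>
  intro g h1 h2
  obtain ⟨M, hM⟩ := C.ex g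
  obtain ⟨d, rfl⟩ := diag H hL hM h1
  obtain ⟨f, f1, f2⟩ := ih (g * g) (fun i => by
    rw [_root_.mul_inv_rev, mul_assoc g g, mul_assoc g, ← mul_assoc (g * ρ i), h1, ← mul_assoc, h1])
    (by rwa [pow_succ', pow_mul, sq] at h2)
  obtain ⟨c, -, hc⟩ := C.uniq f1 (C.mul hM hM)
  rw [diagonal_mul_diagonal, ← diagonal_smul, diagonal_eq_diagonal_iff] at hc
  have h3 : ∀ i, d i ^ 4 = d 0 ^ 4 := fun i => by
    have a := hc i
    have b := hc 0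
    simp only [Pi.smul_apply, smul_eq_mul] at a b
    linear_combination (d i ^ 2 + c * f i) * a - (d 0 ^ 2 + c * f 0) * b + c ^ 2 * f2 i
  refine ⟨d, hM, (alt H hL hM h3).resolve_right fun h4 => ?_⟩
  obtain ⟨N, hN⟩ := C.ex s
  have o1 := F.out (inv_mem F.sT) (mt inv_mem_iff.1 F.sK)
  obtain ⟨d', hd'⟩ := diag H hL (Cx.conj hN hM) fun i => by
    obtain ⟨j, hj⟩ : ∃ j, s⁻¹ * ρ i * s⁻¹⁻¹ = ρ j := by
      obtain ⟨o1 | o1, o2 | o2⟩ := o1 <;> fin_cases i <;>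
        first | exact ⟨_, o1.1⟩ | exact ⟨_, o1.2⟩ | exact ⟨_, o2.1⟩ | exact ⟨_, o2.2⟩
    calc _ = s * (g * (s⁻¹ * ρ i * s⁻¹⁻¹) * g⁻¹) * s⁻¹ := by group
      _ = _ := by rw [hj, h1, ← hj]; group
  have h5 := C.mul hM (hd' ▸ Cx.conj hN hM)
  rw [diagonal_mul_diagonal] at h5
  have h6 := fun i j e => conj_diag H hL hN (i := i) (j := j) e (d := d) (d' := d')
    (by rw [← hd', mul_assoc, Cx.inv_mul hN, mul_one])
  have h7 : d' 0 * d' 1 = d 2 * d 3 ∧ d' 0 ^ 4 = d 0 ^ 4 ∧ d' 1 ^ 4 = d 0 ^ 4 := by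
    obtain o | o := (F.out F.sT F.sK).2 <;> rw [h6 _ _ o.1, h6 _ _ o.2]
    exacts [⟨rfl, h3 _, h3 _⟩, ⟨mul_comm _ _, h3 _, h3 _⟩]
  have h8 := h6 _ _ F.s0
  have h9 := h6 _ _ F.s1
  have h0 : d 0 ≠ 0 := fun e => Cx.det_ne hM (by simp [Fin.prod_univ_four, e])
  obtain k1 | k1 := alt H hL h5 fun i => by
    fin_cases i <;> simp [mul_pow, h3, h7.2, h8, h9]
  · have := k1 1
    refine mul_ne_zero H.two (pow_ne_zero 8 h0) ?_
    linear_combination h4 - (d 0 * d' 0) ^ 2 * this - d 0 ^ 4 * h7.2.1 +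
      (d 0 * d 1) ^ 2 * (d' 0 * d' 1 + d 2 * d 3) * h7.1
  · refine mul_ne_zero H.two (pow_ne_zero 16 h0) ?_
    rw [h8, h9, show d 0 * d' 0 * (d 1 * d' 1) * (d 2 * d 0) * (d 3 * d 1) =
      (d 0 * d 1 * d 2 * d 3) * (d 0 * d 1 * (d' 0 * d' 1)) by ring, h7.1, mul_pow, ← mul_assoc, h4,
      mul_pow (d 0) (d' 0), show d' 0 ^ 8 = (d' 0 ^ 4) ^ 2 by ring, h7.2.1] at k1
    linear_combination k1

theorem struct (hg : g ∈ T) (h : ∀ i, g * ρ i * g⁻¹ = ρ i) :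
    g * g = 1 ∧ ((∃ i, g = ρ i) ∨ ∃ i, g = ρ 0 * ρ i) := by
  obtain ⟨n, hn⟩ := F.pg ⟨g, hg⟩
  obtain ⟨d, h1, h2⟩ := sq_of_pow H hL F n g h (congrArg Subtype.val hn)
  refine ⟨(Cx.eq_one_iff (C.mul h1 h1)).2 ⟨d 0 ^ 2, by
    rw [diagonal_mul_diagonal, smul_one_eq_diagonal]; exact congrArg _ (funext fun i => by
      rw [← h2 i, sq])⟩, ?_⟩
  have k1 : ∀ i c, (∀ j, d j = c * if j = i then -1 else 1) → g = ρ i := fun i c e =>
    (Cx.eq_of_smul (hL i) h1 (c := c) (by rw [Dg, ← diagonal_smul]; exact congrArg _ (funext e))).symm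
  have k2 : ∀ i c, (∀ j, d j = c * ((if j = 0 then -1 else 1) * if j = i then -1 else 1)) →
      g = ρ 0 * ρ i := fun i c e => (Cx.eq_of_smul (C.mul (hL 0) (hL i)) h1 (c := c) (by
        rw [Dg, Dg, diagonal_mul_diagonal, ← diagonal_smul]; exact congrArg _ (funext e))).symm
  have h0 := fun i => sq_eq_sq_iff_eq_or_eq_neg.1 (h2 i)
  rcases h0 1 with e1 | e1 <;> rcases h0 2 with e2 | e2 <;> rcases h0 3 with e3 | e3
  · exact Or.inr ⟨0, k2 _ (d 0) fun j => by fin_cases j <;> simp [e1, e2, e3]⟩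
  · exact Or.inl ⟨3, k1 _ (d 0) fun j => by fin_cases j <;> simp [e1, e2, e3]⟩
  · exact Or.inl ⟨2, k1 _ (d 0) fun j => by fin_cases j <;> simp [e1, e2, e3]⟩
  · exact Or.inr ⟨1, k2 _ (-d 0) fun j => by fin_cases j <;> simp [e1, e2, e3]⟩
  · exact Or.inl ⟨1, k1 _ (d 0) fun j => by fin_cases j <;> simp [e1, e2, e3]⟩
  · exact Or.inr ⟨2, k2 _ (-d 0) fun j => by fin_cases j <;> simp [e1, e2, e3]⟩
  · exact Or.inr ⟨3, k2 _ (-d 0) fun j => by fin_cases j <;> simp [e1, e2, e3]⟩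
  · exact Or.inl ⟨0, k1 _ (-d 0) fun j => by fin_cases j <;> simp [e1, e2, e3]⟩

end H28.R4.Rx
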