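import Mathlib
import Cfsg.Agent.Base
import Cfsg.Agent.Lib.R4.Base
import Cfsg.Agent.Lib.R4.ReflC

set_option autoImplicit false

namespace H28.R4

open Matrix Subgroup Cfsg
open scoped MatrixGroups

namespace Rx

variable {G k ι : Type*} [Group G] [Field k] [Fintype ι] [DecidableEq ι] {p : ℕ}

theorem Pr.sq {g a b : G} (h : Pr g a b) : g * g * a * (g * g)⁻¹ = a ∧ g * g * b * (g * g)⁻¹ = b := by
  have e : ∀ x : G, g * g * x * (g * g)⁻¹ = g * (g * x * g⁻¹) * g⁻¹ := fun x => by group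
  rcases h with h | h <;> simp only [e, h.1, h.2, and_self]

theorem rf_prod {X : Type*} [Monoid X] {A B D E : X} (a : A * A = 1) (d : D * D = 1) (e : A * D = E * A) (b : D * A = B * D) :
    E * D = A * B := by
  rw [← mul_one E, ← a, ← mul_assoc, ← e, mul_assoc A, b, mul_assoc, mul_assoc, d, mul_one]

open Classical in
theorem exists_sgn {K : Subgroup G} {a b : G} (hab : a ≠ b) (h : ∀ g ∈ K, Pr g a b) :
    ∃ μ : K →* kˣ, ∀ x : K, μ x = if x * a * (x : G)⁻¹ = a then 1 else -1 := by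
  refine ⟨MonoidHom.mk' (fun x => if x * a * (x : G)⁻¹ = a then 1 else -1) fun x y => ?_,
    fun _ => rfl⟩
  rw [show ((x * y : K) : G) * a * ((x * y : K) : G)⁻¹ = x * (y * a * (y : G)⁻¹) * (x : G)⁻¹ by
    push_cast; group]
  rcases h x x.2 with u | u <;> rcases h y y.2 with v | v <;> simp [u.1, u.2, v.1, hab.symm]

section
variable {C : Cx G k (Fin 4)} (H : C.Hy p) {ρ : Fin 4 → G} (hL : ∀ i, C.L (ρ i) (Dg k i))
  {T K : Subgroup G} {s : G} (F : Four T K s ρ)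
include H hL

theorem tr0 {x : G} {R : Matrix (Fin 4) (Fin 4) k} (hx : C.L x R) (hR : Rf R)
    (h : ∀ i, ∃ j, i ≠ j ∧ x * ρ i * x⁻¹ = ρ j) : False :=
  H.two (hR.2.1.symm.trans (Finset.sum_eq_zero fun i _ => (h i).elim fun _ e => mono H hL hx e.2 e.1))

include F

theorem caseA : False := by
  classical
  have := H.fin
  have h2 := H.two
  have hS : Bi (Dg k 0 * Dg k 1) := bi_Dg (by decide)
  have hK : K ≤ C.St (Dg k 0 * Dg k 1) := fun g hg => by
    obtain ⟨M, hM⟩ := C.ex g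
    rw [Cx.mem_St hM]
    obtain o | o := F.pr g hg <;>
      rw [← mul_assoc, eqv H hL hM o.1, mul_assoc, eqv H hL hM o.2, ← mul_assoc]
    rw [Dg_comm]
  obtain ⟨δ, hδ⟩ : ∃ δ : K →* kˣ, ∀ (x : K) M, C.L x M → (δ x : k) = del (Dg k 0 * Dg k 1) M :=
    (Cx.exists_del (C := C) h2 hS).elim fun δ hδ => ⟨δ.comp (inclusion hK), fun x => hδ (inclusion hK x)⟩
  have d1 : ∀ (x : K) R, C.L x R → Rf R → δ x = -1 := fun x R a b =>
    Units.ext ((hδ x R a).trans (del_rf C.card h2 hS (hK x.2 R a) b))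
  have d2 : ∀ g ∈ T, g ∉ K → ∀ x y : K, g * x * g⁻¹ = y → δ y = (δ x)⁻¹ := fun g hg hg' x y e => by
    obtain ⟨N, hN⟩ := C.ex g
    obtain ⟨M, hM⟩ := C.ex x
    have e1 : Dg k 2 * Dg k 3 = -(Dg k 0 * Dg k 1) := by
      simp only [Dg, diagonal_mul_diagonal, diagonal_neg]
      exact congrArg _ (funext fun j => by fin_cases j <;> simp)
    have e2 : N * (Dg k 0 * Dg k 1) * N⁻¹ = -(Dg k 0 * Dg k 1) := by
      obtain o | o := (F.out hg hg').1 <;> rw [← mul_assoc, eqv H hL hN o.1, mul_assoc (Dg k _),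
        eqv H hL hN o.2, ← mul_assoc, mul_assoc, Cx.mul_inv hN, mul_one]
      exacts [e1, (Dg_comm _ _).trans e1]
    refine Units.ext ?_
    rw [Units.val_inv_eq_inv_val, hδ x M hM, hδ y _ (e ▸ Cx.conj hN hM),
      ← del_cj (M := M) (Cx.mul_inv hN) (Cx.inv_mul hN), e2, del_neg, inv_inv]
  have n01 : ρ 0 ≠ ρ 1 := F.inj.ne (by decide)
  have n23 : ρ 2 ≠ ρ 3 := F.inj.ne (by decide)
  obtain ⟨μ, hμ⟩ := exists_sgn (k := k) n01 F.pr
  obtain ⟨ν, hν⟩ := exists_sgn (k := k) n23 fun g => F.pr'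
  have st := fun x : K => struct H hL F (F.le (x * x).2) fun i => by
    fin_cases i
    exacts [(F.pr _ x.2).sq.1, (F.pr _ x.2).sq.2, (F.pr' x.2).sq.1, (F.pr' x.2).sq.2]
  have mv : ∀ x : K, x * ρ 0 * (x : G)⁻¹ ≠ ρ 0 → x * ρ 2 * (x : G)⁻¹ ≠ ρ 2 →
      ∀ i, ∃ j, i ≠ j ∧ x * ρ i * (x : G)⁻¹ = ρ j := fun x a b i => by
    have u := (F.pr _ x.2).resolve_left fun e => a e.1
    have v := (F.pr' x.2).resolve_left fun e => b e.1
    fin_cases i
    exacts [⟨_, by decide, u.1⟩, ⟨_, by decide, u.2⟩, ⟨_, by decide, v.1⟩, ⟨_, by decide, v.2⟩]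
  have m1 : (-1 : kˣ) ≠ 1 := fun e => h2 (by
    have : (-1 : k) = 1 := congrArg Units.val e
    linear_combination -this)
  have d3 : ∀ x : K, μ x * ν x = 1 → δ x ^ 2 = 1 := fun x e => by
    rw [hμ, hν] at e
    rw [sq, ← map_mul]
    split_ifs at e with a b b
    · have u := (F.pr _ x.2).resolve_right fun e => n01 (a.symm.trans e.1)
      have v := (F.pr' x.2).resolve_right fun e => n23 (b.symm.trans e.1)
      rw [show x * x = 1 from Subtype.ext (struct H hL F (F.le x.2) fun i => by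
        fin_cases i
        exacts [u.1, u.2, v.1, v.2]).1, map_one]
    · exact absurd (by simpa using e) m1
    · exact absurd (by simpa using e) m1
    obtain ⟨i, hi⟩ | ⟨i, hi⟩ := (st x).2
    · obtain ⟨j, h3, h4⟩ := mv x a b i
      exact absurd (F.inj (h4.symm.trans (by rw [← hi]; simp [mul_assoc]))).symm h3
    · rw [show x * x = ⟨_, F.mem 0⟩ * ⟨_, F.mem i⟩ from Subtype.ext hi, map_mul,
        d1 _ _ (hL 0) (rf_Dg 0), d1 _ _ (hL i) (rf_Dg i)]
      simp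
  have d4 : ∀ x : K, μ x * ν x = 1 ∨ μ x * ν x = -1 := fun x => by
    rw [hμ, hν]; split_ifs <;> simp
  obtain ⟨n, hn⟩ : ∃ n : ℕ, ∀ x, δ x ^ 2 = (μ x * ν x) ^ n := by
    by_cases hg : ∀ g, δ g ^ 2 = 1
    · exact ⟨0, by simpa using hg⟩
    obtain ⟨g, hg⟩ := not_forall.1 hg
    have h3 : δ g ^ 2 = -1 := Units.ext ((mul_self_eq_one_iff.1 (by
      rw [← Units.val_mul, sq, ← map_mul, ← map_mul, show g * g * (g * g) = 1 from
        Subtype.ext (st g).1, map_one, Units.val_one])).resolve_left fun e => hg (Units.ext e))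
    refine ⟨1, fun x => ?_⟩
    obtain e | e := d4 x
    · rw [e, d3 x e, one_pow]
    have := d3 (x * g) (by
      rw [map_mul, map_mul, mul_mul_mul_comm, e, (d4 g).resolve_left (mt (d3 g) hg)]; simp)
    rw [map_mul, mul_pow, h3, mul_neg, mul_one, neg_eq_iff_eq_neg] at this
    rw [e, this, pow_one]
  refine transfer_false H.perfect F.odd F.le F.ind.le (δ * ν ^ n) (fun g hg x y e => ?_)
    ((sq _).trans (rf_sq (hL 0) (rf_Dg 0))) m1 fun g hg => ?_
  · by_cases hg' : g ∈ K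
    · rw [show y = ⟨g, hg'⟩ * x * ⟨g, hg'⟩⁻¹ from Subtype.ext e.symm, map_mul, map_mul, map_inv,
        mul_inv_cancel_comm]
    have h3 : ν y = μ x := by
      have h4 : ∀ a : G, y * (g * a * g⁻¹) * (y : G)⁻¹ = g * a * g⁻¹ ↔ x * a * (x : G)⁻¹ = a :=
        fun a => by rw [← e, ← mul_left_inj g, ← mul_right_inj g⁻¹]; simp [mul_assoc]
      rw [hμ, hν]
      refine if_congr ?_ rfl rfl
      obtain o | o := (F.out hg hg').1
      · rw [← o.1, h4]
      · rw [← o.2, h4]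
        rcases F.pr _ x.2 with u | u <;> simp [u.1, u.2, n01, n01.symm]
    have h4 : ν x * ν x = 1 := by rw [hν]; split_ifs <;> simp
    simp only [MonoidHom.mul_apply, MonoidHom.pow_apply, d2 g hg hg' x y e, h3]
    rw [eq_inv_mul_iff_mul_eq, ← mul_assoc, ← sq, hn, ← mul_pow, mul_assoc, h4, mul_one]
  · obtain ⟨R, a, b⟩ := rf_of_conj (hL 0) (rf_Dg 0) (isConj_iff.2 ⟨g, rfl⟩)
    have hx : g * ρ 0 * g⁻¹ ∈ K := by_contra fun h3 => tr0 H hL a b fun i => by
      obtain ⟨u | u, v | v⟩ := F.out hg h3 <;> fin_cases i <;>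
        first | exact ⟨_, by decide, u.1⟩ | exact ⟨_, by decide, u.2⟩ | exact ⟨_, by decide, v.1⟩ |
          exact ⟨_, by decide, v.2⟩
    refine ⟨hx, ?_⟩
    generalize hy : (⟨_, hx⟩ : K) = y
    replace a : C.L y R := hy ▸ a
    have h3 := hn y
    rw [d1 y R a b, hμ] at h3
    rw [MonoidHom.mul_apply, MonoidHom.pow_apply, d1 y R a b]
    by_cases h4 : y * ρ 2 * (y : G)⁻¹ = ρ 2
    · simp [hν, h4]
    · rw [if_pos (by_contra fun h5 => tr0 H hL a b (mv y h5 h4)), one_mul] at h3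
      simp [← h3]

end

end Rx

variable {G k ι : Type*} [Group G] [Field k] [Fintype ι] [DecidableEq ι] {C : Cx G k ι} {p : ℕ}
  {γ : Fin 6 → Fin 6 → Matrix ι ι k} {b : Fin 6 → Fin 6 → G}

open Rx in
/-- **(R)** there are no reflections -/
theorem Cx.Hy.nr (H : C.Hy p) : C.NR := fun r R hr hR => by
  have := H.fin
  have h2 := H.two
  obtain ⟨T, K, s, ρ, F, rfl⟩ := exists_four (rf_sq hr hR) (index_mod H hr hR)
  have h1 : ∀ i, ∃ v φ : ι → k, φ ⬝ᵥ v = 2 ∧ C.L (ρ i) (1 - vecMulVec v φ) ∧ Rf (1 - vecMulVec v φ) :=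
    fun i => by
    obtain ⟨R', b, c⟩ := rf_of_conj hr hR (F.cj i)
    obtain ⟨v, φ, d, rfl⟩ := c.exists_vec C.card h2
    exact ⟨v, φ, d, b, c⟩
  choose v φ h3 h4 h5 using h1
  have o : ∀ i j, i ≠ j → ρ i * ρ j * (ρ i)⁻¹ = ρ j → φ i ⬝ᵥ v j = 0 ∧ φ j ⬝ᵥ v i = 0 :=
    fun i j e e' => by
    have := rf_comm h2 (h4 i) (h4 j) (h5 j) (mul_inv_eq_iff_eq_mul.1 e')
    have h6 : vecMulVec (v i) (φ i) ≠ vecMulVec (v j) (φ j) := fun a => e (F.inj (C.inj (h4 i) (a ▸ h4 j)))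
    exact ⟨orth h2 (h3 i) (h3 j) this h6, orth h2 (h3 j) (h3 i) this.symm h6.symm⟩
  have n : ∀ {i j}, i ≠ j → ρ i ≠ ρ j := fun e => F.inj.ne e
  have c : ∀ {i j}, ρ i * ρ j * (ρ i)⁻¹ = ρ j → ρ j * ρ i * (ρ j)⁻¹ = ρ i := fun e => by
    rw [← mul_inv_eq_iff_eq_mul.1 e, mul_inv_cancel_right]
  have c01 := ((F.pr _ (F.mem 0)).resolve_right fun e => n (by decide)
    ((mul_inv_cancel_right _ _).symm.trans e.1)).2
  have c23 := ((F.pr' (F.mem 2)).resolve_right fun e => n (by decide)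
    ((mul_inv_cancel_right _ _).symm.trans e.1)).2
  obtain u | u := F.pr' (F.mem 0)
  · have c21 := ((F.pr _ (F.mem 2)).resolve_right fun e => n (by decide) ((c u.1).symm.trans e.1)).2
    have c31 := ((F.pr _ (F.mem 3)).resolve_right fun e => n (by decide) ((c u.2).symm.trans e.1)).2
    have cm : ∀ i j, ρ i * ρ j * (ρ i)⁻¹ = ρ j := by
      simp only [Fin.forall_fin_succ, mul_inv_cancel_right, IsEmpty.forall_iff, and_true, true_and]
      exact ⟨⟨c01, u.1, u.2⟩, ⟨c c01, c c21, c c31⟩, ⟨c u.1, c21, c23⟩, c u.2, c31, c c23⟩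
    let B : Matrix (Fin 4) ι k := of fun i => (2 : k)⁻¹ • φ i
    let B' : Matrix ι (Fin 4) k := (of v)ᵀ
    have b1 : B * B' = 1 := Matrix.ext fun i j => by
      change ((2 : k)⁻¹ • φ i) ⬝ᵥ v j = _
      rw [smul_dotProduct, one_apply]
      split_ifs with e
      · rw [e, h3, smul_eq_mul, inv_mul_cancel₀ h2]
      · rw [(o i j e (cm i j)).1, smul_zero]
    have b2 : B' * B = 1 :=
      (mul_eq_one_comm_of_equiv (Fintype.equivFinOfCardEq C.card).symm).1 b1
    refine caseA (H.cj b1 b2 (by simp)) (fun i => ?_) F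
    refine (congrArg (C.L _) ?_).mp (h4 i)
    rw [← b2]
    refine Matrix.ext fun x y => ?_
    fin_cases i <;> simp [B, B', Dg, mul_apply, vecMulVec_apply, Fin.sum_univ_four, diagonal] <;>
      field_simp <;> ring
  · have w := (F.pr _ (F.mem 2)).resolve_left fun e => n (by decide) ((c e.1).symm.trans u.1)
    have q := fun {g M} (hM : C.L g M) {i j} (e : g * ρ i * g⁻¹ = ρ j) =>
      rf_equiv h2 hM (h4 i) (h5 i) (e ▸ h4 j) (h5 j)
    have hS : Bi ((1 - vecMulVec (v 0) (φ 0)) * (1 - vecMulVec (v 1) (φ 1))) := by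
      refine ⟨?_, ?_⟩
      · rw [mul_assoc, ← mul_assoc (1 - vecMulVec (v 1) _), ← q (h4 0) c01, mul_assoc, (h5 1).1,
          mul_one, (h5 0).1]
      · simp only [mul_sub, sub_mul, mul_one, one_mul, vmv_mul, (o _ _ (by decide) c01).1, trace_sub,
          C.trace_one, trace_vecMulVec, dotProduct_comm (v _), h3, zero_smul, trace_zero]
        norm_num
    have e1 := q (h4 0) c01
    have e2 := q (h4 2) c23
    have hT : T ≤ C.St ((1 - vecMulVec (v 0) (φ 0)) * (1 - vecMulVec (v 1) (φ 1))) := fun g hg => by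
      obtain ⟨M, hM⟩ := C.ex g
      rw [Cx.mem_St hM]
      have e5 : (1 - vecMulVec (v 3) (φ 3)) * (1 - vecMulVec (v 2) (φ 2)) =
          (1 - vecMulVec (v 0) (φ 0)) * (1 - vecMulVec (v 1) (φ 1)) := by
        refine rf_prod (h5 0).1 (h5 2).1 (q (h4 0) u.1) (q (h4 2) w.1)
      by_cases hg' : g ∈ K
      · obtain o | o := F.pr g hg' <;> rw [← mul_assoc, q hM o.1, mul_assoc, q hM o.2, ← mul_assoc]
        rw [e1]
      · obtain o | o := (F.out hg hg').1 <;> rw [← mul_assoc, q hM o.1, mul_assoc, q hM o.2, ← mul_assoc]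
        · rw [e2, e5]
        · rw [e5]
    obtain ⟨δ, hδ⟩ := Cx.exists_del (C := C) h2 hS
    refine transfer_false H.perfect (F.odd.of_dvd_nat (index_dvd_of_le hT)) le_rfl (by simp) δ
      (fun g hg x y e => ?_) ((sq _).trans (rf_sq hr hR)) (c := -1) (fun e => h2 ?_) fun g hg => ⟨hg, ?_⟩
    · rw [show y = ⟨g, hg⟩ * x * ⟨g, hg⟩⁻¹ from Subtype.ext e.symm, map_mul, map_mul, map_inv,
        mul_inv_cancel_comm]
    · have : (-1 : k) = 1 := congrArg Units.val e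
      linear_combination -this
    · obtain ⟨R', a, b⟩ := rf_of_conj hr hR (isConj_iff.2 ⟨g, rfl⟩)
      exact Units.ext ((hδ _ R' a).trans (del_rf C.card h2 hS (hg R' a) b))

end H28.R4
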