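import Mathlib
import Cfsg.Agent.Base
import Cfsg.Agent.Lib.P43.Main

/-! An integral model of a Clifford frame: two by two matrices over the Eisenstein quaternions. -/

set_option autoImplicit false
set_option maxRecDepth 100000

namespace H28.R4.U4

open Matrix Subgroup Cfsg H54

/-- the Eisenstein integers -/
abbrev R := QuadraticAlgebra ℤ (-1) (-1)
/-- the quaternions -/
abbrev Q := QuaternionAlgebra R (-1) 0 (-1)
/-- the model ring -/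
abbrev W := Matrix (Fin 2) (Fin 2) Q

instance : DecidableEq Q := fun a b =>
  decidable_of_iff (a.re = b.re ∧ a.imI = b.imI ∧ a.imJ = b.imJ ∧ a.imK = b.imK) QuaternionAlgebra.ext_iff.symm

/-- conjugation of the coefficients -/
def cq : Q →+* Q where
  toFun a := ⟨star a.re, star a.imI, star a.imJ, star a.imK⟩
  map_one' := by ext1 <;> simp
  map_mul' a b := by ext1 <;> simp
  map_zero' := by ext1 <;> simp
  map_add' a b := by ext1 <;> simp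

/-- the adjoint -/
def dag (w : W) : W := star (w.map cq)

theorem dag_mul (v w : W) : dag (v * w) = dag w * dag v := by rw [dag, Matrix.map_mul, StarMul.star_mul, dag, dag]

theorem dag_dag (w : W) : dag (dag w) = w := by
  ext1 i j
  ext1 <;> simp [dag, cq]

/-- scalar matrices -/
def sc (z : R) : W := !![⟨z, 0, 0, 0⟩, 0; 0, ⟨z, 0, 0, 0⟩]
/-- diagonal matrices -/
def dq (x y : Q) : W := !![x, 0; 0, y]
/-- the reduced trace -/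
def tr (w : W) : R := 2 * ((w 0 0).re + (w 1 1).re)

theorem tr_dag (w : W) : tr (dag w) = star (tr w) := by simp [tr, dag, cq]

theorem sc_mul (x : R) (w : W) : sc x * w = x • w := by
  ext1 i j
  fin_cases i <;> ext1 <;> simp [sc, mul_apply, Fin.sum_univ_two]

def mI : W := dq ⟨0, 1, 0, 0⟩ ⟨0, 1, 0, 0⟩
def mJ : W := dq ⟨0, 0, 1, 0⟩ ⟨0, 0, 1, 0⟩
def mT : W := dq 1 (-1)
def mS : W := !![0, 1; -1, 0]
def mD : W := dq ⟨1, 1, 1, -1⟩ ⟨1, 1, 1, -1⟩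
def mH : W := dq ⟨⟨0, -1⟩, ⟨0, -1⟩, ⟨0, -1⟩, ⟨0, 1⟩⟩ ⟨2, 0, 0, 0⟩
/-- the first row of the frame -/
def g0 : Fin 6 → W := ![dq 1 1, mI, dq ⟨0, 0, 0, 1⟩ ⟨0, 0, 0, 1⟩, dq ⟨0, 0, 1, 0⟩ ⟨0, 0, -1, 0⟩,
  !![0, ⟨0, 0, 1, 0⟩; ⟨0, 0, 1, 0⟩, 0], !![0, ⟨0, 0, 1, 0⟩; ⟨0, 0, -1, 0⟩, 0]]
/-- the generators `t n a b u v d r w` -/
def mx (i : ℕ) : W := [mT, !![0, -1; -1, 0], g0 5, !![0, ⟨0, -1, 0, 0⟩; ⟨0, 1, 0, 0⟩, 0],
  dq ⟨0, 1, 0, 0⟩ ⟨0, 0, 0, -1⟩, dq ⟨0, 0, 0, 1⟩ ⟨0, 0, -1, 0⟩, mD,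
  !![0, ⟨⟨-1, -1⟩, ⟨1, 1⟩, ⟨1, 1⟩, ⟨-1, -1⟩⟩; ⟨⟨0, 1⟩, ⟨0, 1⟩, ⟨0, 1⟩, ⟨0, -1⟩⟩, 0],
  !![⟨0, -1, 1, 0⟩, ⟨0, 1, -1, 0⟩; ⟨0, 1, -1, 0⟩, ⟨0, 1, -1, 0⟩]].getD i 1
/-- the letters -/
def ml (l : ℕ) : W := if l % 2 = 0 then mx (l / 2) else dag (mx (l / 2))

theorem rels : ∀ w ∈ H63.P43.RU, (w.map ml).prod = sc ((w.map ml).prod 0 0).re := by decide +kernel

/-- unitary up to a power of two -/
def Un (w : W) (n : ℕ) : Prop := w * dag w = sc (4 ^ n) ∧ dag w * w = sc (4 ^ n)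

instance (w : W) (n : ℕ) : Decidable (Un w n) := inferInstanceAs (Decidable (_ ∧ _))

theorem un_mx : ∀ i < 9, ∃ n < 2, Un (mx i) n := by decide +kernel

theorem Un.mul {v w : W} {m n : ℕ} (a : Un v m) (b : Un w n) : Un (v * w) (m + n) := by
  have e : (4 ^ n : R) • sc (4 ^ m) = sc (4 ^ (m + n)) := by
    ext1 i j
    fin_cases i <;> fin_cases j <;> ext1 <;> simp [sc, pow_add, mul_comm]
  have e' : (4 ^ m : R) • sc (4 ^ n) = sc (4 ^ (m + n)) := by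
    ext1 i j
    fin_cases i <;> fin_cases j <;> ext1 <;> simp [sc, pow_add]
  constructor
  · rw [dag_mul, mul_assoc, ← mul_assoc w, b.1, sc_mul, mul_smul_comm, a.1, e]
  · rw [dag_mul, mul_assoc, ← mul_assoc (dag v), a.2, sc_mul, mul_smul_comm, b.2, e']

theorem Un.dag {w : W} {n : ℕ} (a : Un w n) : Un (dag w) n := ⟨by rw [dag_dag, a.2], by rw [dag_dag, a.1]⟩

theorem un_one : Un 1 0 := by decide +kernel

/-- `m` permutes the frame -/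
def Pm (σ : Equiv.Perm (Fin 6)) (m : W) : Prop :=
  ∀ j, m * g0 j = g0 (σ 0) * g0 (σ j) * m ∨ m * g0 j = -(g0 (σ 0) * g0 (σ j) * m)

instance (σ : Equiv.Perm (Fin 6)) (m : W) : Decidable (Pm σ m) := inferInstanceAs (Decidable (∀ _, _ ∨ _))

theorem pm4 : Pm (Equiv.swap 3 0 * Equiv.swap 2 1) (mx 4) := by decide +kernel
theorem pm5 : Pm (Equiv.swap 3 2 * Equiv.swap 0 1) (mx 5) := by decide +kernel
theorem pm6 : Pm (Equiv.swap 0 1 * Equiv.swap 0 2) (mx 6) := by decide +kernel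
theorem pm8 : Pm (Equiv.swap 3 4 * Equiv.swap 0 2) (mx 8) := by decide +kernel

/-- a homology without determinant -/
def m1 : W := dq ⟨-1, -1, -1, 1⟩ ⟨2, 0, 0, 0⟩

theorem facts : mD * mT = mT * mD ∧ mD * mD * mD = sc (-8) ∧ (mI - mJ) * (mI - mJ) = sc (-2) ∧
    (mI - mJ) * m1 * ((mI - mJ) * m1) = sc (-8) ∧ m1 + m1 = sc (-1) * (mD * (1 + mT)) + sc 2 * (1 - mT) ∧
    mH + mH = sc ⟨0, -1⟩ * (mD * (1 + mT)) + sc 2 * (1 - mT) ∧ mH * dag mH = sc 4 ∧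
    dag mH * mx 1 * mH = sc 2 * mx 7 ∧ mD = 1 + mI + mJ - mI * mJ := by
  decide +kernel

theorem facts' : g0 0 = 1 ∧ g0 1 = mI ∧ g0 2 = mI * mJ ∧ g0 3 = mJ * mT ∧ g0 4 = mJ * mT * mS ∧ g0 5 = mJ * mS ∧
    mx 0 = g0 4 * g0 5 ∧ mx 1 = g0 3 * g0 5 ∧ mx 2 = g0 0 * g0 5 ∧ mx 3 = g0 2 * g0 5 := by
  decide +kernel

end H28.R4.U4
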