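import Mathlib
import Cfsg.Agent.Base
import Cfsg.Agent.Lib.R4.FrA
import Cfsg.Agent.Lib.R4.U42a

/-! The integral model maps onto a Clifford frame. -/

set_option autoImplicit false
set_option linter.unusedSectionVars false

namespace H28.R4.U4

open Matrix Subgroup Cfsg H54

section units
variable {A : Type*} [Ring A] (θ : Q →+* A) {p s : A} (hp : p * p = p) (hs : s * s = -1) (sp : s * p = s - p * s)
  (cp : ∀ x, θ x * p = p * θ x) (cs : ∀ x, θ x * s = s * θ x)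

/-- matrix units -/
def eu (p s : A) : Fin 2 → Fin 2 → A := ![![p, p * s], ![p * s - s, 1 - p]]

include hp hs sp in
theorem eu_mul (a b c d : Fin 2) : eu p s a b * eu p s c d = if b = c then eu p s a d else 0 := by
  have h1 : ∀ x, p * (p * x) = p * x := fun x => by rw [← mul_assoc, hp]
  have h2 : ∀ x, s * (p * x) = s * x - p * (s * x) := fun x => by rw [← mul_assoc, sp, sub_mul, mul_assoc]
  fin_cases a <;> fin_cases b <;> fin_cases c <;> fin_cases d <;>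
    simp [eu, mul_sub, sub_mul, mul_add, mul_assoc, hp, hs, sp, h1, h2, neg_add_eq_sub]

include cp cs in
theorem eu_comm (x : Q) (a b : Fin 2) : eu p s a b * θ x = θ x * eu p s a b := by
  have h : θ x * (p * s) = p * s * θ x := by rw [← mul_assoc, cp, mul_assoc, cs, mul_assoc]
  fin_cases a <;> fin_cases b <;> simp [eu, mul_sub, sub_mul, h, cp, cs]

/-- the ring homomorphism defined by matrix units -/
def psi0 : W →+* A where
  toFun w := ∑ a, ∑ b, θ (w a b) * eu p s a b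
  map_one' := by simp [eu]
  map_mul' v w := by
    have k : ∀ x y a b c d, θ x * eu p s a b * (θ y * eu p s c d) =
        θ x * θ y * (if b = c then eu p s a d else 0) := fun x y a b c d => by
      rw [← eu_mul hp hs sp, mul_assoc, ← mul_assoc (eu p s a b), eu_comm θ cp cs, mul_assoc, mul_assoc]
    simp only [mul_apply, Fin.sum_univ_two, map_add, map_mul, add_mul, mul_add, k]
    simp
    abel
  map_zero' := by simp
  map_add' v w := by simp [add_mul, Finset.sum_add_distrib]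

end units

variable {k ι : Type*} [Field k] [Fintype ι] [DecidableEq ι] {γ : Fin 6 → Fin 6 → Matrix ι ι k} [Algebra R k]
  (h : Fr γ)
include h

/-- the quaternion algebra of the first three points -/
noncomputable def θ : Q →ₐ[R] Matrix ι ι k := QuaternionAlgebra.Basis.liftHom
  { i := γ 0 1
    j := γ 1 2
    k := γ 0 2
    i_mul_i := by rw [h.sq (by decide)]; simp
    j_mul_j := by rw [h.sq (by decide)]; simp
    i_mul_j := h.mul _ _ _
    j_mul_i := by rw [h.anti 1 0 (by decide), h.anti 2 1 (by decide), neg_mul_neg, h.mul, h.anti 0 2 (by decide)]; simp }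

theorem θ_eq (x : Q) : θ h x = x.re • 1 + x.imI • γ 0 1 + x.imJ • γ 1 2 + x.imK • γ 0 2 := by
  rw [← Algebra.algebraMap_eq_smul_one]; rfl

theorem θ_comm {X : Matrix ι ι k} (h1 : γ 0 1 * X = X * γ 0 1) (h2 : γ 1 2 * X = X * γ 1 2) (x : Q) :
    θ h x * X = X * θ h x := by
  simp only [θ_eq, add_mul, mul_add, smul_mul_assoc, mul_smul_comm, ← h.mul 0 1 2, mul_assoc, h2, one_mul, mul_one]
  simp only [← mul_assoc, h1]

theorem T_I : γ 0 1 * (γ 0 1 * γ 2 3) = γ 0 1 * γ 2 3 * γ 0 1 := by rw [mul_assoc, ← h.comm (by decide)]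

theorem JT : γ 1 2 * (γ 0 1 * γ 2 3) = -γ 0 3 := by
  rw [← mul_assoc, h.anti 2 1 (by decide), h.anti 1 0 (by decide), neg_mul_neg, h.mul, h.anti 0 2 (by decide), neg_mul,
    h.mul]

theorem T_J : γ 1 2 * (γ 0 1 * γ 2 3) = γ 0 1 * γ 2 3 * γ 1 2 := by
  rw [JT h, mul_assoc, h.anti 3 2 (by decide), h.anti 2 1 (by decide), neg_mul_neg, h.mul, h.anti 1 3 (by decide),
    mul_neg, h.mul]

theorem S_T : γ 3 4 * (γ 0 1 * γ 2 3) = -(γ 0 1 * γ 2 3 * γ 3 4) := by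
  rw [← mul_assoc, h.comm (by decide), mul_assoc, mul_assoc, h.mul, h.anti 4 3 (by decide), h.anti 3 2 (by decide),
    neg_mul_neg, h.mul, h.anti 2 4 (by decide), mul_neg]

theorem T_T : γ 0 1 * γ 2 3 * (γ 0 1 * γ 2 3) = 1 := by
  rw [← mul_assoc, ← T_I h, ← mul_assoc, h.sq (by decide), mul_assoc, h.sq (by decide)]; simp

variable (h2 : (2 : k) ≠ 0)

/-- the representation of the model ring -/
noncomputable def Ψ : W →+* Matrix ι ι k :=
  psi0 (θ h).toRingHom (p := (2 : k)⁻¹ • (1 + γ 0 1 * γ 2 3)) (s := γ 3 4)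
    (by
      simp only [smul_mul_assoc, mul_smul_comm, mul_add, add_mul, one_mul, mul_one, T_T h]
      match_scalars <;> field_simp <;> ring)
    (h.sq (by decide))
    (by
      simp only [smul_mul_assoc, mul_smul_comm, mul_add, add_mul, one_mul, mul_one, S_T h]
      match_scalars <;> (field_simp; try ring))
    (θ_comm h (by simp only [smul_mul_assoc, mul_smul_comm, mul_add, add_mul, one_mul, mul_one, T_I h])
      (by simp only [smul_mul_assoc, mul_smul_comm, mul_add, add_mul, one_mul, mul_one, T_J h]))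
    (θ_comm h (h.comm (by decide)) (h.comm (by decide)))

theorem Ψ_eq (w : W) : Ψ h h2 w = θ h (w 0 0) * ((2 : k)⁻¹ • (1 + γ 0 1 * γ 2 3)) +
    θ h (w 0 1) * ((2 : k)⁻¹ • (1 + γ 0 1 * γ 2 3) * γ 3 4) +
    (θ h (w 1 0) * ((2 : k)⁻¹ • (1 + γ 0 1 * γ 2 3) * γ 3 4 - γ 3 4) +
      θ h (w 1 1) * (1 - (2 : k)⁻¹ • (1 + γ 0 1 * γ 2 3))) := by
  simp [Ψ, psi0, eu]

theorem Ψ_dq (x : Q) : Ψ h h2 (dq x x) = θ h x := by simp [Ψ_eq, dq, mul_sub]

theorem Ψ_sc (z : R) : Ψ h h2 (sc z) = algebraMap R k z • 1 := by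
  rw [show sc z = dq ⟨z, 0, 0, 0⟩ ⟨z, 0, 0, 0⟩ from rfl, Ψ_dq, θ_eq]; simp

theorem Ψ_I : Ψ h h2 mI = γ 0 1 := by rw [mI, Ψ_dq, θ_eq]; simp
theorem Ψ_J : Ψ h h2 mJ = γ 1 2 := by rw [mJ, Ψ_dq, θ_eq]; simp
theorem Ψ_S : Ψ h h2 mS = γ 3 4 := by simp [Ψ_eq, mS]
theorem Ψ_T : Ψ h h2 mT = γ 0 1 * γ 2 3 := by
  simp only [Ψ_eq, mT, dq, of_apply, cons_val', cons_val_zero, cons_val_one, cons_val_fin_one, map_one, map_zero, map_neg,
    one_mul, zero_mul, neg_mul]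
  match_scalars <;> field_simp <;> ring

theorem Ψ_D : Ψ h h2 mD = 1 + γ 0 1 + γ 1 2 + γ 2 0 := by
  rw [facts.2.2.2.2.2.2.2.2, map_sub, map_add, map_add, map_mul, map_one, Ψ_I, Ψ_J, h.mul, h.anti 0 2 (by decide),
    sub_eq_add_neg]

variable (h4 : Fintype.card ι = 4)
include h2 h4

theorem g0_eq (i : Fin 6) : ∃ c : k, c ≠ 0 ∧ γ 0 i = c • Ψ h h2 (g0 i) := by
  obtain ⟨e0, e1, e2, e3, e4, e5, -⟩ := facts'
  fin_cases i
  · exact ⟨1, one_ne_zero, by simp [e0, h.self]⟩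
  · exact ⟨1, one_ne_zero, by simp [e1, Ψ_I]⟩
  · exact ⟨1, one_ne_zero, by simp [e2, Ψ_I, Ψ_J, h.mul]⟩
  · exact ⟨-1, by simp, by simp [e3, Ψ_J, Ψ_T, JT h]⟩
  · exact ⟨-1, by simp, by simp [e4, Ψ_J, Ψ_T, Ψ_S, JT h, h.mul]⟩
  · obtain ⟨c, hc, e⟩ := h.triple h4 h2 (i := 0) (j := 1) (l := 2) (m := 3) (n := 4) (o := 5) (by decide)
    refine ⟨-c, fun e => by simp [neg_eq_zero.1 e] at hc, ?_⟩
    have : γ 0 4 * (γ 0 1 * γ 2 3) = γ 1 2 * γ 3 4 := by
      rw [← h.mul 0 3 4, mul_assoc, S_T h, mul_neg, ← neg_mul, ← JT h, mul_assoc, ← mul_assoc (_ * _), T_T h, one_mul]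
    change γ 0 5 = -c • Ψ h h2 (g0 5)
    rw [e5, map_mul, Ψ_J, Ψ_S, ← this, e, mul_smul_comm, h.mul, smul_smul, neg_mul, hc, neg_neg, one_smul]

theorem g_eq (i j : Fin 6) : ∃ c : k, c ≠ 0 ∧ γ i j = c • Ψ h h2 (g0 i * g0 j) := by
  obtain ⟨c, c0, e⟩ := g0_eq h h2 h4 i
  obtain ⟨d, d0, e'⟩ := g0_eq h h2 h4 j
  by_cases hi : i = 0
  · exact ⟨d, d0, by rw [hi, facts'.1, one_mul, e']⟩
  refine ⟨-(c * d), by simp [c0, d0], ?_⟩
  rw [← h.mul i 0 j, h.anti 0 i (Ne.symm hi), e, e', map_mul, neg_mul, smul_mul_smul_comm, neg_smul]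

theorem pm_of {σ : Equiv.Perm (Fin 6)} {m : W} (a : Pm σ m) (i j : Fin 6) :
    ∃ c : k, Ψ h h2 m * γ i j = c • (γ (σ i) (σ j) * Ψ h h2 m) := by
  have k0 : ∀ i j, ∃ c : k, γ i j = c • γ j i := fun i j => by
    by_cases e : i = j
    · exact ⟨1, by rw [e, one_smul]⟩
    · exact ⟨-1, by rw [h.anti j i (Ne.symm e), neg_one_smul]⟩
  have k1 : ∀ j, ∃ c : k, Ψ h h2 m * γ 0 j = c • (γ (σ 0) (σ j) * Ψ h h2 m) := fun j => by
    obtain ⟨c, -, e⟩ := g0_eq h h2 h4 j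
    obtain ⟨d, d0, e'⟩ := g_eq h h2 h4 (σ 0) (σ j)
    rw [e, e', mul_smul_comm, smul_mul_assoc, ← map_mul, ← map_mul]
    rcases a j with e | e <;> rw [e]
    · exact ⟨c * d⁻¹, by rw [smul_smul, inv_mul_cancel_right₀ d0]⟩
    · exact ⟨-(c * d⁻¹), by rw [smul_smul, neg_mul, inv_mul_cancel_right₀ d0, map_neg, smul_neg, neg_smul]⟩
  obtain ⟨c1, e1⟩ := k0 i 0
  obtain ⟨c2, e2⟩ := k1 i
  obtain ⟨c3, e3⟩ := k1 j
  obtain ⟨c4, e4⟩ := k0 (σ 0) (σ i)
  refine ⟨c1 * c2 * c4 * c3, ?_⟩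
  rw [← h.mul i 0 j, ← h.mul (σ i) (σ 0) (σ j), e1, ← mul_assoc, mul_smul_comm, e2, e4]
  simp only [smul_mul_assoc, mul_assoc, e3, mul_smul_comm, smul_smul]

theorem tr_θ (x : Q) : (θ h x).trace = 4 * algebraMap R k x.re ∧ (θ h x * (γ 0 1 * γ 2 3)).trace = 0 := by
  have t := fun i j e => h.trace h4 h2 (i := i) (j := j) e
  constructor
  · simp [θ_eq, t, h4]
    rw [Algebra.smul_def, mul_comm]
  · have e1 : γ 0 1 * (γ 0 1 * γ 2 3) = -γ 2 3 := by rw [← mul_assoc, h.sq (by decide), neg_one_mul]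
    have e2 : γ 0 2 * (γ 0 1 * γ 2 3) = γ 1 3 := by
      rw [← mul_assoc, h.anti 2 0 (by decide), neg_mul, h.mul, h.anti 1 2 (by decide), neg_neg, h.mul]
    simp [θ_eq, add_mul, e1, e2, JT h, t, (h.bi h4 h2 (i := 0) (j := 1) (l := 2) (m := 3) (by decide)).2]

theorem tr_Ψ (w : W) : (Ψ h h2 w).trace = algebraMap R k (tr w) := by
  have c := θ_comm h (T_I h) (T_J h)
  have k0 : ∀ X : Matrix ι ι k, γ 0 1 * γ 2 3 * X = -(X * (γ 0 1 * γ 2 3)) → X.trace = 0 := fun X e => by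
    have e1 : X.trace = (γ 0 1 * γ 2 3 * X * (γ 0 1 * γ 2 3)).trace := by
      rw [trace_mul_comm, ← mul_assoc, T_T h, one_mul]
    rw [e, neg_mul, mul_assoc, T_T h, mul_one, trace_neg] at e1
    exact mul_left_cancel₀ h2 (by linear_combination e1)
  have k1 : ∀ x, (θ h x * γ 3 4).trace = 0 := fun x => k0 _ (by
    rw [← mul_assoc, ← c, mul_assoc, mul_assoc _ (γ 3 4), S_T h, mul_neg, neg_neg])
  have k2 : ∀ x, (θ h x * (γ 0 1 * γ 2 3 * γ 3 4)).trace = 0 := fun x => k0 _ (by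
    rw [← mul_assoc, ← c, mul_assoc, mul_assoc (θ h x), mul_assoc _ (γ 3 4), S_T h, mul_neg, mul_neg, neg_neg])
  simp only [Ψ_eq, smul_mul_assoc, mul_smul_comm, mul_add, add_mul, mul_sub, trace_add, trace_sub, trace_smul, one_mul,
    mul_one, k1, k2, (tr_θ h h2 h4 _).1, (tr_θ h h2 h4 _).2, tr, map_mul, map_add, map_ofNat, smul_eq_mul, smul_add]
  field_simp
  ring

end H28.R4.U4
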