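import Mathlib
import Cfsg.Agent.Base
import Cfsg.Agent.Lib.R4.Base
import Cfsg.Agent.Lib.R4.FrB

/-! Homologies of order three in the centraliser of a biaxial involution. -/

set_option autoImplicit false
set_option linter.unusedSectionVars false

namespace H28.R4.U4

open Matrix Subgroup Cfsg

theorem perm_norm : ∀ u x : Equiv.Perm (Fin 4), u * u = 1 → x * x * x = 1 → x * u * x⁻¹ ≠ u →
    u * (x * u * x⁻¹) = x * u * x⁻¹ * u → ∀ g : Equiv.Perm (Fin 4), g * g * g = 1 → g ≠ 1 →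
      ∃ e ∈ [1, u, x * u * x⁻¹, u * (x * u * x⁻¹)], e * g * e⁻¹ = x ∨ e * (g * g) * e⁻¹ = x := by
  decide +kernel

theorem perm_real : ∀ g : Equiv.Perm (Fin 4), g * g * g = 1 → ∃ y, y * g * y⁻¹ * g = 1 := by decide +kernel

variable {G k ι : Type*} [Group G] [Field k] [Fintype ι] [DecidableEq ι] {C : Cx G k ι} {p : ℕ}
  {γ : Fin 6 → Fin 6 → Matrix ι ι k} {b : Fin 6 → Fin 6 → G} {g d : G} {T M E : Matrix ι ι k}

/-- an element of order three which is trivial on the negative eigenspace of `T` -/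
structure Hm (T M : Matrix ι ι k) : Prop where
  comm : M * T = T * M
  triv : M * (1 - T) = 1 - T
  cube : M * M * M = 1

theorem Hm.sq (a : Hm T M) : Hm T (M * M) :=
  ⟨by rw [mul_assoc, a.comm, ← mul_assoc, a.comm, mul_assoc], by rw [mul_assoc, a.triv, a.triv],
    by rw [show M * M * (M * M) * (M * M) = M * M * M * (M * M * M) by simp only [mul_assoc], a.cube, one_mul]⟩

theorem Hm.conj {T' : Matrix ι ι k} (a : Hm T M) (hE : C.L g E) (e : E * T = T' * E) : Hm T' (E * M * E⁻¹) := by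
  have e1 : T' = E * T * E⁻¹ := by rw [e, mul_assoc, Cx.mul_inv hE, mul_one]
  have k : ∀ X Y : Matrix ι ι k, E * X * E⁻¹ * (E * Y * E⁻¹) = E * (X * Y) * E⁻¹ := fun X Y => by
    rw [mul_assoc, ← mul_assoc E⁻¹, ← mul_assoc E⁻¹, Cx.inv_mul hE, one_mul, mul_assoc, mul_assoc, mul_assoc]
  have e2 : 1 - T' = E * (1 - T) * E⁻¹ := by rw [e1, mul_sub, sub_mul, mul_one, Cx.mul_inv hE]
  exact ⟨by rw [e1, k, k, a.comm], by rw [e2, k, a.triv], by rw [k, k, a.cube, mul_one, Cx.mul_inv hE]⟩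

theorem det_cj (hE : C.L g E) : (E * M * E⁻¹).det = M.det := by
  rw [det_mul_comm, ← mul_assoc, Cx.inv_mul hE, one_mul]

theorem Hm.det (a : Hm T M) (h : M.det * M.det = 1) : M.det = 1 := by
  have := congrArg Matrix.det a.cube
  rwa [det_mul, det_mul, h, one_mul, det_one] at this

theorem Hm.cube' (a : Hm T M) (hg : C.L g M) : g * g * g = 1 :=
  (Cx.eq_one_iff (C.mul (C.mul hg hg) hg)).2 ⟨1, by rw [a.cube, one_smul]⟩

theorem Hm.chi_neg (a : Hm T M) (hg : C.L g M) (h : g ∈ C.St (-T)) : C.chi (-T) ⟨g, h⟩ = 1 :=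
  (Cx.chi_eq_one (x := ⟨g, h⟩) hg).2 ⟨1, by rw [one_smul, ← sub_eq_add_neg, a.triv]⟩

theorem Hm.del (a : Hm T M) (h2 : (2 : k) ≠ 0) : del T M = M.det := by
  have e1 : (2 : k)⁻¹ • (M * (1 + T) + (1 - T)) = M := by
    rw [← a.triv, ← mul_add, inv_smul_eq_iff₀ h2, two_smul, ← mul_two, ← one_add_one_eq_two]; congr 1; abel
  have e2 : (2 : k)⁻¹ • (M * (1 - T) + (1 + T)) = 1 := by rw [a.triv, inv_smul_eq_iff₀ h2, two_smul]; abel
  rw [R4.del, e1, e2, det_one, div_one]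

theorem one_add_ne (C : Cx G k ι) (h2 : (2 : k) ≠ 0) (hT : Bi T) : 1 + T ≠ 0 := fun e => by
  have := congrArg trace e
  rw [trace_add, C.trace_one, hT.2, add_zero, trace_zero] at this
  exact Fx.four_ne h2 this

theorem chi_ne (h2 : (2 : k) ≠ 0) (hT : Bi T) {x y : C.St T} (hx : C.L x M) (hy : C.L y E) (e : M * E = -(E * M)) :
    C.chi T x ≠ 1 := fun h => by
  obtain ⟨c, hc⟩ := (Cx.chi_eq_one hx).1 h
  have e1 : E * (1 + T) = (1 + T) * E := by rw [mul_add, add_mul, y.2 E hy, mul_one, one_mul]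
  have e2 : E * (M * (1 + T)) = -(E * (M * (1 + T))) := by
    nth_rewrite 1 [hc]
    rw [mul_smul_comm, e1, ← smul_mul_assoc, ← hc, mul_assoc, ← e1, ← mul_assoc, e, neg_mul, mul_assoc]
  have e3 := Fx.eq_zero_of_neg h2 e2
  rw [← mul_assoc] at e3
  exact one_add_ne C h2 hT ((Cx.unit (C.mul hy hx)).mul_right_eq_zero.1 e3)

section frame
variable (H : C.Hy p) (hS : Cx.SolC G) (h : C.FG γ b) (hT : T = γ 0 1 * γ 2 3 ∨ T = -(γ 0 1 * γ 2 3))
include H h hT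

theorem bi : Bi T := by
  have := h.toFr.bi C.card H.two (i := 0) (j := 1) (l := 2) (m := 3) (by decide)
  rcases hT with rfl | rfl
  exacts [this, this.neg]

theorem lift_t : C.L (b 4 5) T := by
  obtain ⟨c, hc, e⟩ := h.toFr.triple C.card H.two (i := 0) (j := 1) (l := 2) (m := 3) (n := 4) (o := 5) (by decide)
  have := C.smul (h.lift 4 5) (c := c) fun e => by simp [e] at hc
  rcases hT with rfl | rfl <;> rw [e]
  exacts [this, Cx.neg this]

theorem comm_T {i j : Fin 6} (e : Fx.ov i j 0 1 = Fx.ov i j 2 3) : γ i j * T = T * γ i j := by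
  have : γ i j * (γ 0 1 * γ 2 3) = γ 0 1 * γ 2 3 * γ i j := by
    cases e1 : Fx.ov i j 0 1
    · rw [← mul_assoc, h.toFr.cm0 e1, mul_assoc, h.toFr.cm0 (e ▸ e1), mul_assoc]
    · rw [← mul_assoc, h.toFr.cm1 e1, neg_mul, mul_assoc, h.toFr.cm1 (e ▸ e1), mul_neg, neg_neg, mul_assoc]
  rcases hT with rfl | rfl
  · exact this
  · rw [mul_neg, this, neg_mul]

theorem mem_b {i j : Fin 6} (e : Fx.ov i j 0 1 = Fx.ov i j 2 3) : b i j ∈ C.St T :=
  (Cx.mem_St (h.lift i j)).2 (comm_T H h hT e)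

theorem anti_T : γ 3 4 * T = -T * γ 3 4 := by
  have : γ 3 4 * (γ 0 1 * γ 2 3) = -(γ 0 1 * γ 2 3 * γ 3 4) := by
    rw [← mul_assoc, h.toFr.cm0 (by decide), mul_assoc, h.toFr.cm1 (by decide), mul_neg, mul_assoc]
  rcases hT with rfl | rfl
  · rw [this, neg_mul]
  · rw [mul_neg, this, neg_neg, neg_neg]

variable (hd : C.L d (1 + γ 0 1 + γ 1 2 + γ 2 0))
include hd

theorem mem_d : d ∈ C.St T := (Cx.mem_St hd).2 (by
  simp only [add_mul, mul_add, one_mul, mul_one, comm_T H h hT (i := 0) (j := 1) (by decide),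
    comm_T H h hT (i := 1) (j := 2) (by decide), comm_T H h hT (i := 2) (j := 0) (by decide)])

theorem facts_d : d * d * d = 1 ∧ d * b 0 1 * d⁻¹ = b 2 0 := by
  obtain ⟨-, h3, e⟩ := h.three H.two (i := 0) (j := 1) (l := 2) (by decide)
  refine ⟨(Cx.eq_one_iff (C.mul (C.mul hd hd) hd)).2 ⟨_, by rw [← h3, pow_three']⟩, ?_⟩
  rw [mul_inv_eq_iff_eq_mul]
  exact C.inj (C.mul hd (h.lift 0 1)) (e 0 1 ▸ C.mul (h.lift 2 0) hd)

include hS

theorem core : (Nonempty (C.Y T ≃* alternatingGroup (Fin 4)) ∨ Nonempty (C.Y T ≃* Equiv.Perm (Fin 4))) ∧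
    C.chi T ⟨d, mem_d H h hT hd⟩ * C.chi T ⟨b 0 1, mem_b H h hT (by decide)⟩ * (C.chi T ⟨d, mem_d H h hT hd⟩)⁻¹ ≠
      C.chi T ⟨b 0 1, mem_b H h hT (by decide)⟩ := by
  have := H.fin
  obtain ⟨e1, e2⟩ := facts_d H h hT hd
  have k1 : C.chi T ⟨b 0 1, mem_b H h hT (by decide)⟩ ≠ 1 := chi_ne H.two (bi H h hT)
    (y := ⟨b 1 2, mem_b H h hT (by decide)⟩) (h.lift 0 1) (h.lift 1 2) (h.toFr.cm1 (by decide))
  have k2 : C.chi T ⟨b 1 2, mem_b H h hT (by decide)⟩ ≠ 1 := chi_ne H.two (bi H h hT)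
    (y := ⟨b 0 1, mem_b H h hT (by decide)⟩) (h.lift 1 2) (h.lift 0 1) (h.toFr.cm1 (by decide))
  have k3 : C.chi T ⟨d, mem_d H h hT hd⟩ * C.chi T ⟨b 0 1, mem_b H h hT (by decide)⟩ *
      (C.chi T ⟨d, mem_d H h hT hd⟩)⁻¹ = C.chi T ⟨b 2 0, mem_b H h hT (by decide)⟩ := by
    rw [← map_inv, ← map_mul, ← map_mul]; exact congrArg _ (Subtype.ext e2)
  have k4 : C.chi T ⟨b 2 0, mem_b H h hT (by decide)⟩ ≠ C.chi T ⟨b 0 1, mem_b H h hT (by decide)⟩ := fun e => k2 (by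
    rw [← mul_inv_eq_one, ← map_inv, ← map_mul] at e
    rw [← e]
    refine congrArg _ (Subtype.ext ?_)
    change b 1 2 = b 2 0 * (b 0 1)⁻¹
    rw [eq_mul_inv_iff_mul_eq, h.comm H.two, h.mul' H.two, h.symm H.two])
  have s1 := hS _ (h.order H.two (i := 4) (j := 5) (by decide))
  have s2 : Group.IsSolvable (C.St T) :=
    Group.isSolvable_of_isSolvable_injective (inclusion_injective (Cx.St_le (lift_t H h hT)))
  refine ⟨(H.tame (bi H h hT)).a4 inferInstance (u := C.chi T ⟨b 0 1, mem_b H h hT (by decide)⟩)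
    (x := C.chi T ⟨d, mem_d H h hT hd⟩) (orderOf_eq_prime ?_ k1) ?_ ?_ (k3 ▸ k4), k3 ▸ k4⟩
  · rw [← map_pow, sq, ← map_one (C.chi T)]; exact congrArg _ (Subtype.ext (h.mul_self H.two 0 1))
  · rw [← map_pow, pow_three', ← map_one (C.chi T)]; exact congrArg _ (Subtype.ext e1)
  · rw [k3]; exact (show Commute (⟨b 0 1, _⟩ : C.St T) ⟨b 2 0, _⟩ from Subtype.ext (h.comm H.two _ _ _ _)).map _

/-- normal form of an element of order three which is trivial on one side -/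
theorem norm_hom (a : Hm T M) (hg : C.L g M) (h1 : M ≠ 1) : ∃ g' M' c, C.L g' M' ∧ Hm T M' ∧
    M' * (1 + T) = (c : k) • ((1 + γ 0 1 + γ 1 2 + γ 2 0) * (1 + T)) ∧ (M'.det = M.det ∨ M'.det = M.det * M.det) := by
  obtain ⟨c1, c2⟩ := core H hS h hT hd
  obtain ⟨f, hf⟩ : ∃ f : C.Y T →* Equiv.Perm (Fin 4), Function.Injective f := by
    rcases c1 with ⟨⟨e⟩⟩ | ⟨⟨e⟩⟩
    exacts [⟨(Subgroup.subtype _).comp e.toMonoidHom, Subtype.val_injective.comp e.injective⟩, ⟨e, e.injective⟩]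
  obtain ⟨e1, e2⟩ := facts_d H h hT hd
  have mg := (Cx.mem_St hg).2 a.comm
  let F := f.comp (C.chi T)
  have k : ∀ x : C.St T, x.1 = 1 → F x = 1 := fun x e => by rw [show x = 1 from Subtype.ext e, map_one]
  obtain ⟨e, he, h3⟩ := perm_norm (F ⟨b 0 1, mem_b H h hT (by decide)⟩) (F ⟨d, mem_d H h hT hd⟩)
    (by rw [← map_mul]; exact k _ (h.mul_self H.two 0 1)) (by rw [← map_mul, ← map_mul]; exact k _ e1)
    (fun e => c2 (hf (by rw [map_mul, map_mul, map_inv]; exact e)))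
    (by
      rw [← map_inv, ← map_mul, ← map_mul, ← map_mul, ← map_mul]
      exact congrArg F (Subtype.ext (by
        change b 0 1 * (d * b 0 1 * d⁻¹) = d * b 0 1 * d⁻¹ * b 0 1
        rw [e2, h.comm H.two])))
    (F ⟨g, mg⟩) (by rw [← map_mul, ← map_mul]; exact k _ (a.cube' hg)) fun e => by
      have g1 : g = 1 := by
        rcases H.chi_both (lift_t H h hT) (bi H h hT) mg (Cx.St_neg.ge mg) (hf (e.trans (map_one f).symm))
          (a.chi_neg hg _) with e | e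
        · exact e
        · have := a.cube' hg
          rwa [e, h.mul_self H.two, one_mul, ← e] at this
      obtain ⟨c, rfl⟩ := (Cx.eq_one_iff hg).1 g1
      have := a.triv
      rw [smul_mul_assoc, one_mul, sub_eq_add_neg 1 T] at this
      exact h1 (by rw [smul_left_injective _ (one_add_ne C H.two (bi H h hT).neg) (this.trans (one_smul _ _).symm),
        one_smul])
  obtain ⟨y, rfl⟩ : e ∈ F.range := by
    simp only [List.mem_cons, List.not_mem_nil, or_false] at he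
    rcases he with rfl | rfl | rfl | rfl
    · exact one_mem _
    · exact ⟨_, rfl⟩
    · exact mul_mem (mul_mem ⟨_, rfl⟩ ⟨_, rfl⟩) (inv_mem ⟨_, rfl⟩)
    · exact mul_mem ⟨_, rfl⟩ (mul_mem (mul_mem ⟨_, rfl⟩ ⟨_, rfl⟩) (inv_mem ⟨_, rfl⟩))
  obtain ⟨E, hE⟩ := C.ex y
  rcases h3 with h3 | h3
  · rw [← map_inv, ← map_mul, ← map_mul] at h3
    obtain ⟨c, hc⟩ := (Cx.chi_eq (x := y * ⟨g, mg⟩ * y⁻¹) (Cx.conj hE hg) hd).1 (hf h3)
    exact ⟨_, _, c, Cx.conj hE hg, a.conj hE (y.2 E hE), hc, Or.inl (det_cj hE)⟩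
  · rw [← map_inv, ← map_mul, ← map_mul, ← map_mul] at h3
    obtain ⟨c, hc⟩ := (Cx.chi_eq (x := y * (⟨g, mg⟩ * ⟨g, mg⟩) * y⁻¹) (Cx.conj hE (C.mul hg hg)) hd).1 (hf h3)
    exact ⟨_, _, c, Cx.conj hE (C.mul hg hg), a.sq.conj hE (y.2 E hE), hc, Or.inr ((det_cj hE).trans (det_mul _ _))⟩

theorem card_Y (a : Hm T M) (hg : C.L g M) (h1 : M.det ≠ 1) : Nat.card (C.Y T) = 12 := by
  rcases (core H hS h hT hd).1 with ⟨⟨e⟩⟩ | ⟨⟨e⟩⟩
  · rw [Nat.card_congr e.toEquiv, Nat.card_eq_fintype_card, card_alternatingGroup]; rfl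
  have mg := (Cx.mem_St hg).2 a.comm
  obtain ⟨y, hy⟩ := perm_real (e (C.chi T ⟨g, mg⟩)) (by
    rw [← map_mul, ← map_mul, ← map_mul, ← map_mul, ← map_one e, ← map_one (C.chi T)]
    exact congrArg _ (congrArg _ (Subtype.ext (a.cube' hg))))
  obtain ⟨y, rfl⟩ := e.surjective y
  obtain ⟨y, rfl⟩ := Cx.chi_surj y
  rw [← map_inv, ← map_mul, ← map_mul, ← map_mul, ← map_inv, ← map_mul, ← map_mul, ← map_mul, map_eq_one_iff _ e.injective] at hy
  obtain ⟨δ, hδ⟩ := Cx.exists_del (C := C) H.two (bi H h hT)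
  have h3 : δ (y * ⟨g, mg⟩ * y⁻¹ * ⟨g, mg⟩) = 1 := by
    have my := Cx.St_neg.ge y.2
    have mg' := Cx.St_neg.ge mg
    rcases H.chi_both (lift_t H h hT) (bi H h hT) (y * ⟨g, mg⟩ * y⁻¹ * ⟨g, mg⟩).2 (Cx.St_neg.ge (Subtype.prop _)) hy (by
      change C.chi (-T) (⟨y, my⟩ * ⟨g, mg'⟩ * ⟨y, my⟩⁻¹ * ⟨g, mg'⟩) = 1
      rw [map_mul, map_mul, map_mul, a.chi_neg hg, map_inv, mul_one, mul_one, mul_inv_cancel]) with e | e
    · rw [show y * ⟨g, mg⟩ * y⁻¹ * ⟨g, mg⟩ = 1 from Subtype.ext e, map_one]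
    · exact Units.ext ((hδ _ T (e ▸ lift_t H h hT)).trans (del_bi C.card H.two (bi H h hT) rfl (bi H h hT)))
  rw [map_mul, map_mul, map_mul, map_inv, mul_inv_cancel_comm] at h3
  have h4 := congrArg Units.val h3
  rw [Units.val_mul, hδ _ M hg, a.del H.two] at h4
  exact absurd (a.det h4) h1

theorem card_C (a : Hm T M) (hg : C.L g M) (h1 : M.det ≠ 1) : Nat.card (centralizer ({b 4 5} : Set G)) ≤ 576 := by
  have := H.fin
  have c1 := card_Y H hS h hT hd a hg h1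
  have c2 := card_Y H hS h (T := -T) (by rcases hT with rfl | rfl <;> simp) hd (a.conj (h.lift 3 4) (anti_T H h hT))
    (Cx.conj (h.lift 3 4) hg) (by rwa [det_cj (h.lift 3 4)])
  let f := (C.chi T).prod ((C.chi (-T)).comp (inclusion Cx.St_neg.ge))
  have c3 : Nat.card f.ker ≤ 2 := by
    rw [← h.order H.two (i := 4) (j := 5) (by decide), ← Nat.card_zpowers, ← card_map_of_injective (subtype_injective _)]
    refine card_le_of_le ?_
    rintro _ ⟨x, hx, rfl⟩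
    rcases H.chi_both (lift_t H h hT) (bi H h hT) x.2 (Cx.St_neg.ge x.2) (congrArg Prod.fst hx) (congrArg Prod.snd hx)
      with e | e
    · exact (show x.1 ∈ _ from e ▸ one_mem _)
    · exact (show x.1 ∈ _ from e ▸ mem_zpowers _)
  have c4 : f.ker.index ≤ 144 := by
    rw [index_ker]
    exact (card_le_card_group _).trans (by rw [Nat.card_prod, c1, c2])
  have c5 := Cx.relIndex_St H.two (lift_t H h hT) (bi H h hT).1
  rw [← ((C.St T).subgroupOf _).card_mul_index, Nat.card_congr (subgroupOfEquivOfLe (Cx.St_le (lift_t H h hT))).toEquiv,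
    ← f.ker.card_mul_index]
  exact Nat.mul_le_mul (Nat.mul_le_mul c3 c4) c5

end frame

end H28.R4.U4
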