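import Mathlib
import Cfsg.Agent.Base
import Cfsg.Agent.Lib.R4.U42b
import Cfsg.Agent.Lib.R4.U42c
import Cfsg.Agent.S0822

/-! A frame with automiser `A₅` and a homology of order three: the group is `U₄(2)`. -/

set_option autoImplicit false
set_option linter.unusedSectionVars false
set_option maxRecDepth 100000

namespace H28.R4

open Matrix Subgroup Cfsg H54 H27.W
open scoped MatrixGroups commutatorElement

variable {G k ι : Type*} [Group G] [Field k] [Fintype ι] [DecidableEq ι] {C : Cx G k ι} {p : ℕ}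
  {γ : Fin 6 → Fin 6 → Matrix ι ι k} {b : Fin 6 → Fin 6 → G}

namespace U4

theorem exists_alg {ω : k} (h : ω * ω = -1 - ω) : ∃ _ : Algebra R k, algebraMap R k ⟨0, 1⟩ = ω :=
  ⟨(QuadraticAlgebra.lift (R := ℤ) (a := -1) (b := -1) ⟨ω, by rw [h]; simp [sub_eq_add_neg]⟩).toRingHom.toAlgebra, by
    simp [RingHom.algebraMap_toAlgebra]⟩

theorem cm_cen {X : Type*} [Group X] {z : X} (hz : ∀ y, z * y = y * z) (u v : X) : ⁅z * u, v⁆ = ⁅u, v⁆ := by
  calc _ = z * (u * v * u⁻¹) * z⁻¹ * v⁻¹ := by rw [commutatorElement_def]; group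
    _ = _ := by rw [hz, commutatorElement_def]; group

variable [Algebra R k]

theorem alg_eq (z : R) : algebraMap R k z = z.re + z.im * algebraMap R k ⟨0, 1⟩ := by
  rw [← map_intCast (algebraMap R k), ← map_intCast (algebraMap R k), ← map_mul, ← map_add]
  congr 1
  ext <;> simp

theorem alg_sq : algebraMap R k ⟨0, 1⟩ ^ 2 = -1 - algebraMap R k ⟨0, 1⟩ := by
  rw [← map_pow, show (⟨0, 1⟩ : R) ^ 2 = -1 - ⟨0, 1⟩ by decide, map_sub, map_neg, map_one]

theorem alg_pow (hp : p.Prime) [CharP k p] (z : R) : (p % 3 = 1 → algebraMap R k z ^ p = algebraMap R k z) ∧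
    (p % 3 = 2 → algebraMap R k z ^ p = algebraMap R k (star z)) := by
  have := Fact.mk hp
  have h2 := alg_sq (k := k)
  have h3 : algebraMap R k ⟨0, 1⟩ ^ 3 = 1 := by linear_combination (algebraMap R k ⟨0, 1⟩ - 1) * h2
  have e : ∀ n : ℤ, (n : k) ^ p = n := fun n => map_intCast (frobenius k p) n
  rw [alg_eq z, alg_eq (star z), add_pow_char, mul_pow, e, e, pow_eq_pow_mod p h3]
  refine ⟨fun h => by rw [h, pow_one], fun h => ?_⟩
  rw [h, h2]
  simp
  ring

variable (h : C.FG γ b) (h2 : (2 : k) ≠ 0)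
include h2

theorem Un.psi {w : W} {n : ℕ} (a : Un w n) : Ψ h.toFr h2 w * ((4 ^ n : k)⁻¹ • Ψ h.toFr h2 (U4.dag w)) = 1 := by
  rw [mul_smul_comm, ← map_mul, a.1, Ψ_sc, map_pow, map_ofNat, inv_smul_smul₀ (pow_ne_zero _ (Fx.four_ne h2))]

theorem Un.lift {w : W} {n : ℕ} (a : Un w n) {g : G} (hg : C.L g (Ψ h.toFr h2 w)) :
    C.L g⁻¹ (Ψ h.toFr h2 (U4.dag w)) := by
  have := C.smul (Cx.inv_of_mul hg (a.psi h h2)) (pow_ne_zero n (Fx.four_ne h2))
  rwa [smul_inv_smul₀ (pow_ne_zero _ (Fx.four_ne h2))] at this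

theorem lift_b (i j : Fin 6) : C.L (b i j) (Ψ h.toFr h2 (g0 i * g0 j)) := by
  obtain ⟨c, c0, e⟩ := g_eq h.toFr h2 C.card i j
  have := C.smul (h.lift i j) (inv_ne_zero c0)
  rwa [e, inv_smul_smul₀ c0] at this

theorem lift_pm {σ : Equiv.Perm (Fin 6)} (hσ : σ ∈ Cx.fB b) {i : ℕ} (hi : i < 9) (a : Pm σ (mx i)) :
    ∃ g, C.L g (Ψ h.toFr h2 (mx i)) := by
  obtain ⟨n, -, u⟩ := un_mx i hi
  exact (h.of_matrix h2 hσ (IsUnit.of_mul_eq_one _ (u.psi h h2)) (pm_of h.toFr h2 C.card a)).imp fun _ => And.left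

/-- the matrices of the model -/
def Sg : Subgroup (GL ι k) where
  carrier := {u | ∃ w n, (2 ^ n : k) • u.val = Ψ h.toFr h2 w ∧ Un w n}
  one_mem' := ⟨1, 0, by simp, un_one⟩
  mul_mem' := by
    rintro u v ⟨w, n, e, a⟩ ⟨w', n', e', a'⟩
    exact ⟨_, _, by rw [map_mul, ← e, ← e', smul_mul_smul_comm, pow_add, Units.val_mul], a.mul a'⟩
  inv_mem' := by
    rintro u ⟨w, n, e, a⟩
    refine ⟨_, n, ?_, a.dag⟩
    have := a.psi h h2
    rw [← e, smul_mul_smul_comm, ← mul_smul_comm] at this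
    rw [Units.inv_eq_of_mul_eq_one_right this, smul_smul, ← mul_assoc, ← mul_pow, show (2 * 2 : k) = 4 by norm_num,
      mul_inv_cancel₀ (pow_ne_zero _ (Fx.four_ne h2)), one_smul]

theorem pat (H : C.Hy p) (h3 : p ≠ 3) (hS : C.P ≤ Sg h h2) : C.Pat3 p := by
  have := H.char
  have := Fact.mk H.prime
  have k0 : ∀ u ∈ C.P, (p % 3 = 1 → u.val.trace ^ p = u.val.trace) ∧
      (p % 3 = 2 → u.val.trace ^ p = (u⁻¹).val.trace) := fun u hu => by
    obtain ⟨w, n, e, a⟩ := hS hu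
    have e1 := congrArg trace e
    have e2 : (2 ^ n : k) • (u⁻¹).val = Ψ h.toFr h2 (dag w) := by
      have := a.psi h h2
      rw [← e, smul_mul_smul_comm, ← mul_smul_comm] at this
      rw [Units.inv_eq_of_mul_eq_one_right this, smul_smul, ← mul_assoc, ← mul_pow, show (2 * 2 : k) = 4 by norm_num,
        mul_inv_cancel₀ (pow_ne_zero _ (Fx.four_ne h2)), one_smul]
    have e3 := congrArg trace e2
    rw [trace_smul, tr_Ψ _ _ C.card, smul_eq_mul] at e1 e3
    have e4 := congrArg (· ^ p) e1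
    have e5 : (2 : k) ^ p = 2 := map_ofNat (frobenius k p) 2
    simp only [mul_pow] at e4
    rw [← pow_mul, mul_comm n, pow_mul, e5] at e4
    exact ⟨fun hp => mul_left_cancel₀ (pow_ne_zero n h2) (by rw [e4, (alg_pow H.prime _).1 hp, e1]),
      fun hp => mul_left_cancel₀ (pow_ne_zero n h2) (by rw [e4, (alg_pow H.prime _).2 hp, e3, tr_dag])⟩
  have : p % 3 ≠ 0 := fun e => h3 ((Nat.prime_dvd_prime_iff_eq Nat.prime_three H.prime).1 (Nat.dvd_of_mod_eq_zero e)).symm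
  rcases (show p % 3 = 1 ∨ p % 3 = 2 by omega) with e | e
  · exact Or.inl ⟨e, fun u hu => (k0 u hu).1 e⟩
  · exact Or.inr ⟨e, fun u hu => (k0 u hu).2 e⟩

theorem main (H : C.Hy p) (hB : ∀ σ, σ ∈ Cx.fB b ↔ Equiv.Perm.sign σ = 1 ∧ σ 5 = 5) {g : G}
    (hg : C.L g (Ψ h.toFr h2 mH)) (hc : Nat.card (centralizer ({b 4 5} : Set G)) ≤ 576) :
    Nonempty (G ≃* PSp 2 (ZMod 3)) ∧ C.P ≤ Sg h h2 := by
  have := H.fin
  have := H.simple
  obtain ⟨-, -, -, -, -, -, f0, f1, f2, f3⟩ := facts'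
  have ex : ∀ i < 9, ∃ g, C.L g (Ψ h.toFr h2 (mx i)) := fun i hi => by
    interval_cases i
    · exact ⟨_, f0 ▸ lift_b h h2 _ _⟩
    · exact ⟨_, f1 ▸ lift_b h h2 _ _⟩
    · exact ⟨_, f2 ▸ lift_b h h2 _ _⟩
    · exact ⟨_, f3 ▸ lift_b h h2 _ _⟩
    · exact lift_pm h h2 ((hB _).2 (by decide)) hi pm4
    · exact lift_pm h h2 ((hB _).2 (by decide)) hi pm5
    · exact lift_pm h h2 ((hB _).2 (by decide)) hi pm6
    · have := C.smul (C.mul (C.mul (Un.lift h h2 (n := 1) (by decide +kernel) hg) (f1 ▸ lift_b h h2 _ _)) hg)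
        (inv_ne_zero h2)
      rw [← map_mul, ← map_mul, facts.2.2.2.2.2.2.2.1, map_mul, Ψ_sc, map_ofNat, smul_mul_assoc, one_mul,
        inv_smul_smul₀ h2] at this
      exact ⟨_, this⟩
    · exact lift_pm h h2 ((hB _).2 (by decide)) hi pm8
  choose! x hx using ex
  have x0 : x 0 = b 4 5 := C.inj (hx 0 (by decide)) (f0 ▸ lift_b h h2 _ _)
  have hl : ∀ l < 18, C.L (xl x l) (Ψ h.toFr h2 (ml l)) := fun l hl => by
    rw [xl, ml]
    split_ifs
    · exact hx _ (by omega)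
    · obtain ⟨n, -, u⟩ := un_mx (l / 2) (by omega)
      exact u.lift h h2 (hx _ (by omega))
  have hw : ∀ w : List ℕ, (∀ l ∈ w, l < 18) → C.L (evW x w) (Ψ h.toFr h2 (w.map ml).prod) := fun w => by
    induction w with
    | nil => exact fun _ => by simpa using C.one
    | cons l w ih =>
      intro e
      rw [evW_cons, List.map_cons, List.prod_cons, map_mul]
      exact C.mul (hl l (e l (by simp))) (ih fun l hl => e l (by simp [hl]))
  have rel : Rels H63.P43.RU x := fun w a =>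
    (Cx.eq_one_iff (hw w ((by decide : ∀ w ∈ H63.P43.RU, ∀ l ∈ w, l < 18) w a))).2 ⟨_, by rw [rels w a, Ψ_sc]⟩
  obtain ⟨_, z, hz, e⟩ := H63.P43.exists_y (ZMod 3) rfl
  have := H11.Sp.isSimpleGroup_PSp_of_perfect (F := ZMod 3) (m := 2) (by omega)
    (H11.Sp.commutator_eq_top (Or.inr (Or.inl ⟨rfl, le_rfl⟩)))
  let E := (hz.equiv.some.trans (MulEquiv.subgroupCongr e)).trans topEquiv
  have := E.isSimpleGroup
  have em := (hom_of_bnd H63.P43.bndU H63.P43.p_rels (by decide +kernel) H63.P43.chU_card rel).emb_of_simple (by omega)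
    (x0 ▸ h.ne_one h2 (by decide))
  have cs : H63.P43.CS x := ⟨em.mono (by omega), eq_of_le_of_card_ge
    (gen_le fun i hi => mem_centralizer_singleton_iff.2 (by
      simpa [At, xl] using em.hom.eqs (H63.P43.p_wm.eqs (L := (List.range 8).map fun i => ([2 * i, 0], [0, 2 * i]))
        (by decide +kernel)) (by decide +kernel) _ (List.mem_map_of_mem (List.mem_range.2 hi))))
    (by rw [(em.mono (k := 8) (by omega)).card, H63.P43.cardC, x0]; exact hc)⟩
  have eq := em.hom.eqs (H63.P43.p_wm.eqs (L := [([16, 0, 17], [2]), ([16, 2, 17], [0]), ([16, 4, 17], [6]),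
    ([16, 6, 17], [4]), ([16, 16], []), ([16, 12, 17], [13])]) (by decide +kernel)) (by decide +kernel)
  simp only [List.forall_mem_cons, At, evW_cons, evW_nil, xl] at eq
  norm_num [← mul_assoc] at eq
  have ws : H63.P43.WS x (x 8) := ⟨cs, cs.ea.lin_of (F := fun k => if k = 1 then 2 else if k = 2 then 1 else 12 - k) (by
    simp [H63.P43.el1, H63.P43.el2, H63.P43.el4, H63.P43.el8, eq]), eq.2.2.2.2.1, eq.2.2.2.2.2⟩
  have top := ws.top
  rw [show upd x 8 (x 8) = x from funext fun i => by rw [upd]; split_ifs with e <;> simp [*]] at top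
  refine ⟨⟨((em.equiv.some.trans (MulEquiv.subgroupCongr top)).trans topEquiv).symm.trans E⟩, ?_⟩
  let K : Subgroup G :=
    { carrier := {g | ∃ u ∈ Sg h h2, C.L g u.val}
      one_mem' := ⟨1, one_mem _, C.one⟩
      mul_mem' := fun ⟨u, a, c⟩ ⟨v, a', c'⟩ => ⟨u * v, mul_mem a a', C.mul c c'⟩
      inv_mem' := fun ⟨u, a, c⟩ => ⟨u⁻¹, inv_mem a, Cx.inv_of_mul c u.mul_inv⟩ }
  have hK : gen x 9 ≤ K := gen_le fun i hi => by
    obtain ⟨n, -, u⟩ := un_mx i hi
    have := C.smul (hx i hi) (inv_ne_zero (pow_ne_zero n h2))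
    exact ⟨(Cx.unit this).unit, ⟨_, n, smul_inv_smul₀ (pow_ne_zero n h2) _, u⟩, this⟩
  have k1 : ∀ u ∈ C.Gam, ∃ z u', (∀ y, z * y = y * z) ∧ u' ∈ Sg h h2 ∧ u = z * u' := by
    rintro u ⟨g, hg⟩
    obtain ⟨u', a, c⟩ := hK (top.ge (mem_top g))
    obtain ⟨c, -, e⟩ := C.uniq c hg
    refine ⟨u * u'⁻¹, u', fun y => Units.ext ?_, a, by group⟩
    simp [e]
  refine commutator_le.2 fun u hu v hv => ?_
  obtain ⟨z, u, a, c, rfl⟩ := k1 u hu
  obtain ⟨z', v, a', c', rfl⟩ := k1 v hv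
  rw [cm_cen a, ← commutatorElement_inv, cm_cen a', commutatorElement_inv, commutatorElement_def]
  exact mul_mem (mul_mem (mul_mem c c') (inv_mem c)) (inv_mem c')

end U4

open U4 in
/-- a frame with automiser `A₅` and a homology of order three -/
theorem Cx.Hy.u42 (H : C.Hy p) (hR : C.NR) (hS : Cx.SolC G) (h : C.FG γ b)
    (hB : ∀ σ, σ ∈ Cx.fB b ↔ Equiv.Perm.sign σ = 1 ∧ σ 5 = 5) {T M : Matrix ι ι k} {g : G}
    (hT : T = γ 0 1 * γ 2 3 ∨ T = -(γ 0 1 * γ 2 3)) (hg : C.L g M) (hc : M * T = T * M) (h1 : M * (1 - T) = 1 - T)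
    (h3 : M ^ 3 = 1) (hd : M.det ≠ 1) :
    (∃ (K : Type) (_ : Field K) (_ : Fintype K), Fintype.card K = 4 ∧ Nonempty (G ≃* PSU 4 K 2)) ∧ C.Pat3 p := by
  have a : Hm T M := ⟨hc, h1, pow_three' M ▸ h3⟩
  clear hc h1 h3
  wlog e : T = γ 0 1 * γ 2 3 generalizing T M g
  · exact this (T := -T) (by rcases hT with rfl | rfl <;> simp) (Cx.conj (h.lift 3 4) hg)
      (by rwa [det_cj (h.lift 3 4)]) (a.conj (h.lift 3 4) (anti_T H h hT)) (by rw [hT.resolve_left e, neg_neg])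
  have h2 := H.two
  have := H.closed
  have := H.char
  obtain ⟨u, h3, e1⟩ := h.three h2 (i := 0) (j := 1) (l := 2) (by decide)
  obtain ⟨d, hd', -⟩ := h.of_matrix h2 ((hB (Equiv.swap 0 1 * Equiv.swap 0 2)).2 (by decide)) u fun i j => ⟨1, by rw [e1, one_smul]⟩
  have hc := card_C H hS h hT hd' a hg hd
  obtain ⟨g', M', c, hg', a', e2, e3⟩ := norm_hom H hS h hT hd' a hg fun e => hd (by rw [e, det_one])
  have hd'' : M'.det ≠ 1 := fun e => hd (by
    rcases e3 with e3 | e3 <;> rw [e] at e3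
    exacts [e3.symm, a.det e3.symm])
  subst e
  have k0 : ∀ [Algebra R k] {w : W} {z : R}, algebraMap R k z = 2 * c →
      w + w = sc z * (mD * (1 + mT)) + sc 2 * (1 - mT) → Ψ h.toFr h2 w = (2 : k) • M' := fun {_ w z} e e' => by
    have := congrArg (Ψ h.toFr h2) e'
    simp only [map_add, map_mul, map_sub, map_one, Ψ_sc, Ψ_D, Ψ_T, e, map_ofNat, smul_mul_assoc, one_mul] at this
    rw [mul_smul, ← e2, ← a'.triv, ← smul_add, ← mul_add, ← two_smul k] at this
    rw [smul_right_injective _ h2 this, two_smul, ← mul_two, ← one_add_one_eq_two]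
    congr 1
    abel
  have hD := (Cx.mem_St hd').1 (mem_d H h hT hd')
  have c3 : (-2 * c) ^ 3 = 1 := by
    have e4 : ∀ X, X * (γ 0 1 * γ 2 3) = γ 0 1 * γ 2 3 * X → M' * (X * (1 + γ 0 1 * γ 2 3)) =
        c • ((1 + γ 0 1 + γ 1 2 + γ 2 0) * X * (1 + γ 0 1 * γ 2 3)) := fun X hX => by
      have : X * (1 + γ 0 1 * γ 2 3) = (1 + γ 0 1 * γ 2 3) * X := by rw [mul_add, add_mul, hX, mul_one, one_mul]
      rw [this, ← mul_assoc, e2, smul_mul_assoc, mul_assoc, ← this, mul_assoc]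
    have e5 := congrArg (· * (1 + γ 0 1 * γ 2 3)) a'.cube
    simp only [mul_assoc] at e5
    rw [e2, mul_smul_comm, e4 _ hD, mul_smul_comm, mul_smul_comm, e4 _ (by rw [mul_assoc, hD, ← mul_assoc, hD, mul_assoc]),
      ← mul_assoc, ← pow_three', h3, one_mul, smul_mul_assoc, one_mul, smul_smul, smul_smul, smul_smul] at e5
    have := smul_left_injective _ (one_add_ne C h2 (bi H h hT)) (e5.trans (one_smul _ _).symm)
    linear_combination this
  have c1 : -2 * c ≠ 1 := fun e => by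
    obtain ⟨ω, hω⟩ : ∃ ω : k, ω * ω = -1 - ω := by
      obtain ⟨s, hs⟩ := IsAlgClosed.exists_eq_mul_self (-3 : k)
      exact ⟨(s - 1) / 2, by field_simp; linear_combination -hs⟩
    obtain ⟨_, -⟩ := exists_alg hω
    have e4 := k0 (z := -1) (by rw [map_neg, map_one, ← e]; ring) facts.2.2.2.2.1
    have e5 := congrArg (fun w => (Ψ h.toFr h2 w).det) facts.2.2.1
    have e6 := congrArg (fun w => (Ψ h.toFr h2 w).det) facts.2.2.2.1
    simp only [map_mul, det_mul, e4, Ψ_sc, C.det_smul', det_one, map_neg, map_ofNat] at e5 e6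
    refine hd'' (a'.det (mul_left_cancel₀ (pow_ne_zero 12 h2) ?_))
    linear_combination e6 - 2 ^ 8 * M'.det ^ 2 * e5
  obtain ⟨_, hω⟩ := exists_alg (ω := -2 * c) (mul_left_cancel₀ (sub_ne_zero.2 c1) (by linear_combination c3))
  have e4 := k0 (z := ⟨0, -1⟩) (by rw [alg_eq, hω]; simp) facts.2.2.2.2.2.1
  obtain ⟨⟨E⟩, hP⟩ := main h h2 H hB (e4 ▸ C.smul hg' h2) hc
  let _ := Fintype.ofFinite (GaloisField 2 2)
  have c4 : Fintype.card (GaloisField 2 2) = 4 := by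
    rw [← Nat.card_eq_fintype_card, GaloisField.card 2 2 two_ne_zero]; rfl
  refine ⟨⟨GaloisField 2 2, inferInstance, inferInstance, c4,
    ⟨E.trans (Cfsg.Agent.S0822.result (K := ZMod 3) c4 rfl).some.symm⟩⟩, pat h h2 H (fun e => c1 ?_) hP⟩
  subst e
  have := Fact.mk Nat.prime_three
  exact (frobenius k 3).injective (c3.trans (map_one _).symm)

end H28.R4
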